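import Cfsg.Agent.H5.AutT

set_option autoImplicit false
set_option maxRecDepth 100000

namespace Cfsg.Agent.H5

open Cfsg.Lie

section rigid
variable {K : Type*} [Field K]

/-- multiplication in a Suzuki 2-group -/
def szM (θ : K →+* K) (x y : K × K) : K × K := (x.1 + y.1, x.2 + y.2 + θ x.1 * y.1)

theorem sz_rigid [CharP K 2] {θ : K →+* K} (h2 : ∀ t, θ (θ t) ^ 2 = t) {σ : K ≃+* K} (hc : ∀ t, σ (θ t) = θ (σ t)) (hn : ∃ t, θ t ≠ t)
    {F : K × K → K × K} (hi : Function.Injective F) (hm : ∀ x y, F (szM θ x y) = szM θ (F x) (F y))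
    (he : ∀ k ≠ 0, ∀ x, F (k * x.1, θ k * k * x.2) = (σ k * (F x).1, θ (σ k) * σ k * (F x).2)) :
    ∃ d : Kˣ, ∀ x, F x = (d * σ x.1, θ d * d * σ x.2) := by
  have h0 : (2 : K) = 0 := CharP.cast_eq_zero K 2
  have sq : ∀ x : K × K, szM θ x x = (0, θ x.1 * x.1) := fun x => Prod.ext (CharTwo.add_self_eq_zero _) (by
    simp [szM, CharTwo.add_self_eq_zero])
  have hs : ∀ x : K × K, F (0, θ x.1 * x.1) = (0, θ (F x).1 * (F x).1) := fun x => by rw [← sq, hm, sq]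
  have z1 : (F (0, 0)).1 = 0 := by simpa using congrArg Prod.fst (hs 0)
  have z : F (0, 0) = (0, 0) := by have := hs (0, 0); rw [z1] at this; simpa using this
  have su : ∀ b : K, ∃ a, θ a * a = b := fun b => ⟨b ^ 2 / θ b ^ 2, by
    by_cases h : b = 0
    · simp [h]
    have := (map_ne_zero θ).2 h
    rw [map_div₀, map_pow, map_pow, h2]; field_simp⟩
  have hd : (F (1, 0)).1 ≠ 0 := fun h => by
    have := hs (1, 0)
    rw [h, mul_zero, ← z] at this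
    simpa using hi this
  set d := (F (1, 0)).1
  set e := (F (1, 0)).2
  have f1 : ∀ a, F (a, 0) = (d * σ a, θ (σ a) * σ a * e) := fun a => by
    by_cases h : a = 0
    · simp [h, z]
    simpa [mul_comm] using he a h (1, 0)
  have f2 : ∀ b, F (0, b) = (0, θ d * d * σ b) := fun b => by
    obtain ⟨a, rfl⟩ := su b
    rw [hs (a, 0), f1]; simp only [map_mul, hc]; congr 1; ring
  have f3 : ∀ a b, F (a, b) = szM θ (F (a, 0)) (F (0, b)) := fun a b => by rw [← hm]; simp [szM]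
  have e0 : e = 0 := by
    obtain ⟨t, ht⟩ := hn
    obtain ⟨a, rfl⟩ := σ.surjective t
    have := congrArg Prod.snd (hm (a, 0) (1, 0))
    rw [szM, f3, f1, f1, f1, f2] at this
    simp only [szM, map_add, map_mul, map_one, hc, mul_one, zero_add, mul_zero, add_zero] at this
    exact (mul_eq_zero.1 (show (θ (σ a) - σ a) * e = 0 by linear_combination this - σ a * e * h0)).resolve_left (sub_ne_zero.2 ht)
  exact ⟨Units.mk0 d hd, fun x => by rw [f3 x.1 x.2, f1, f2]; simp [szM, e0]⟩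

/-- multiplication in the Sylow 3-subgroup of a Ree group -/
def reM (s : K →+* K) (x y : K × K × K) : K × K × K :=
  (x.1 + y.1, x.2.1 + y.2.1 - x.1 * s y.1, x.2.2 + y.2.2 - x.1 ^ 2 * s y.1 - x.2.1 * y.1 + x.1 * y.1 * s y.1)

/-- the torus action -/
def reA (s : K →+* K) (d : K) (x : K × K × K) : K × K × K := (d * x.1, d * s d * x.2.1, d ^ 2 * s d * x.2.2)

theorem ree_rigid [CharP K 3] [Finite K] {s : K →+* K} (h2 : ∀ t, s (s t) = t ^ 3) {n : ℕ} (hc : ∀ t, s t = t ^ n) (hn : ∃ t, s t ≠ t)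
    {F : K × K × K → K × K × K} (hi : Function.Injective F) (hm : ∀ x y, F (reM s x y) = reM s (F x) (F y))
    (he : ∀ d ≠ 0, ∃ d', ∀ x, F (reA s d x) = reA s d' (F x)) :
    ∃ (e : Kˣ) (τ : K ≃+* K), ∀ x, F x = reA s e (τ x.1, τ x.2.1, τ x.2.2) := by
  have h0 : (3 : K) = 0 := CharP.cast_eq_zero K 3
  have h1 : ∀ t : K, t = -t → t = 0 := fun t h => by linear_combination -h + t * h0
  have cu : ∀ x : K × K × K, reM s (reM s x x) x = (0, 0, -(x.1 ^ 2 * s x.1)) := fun x => by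
    simp only [reM, Prod.mk.injEq]
    exact ⟨by linear_combination x.1 * h0, by linear_combination (x.2.1 - x.1 * s x.1) * h0,
      by linear_combination (x.2.2 - x.1 * x.2.1) * h0⟩
  have hs : ∀ x : K × K × K, F (0, 0, -(x.1 ^ 2 * s x.1)) = (0, 0, -((F x).1 ^ 2 * s (F x).1)) := fun x => by rw [← cu, hm, hm, cu]
  have z1 : (F (0, 0, 0)).1 = 0 := by simpa using congrArg Prod.fst (hs 0)
  have z : F (0, 0, 0) = (0, 0, 0) := by have := hs (0, 0, 0); rw [z1] at this; simpa using this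
  have z2 : ∀ b c, (F (0, b, c)).1 = 0 := fun b c => by simpa [z] using hs (0, b, c)
  have sp : ∀ a b c, F (a, b, c) = reM s (F (a, 0, 0)) (F (0, b, c)) := fun a b c => by rw [← hm]; simp [reM]
  have sp' : ∀ b c, F (0, b, c) = reM s (F (0, b, 0)) (F (0, 0, c)) := fun b c => by rw [← hm]; simp [reM]
  have hd : (F (1, 0, 0)).1 ≠ 0 := fun h => by
    have := hs (1, 0, 0)
    rw [h, zero_pow two_ne_zero, zero_mul, neg_zero, ← z] at this
    simpa using hi this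
  set e := (F (1, 0, 0)).1
  have he' : ∀ d ≠ 0, ∀ x, F (reA s d x) = reA s (e⁻¹ * (F (d, 0, 0)).1) (F x) := fun d h => by
    obtain ⟨d', h'⟩ := he d h
    have := congrArg Prod.fst (h' (1, 0, 0))
    simp only [reA, mul_one, mul_zero] at this
    rwa [this, mul_comm d', inv_mul_cancel_left₀ hd]
  let τ₀ : K →+* K :=
    { toFun := fun a => e⁻¹ * (F (a, 0, 0)).1
      map_one' := inv_mul_cancel₀ hd
      map_zero' := by rw [z1, mul_zero]
      map_mul' := fun a b => by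
        by_cases h : a = 0
        · simp [h, z1]
        have := congrArg Prod.fst (he' a h (b, 0, 0))
        simp only [reA, mul_zero] at this
        rw [this]; ring
      map_add' := fun a b => by
        have := congrArg Prod.fst (hm (a, 0, 0) (b, 0, 0))
        rw [reM, sp] at this
        simp only [reM, z2, add_zero] at this
        rw [this, mul_add] }
  let τ := RingEquiv.ofBijective τ₀ (Finite.injective_iff_bijective.1 τ₀.injective)
  have hτ : ∀ a, (F (a, 0, 0)).1 = e * τ a := fun a => (mul_inv_cancel_left₀ hd _).symm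
  replace he' : ∀ d ≠ 0, ∀ x, F (reA s d x) = reA s (τ d) (F x) := he'
  have hc' : ∀ t, τ (s t) = s (τ t) := fun t => by simp [hc]
  have f3 : ∀ c, F (0, 0, c) = (0, 0, e ^ 2 * s e * τ c) := fun c => by
    obtain ⟨a, ha⟩ : ∃ a, -(a ^ 2 * s a) = c := ⟨-(c ^ 2 / s c), by
      by_cases h : c = 0
      · simp [h]
      have := (map_ne_zero s).2 h
      rw [map_neg, map_div₀, map_pow, h2]; field_simp⟩
    rw [← ha, hs (a, 0, 0), hτ]; simp only [map_mul, map_neg, map_pow, hc']; congr 2; ring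
  have f2 : ∀ b, F (0, b, 0) = (0, e * s e * τ b, 0) := fun b => by
    have k1 := congrArg (fun x => x.2.2) (he' (-1) (by simp) (0, b, 0))
    have k2 := congrArg (fun x => x.2.2) (hm (0, b, 0) (1, 0, 0))
    rw [reM, sp, sp'] at k2
    simp only [reA, map_neg, map_one, mul_zero, neg_mul, mul_neg, one_mul, neg_neg, even_two.neg_pow, one_pow, mul_one] at k1
    simp only [reM, zero_add, add_zero, mul_zero, sub_zero, zero_mul, mul_one, map_zero, zero_sub, f3, z2, map_neg,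
      zero_pow two_ne_zero] at k2
    exact Prod.ext (z2 b 0) (Prod.ext (mul_left_cancel₀ hd (by linear_combination k2)) (h1 _ k1))
  have ad : ∀ a a', (F (a + a', 0, 0)).2.1 = (F (a, 0, 0)).2.1 + (F (a', 0, 0)).2.1 ∧
      (F (a + a', 0, 0)).2.2 = (F (a, 0, 0)).2.2 + (F (a', 0, 0)).2.2 - (F (a, 0, 0)).2.1 * (e * τ a') := fun a a' => by
    have := hm (a, 0, 0) (a', 0, 0)
    rw [reM, sp, sp', f2, f3] at this
    simp only [reM, hτ, Prod.mk.injEq, map_add, map_sub, map_mul, map_pow, map_zero, hc'] at this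
    exact ⟨by linear_combination this.2.1, by linear_combination this.2.2⟩
  have b0 : ∀ a, (F (a, 0, 0)).2.1 = 0 := fun a => by
    have k1 := congrArg (fun x => x.2.1) (he' (-1) (by simp) (a, 0, 0))
    have k2 := (ad a (-a)).1
    simp only [reA, map_neg, map_one, mul_zero, neg_mul, mul_neg, one_mul, neg_neg, mul_one] at k1
    rw [add_neg_cancel, z, k1] at k2
    exact h1 _ (by linear_combination -k2)
  have c1 : ∀ a, (F (a, 0, 0)).2.2 = τ a ^ 2 * s (τ a) * (F (1, 0, 0)).2.2 := fun a => by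
    by_cases h : a = 0
    · simp [h, z]
    simpa [reA] using congrArg (fun x => x.2.2) (he' a h (1, 0, 0))
  have c0 : (F (1, 0, 0)).2.2 = 0 := by
    obtain ⟨t, ht⟩ := hn
    obtain ⟨a, rfl⟩ := τ.surjective t
    have k1 := (ad a 1).2
    have k2 := (ad (-a) 1).2
    rw [c1 (_ + _), c1 a, b0] at k1
    rw [c1 (_ + _), c1 (-a), b0] at k2
    simp only [map_add, map_neg, map_one] at k1 k2
    refine (mul_eq_zero.1 (show (s (τ a) - τ a) * (F (1, 0, 0)).2.2 = 0 from ?_)).resolve_left (sub_ne_zero.2 ht)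
    linear_combination k2 - k1 + (τ a + s (τ a)) * (F (1, 0, 0)).2.2 * h0
  refine ⟨Units.mk0 e hd, τ, fun x => ?_⟩
  rw [sp x.1 x.2.1 x.2.2, sp', f2, f3]
  simp [reM, reA, hτ, b0, c1 x.1, c0]

end rigid

open StN StG RS StN.Tw

theorem RS.chN_of_lt {D : ChevalleyDatum} (R : RS D) {K : Type*} [Field K] (χ : Ch D K) {r : ℕ} (h : r < D.nroots) :
    R.chN χ r = ∏ i, R.cv' χ (R.sim i) ^ R.c r i := by
  conv_lhs => rw [← (R.chEquiv K).left_inv χ]
  exact (R.chN_val _ ⟨r, h⟩).trans (cv'_chOf _ _)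

section
variable {K : Type*} [Field K] {θ : K →+* K} {G : Type*} [Group G]

/-- elements of the Suzuki node of `²F₄` -/
def szW (θ : K →+* K) (x : K × K) : List (ℕ × K) := [(27, θ x.1), (25, x.1), (28, θ x.1 * x.1 + x.2), (30, θ x.2 ^ 2)]

theorem szW_mul [CharP K 2] {S : StN rsF4 K G} (h2 : ∀ t, θ (θ t) ^ 2 = t) (x y : K × K) :
    S.WN (szW θ (szM θ x y)) = S.WN (szW θ x) * S.WN (szW θ y) := by
  have := S.rel12.collEq_sound (CharP.cast_eq_zero K 2) (fun i => ((szW θ x ++ szW θ y).getD i (0, 0)).2) (key := id) (k := 100)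
    (w := gw [27, 25, 28, 30] ++ [(27, pX 4), (25, pX 5), (28, pX 6), (30, pX 7)])
    (w' := [(27, [(1, [0, 0, 0, 0, 1]), (1, [1])]), (25, [(1, [0, 0, 0, 0, 0, 1]), (1, [0, 1])]),
      (28, [(1, [0, 0, 1]), (1, [0, 0, 0, 0, 0, 0, 1]), (1, [0, 1, 0, 0, 1])]),
      (30, [(1, [0, 0, 0, 1]), (1, [0, 0, 0, 0, 0, 0, 0, 1]), (1, [0, 1, 0, 0, 2])])]) (by decide +kernel)
  simp only [wev_append, wev_eq] at this
  have h0 : (2 : K) = 0 := CharP.cast_eq_zero K 2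
  refine Eq.trans (congrArg S.WN ?_) (this.symm.trans (by simp [gw, List.zipIdx, szW]))
  simp only [szW, szM, peval, meval, map_add, map_mul, List.map_cons, List.map_nil, List.cons.injEq, Prod.mk.injEq, true_and, and_true]
  simp
  exact ⟨add_comm _ _, add_comm _ _, by linear_combination (θ x.1 * y.1) * h0,
    by linear_combination θ y.1 ^ 2 * h2 x.1 + (θ x.2 * θ y.2 + (θ x.2 + θ y.2) * θ (θ x.1) * θ y.1) * h0⟩

theorem szW_map (h2 : ∀ t, θ (θ t) ^ 2 = t) {χ : Ch chevF4 K} {k : K} (h : (rsF4.cv' χ (rsF4.sim (1 : Fin 4)) : K) = θ k ∧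
    (rsF4.cv' χ (rsF4.sim (2 : Fin 4)) : K) = k) {τ : K ≃+* K} (hc : ∀ t, τ (θ t) = θ (τ t)) (x : K × K) :
    (szW θ x).map (fun a => (a.1, rsF4.chN χ a.1 * τ a.2)) = szW θ (k * τ x.1, θ k * k * τ x.2) := by
  have key : ∀ r < 48, rsF4.c r 0 = 0 → rsF4.c r 3 = 0 → ∀ a b : ℕ, rsF4.c r 1 = a → rsF4.c r 2 = b →
      (rsF4.chN χ r : K) = θ k ^ a * k ^ b := fun r hr h0 h3 a b h1 h2 => by
    rw [rsF4.chN_of_lt χ hr]
    refine (congrArg Units.val (Fin.prod_univ_four _)).trans ?_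
    simp [h0, h1, h2, h3, h]
  simp only [szW, List.map_cons, List.map_nil, key 27 (by decide) rfl rfl 1 0 rfl rfl, key 25 (by decide) rfl rfl 0 1 rfl rfl,
    key 28 (by decide) rfl rfl 1 1 rfl rfl, key 30 (by decide) rfl rfl 2 1 rfl rfl, map_add, map_mul, map_pow, hc, mul_pow, h2,
    List.cons.injEq, Prod.mk.injEq, true_and, and_true]
  refine ⟨?_, ?_, ?_, ?_⟩ <;> ring

theorem szW_sa (h2 : ∀ t, θ (θ t) ^ 2 = t) {c : I chevF4 → Kˣ} {k : K} (h : (c (1 : Fin 4) : K) = θ k ∧ (c (2 : Fin 4) : K) = k)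
    {τ : K ≃+* K} (hc : ∀ t, τ (θ t) = θ (τ t)) (x : K × K) :
    (rsF4.adj K).WN (szW θ (k * τ x.1, θ k * k * τ x.2)) = sa goodF4 c τ ((rsF4.adj K).WN (szW θ x)) := by
  rw [sa_WN, szW_map h2 ⟨(congrArg _ (cv'_chOf_sim c _)).trans h.1, (congrArg _ (cv'_chOf_sim c _)).trans h.2⟩ hc]

theorem reeW_mul [CharP K 3] {S : StN rsG2 K G} {T : S.Tw symG2} (A : T.Act pi2G2 (fun _ => 1) expG2 θ) (h2 : ∀ t, θ (θ t) ^ 3 = t)
    {s : K →+* K} (hs : ∀ t, s t = θ t ^ 3) (x y : K × K × K) :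
    S.WN (reeW θ (reM s x y)) = S.WN (reeW θ x) * S.WN (reeW θ y) := by
  obtain ⟨z, hz⟩ := (mem2G2_P A h2).1 (mul_mem ((mem2G2_P A h2).2 ⟨x, rfl⟩) ((mem2G2_P A h2).2 ⟨y, rfl⟩))
  have := S.rel12.collEq_sound (CharP.cast_eq_zero K 3) (fun i => ((reeW θ x ++ reeW θ y).getD i (0, 0)).2) (key := id) (k := 100)
    (w := gw [7, 6, 8, 9, 10, 11] ++ [(7, pX 6), (6, pX 7), (8, pX 8), (9, pX 9), (10, pX 10), (11, pX 11)])
    (w' := [(7,[(1,[0,0,0,0,0,0,1]),(1,[1])]),(6,[(1,[0,0,0,0,0,0,0,1]),(1,[0,1])]),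
      (8,[(1,[0,0,1]),(1,[0,0,0,0,0,0,0,0,1]),(1,[0,1,0,0,0,0,1])]),
      (9,[(-1,[0,0,1,0,0,0,1]),(1,[0,0,0,0,0,0,0,0,0,1]),(1,[0,0,0,1]),(1,[0,1,0,0,0,0,2])]),
      (10,[(1,[0,0,0,0,1]),(1,[0,0,0,0,0,0,0,0,0,0,1]),(-1,[0,1,0,0,0,0,3])]),
      (11,[(-1,[0,2,0,0,0,0,3]),(1,[0,0,0,0,0,1]),(1,[0,0,0,0,0,0,0,0,0,0,0,1]),(-1,[0,0,0,0,1,0,0,1]),(1,[0,1,0,0,0,0,3,1])])])
    (by decide +kernel)
  simp only [wev_append, wev_eq] at this
  replace this := this.symm.trans (show _ = S.WN (reeW θ x) * S.WN (reeW θ y) by simp [gw, List.zipIdx, reeW])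
  have h3 := WN_inj_pos (l := [7, 6, 8, 9, 10, 11]) (by decide) rfl rfl (this.trans hz)
  rw [hz]
  simp only [reeW, peval, meval, List.map_cons, List.map_nil, List.cons.injEq, Prod.mk.injEq, true_and, and_true] at h3
  simp at h3
  obtain ⟨-, e1, -, -, e2, e3⟩ := h3
  congr 2
  simp only [reM, hs]
  exact Prod.ext (by linear_combination e1) (Prod.ext (by linear_combination e2) (by linear_combination e3))

theorem reeW_map (h2 : ∀ t, θ (θ t) ^ 3 = t) {s : K →+* K} (hs : ∀ t, s t = θ t ^ 3) {χ : Ch chevG2 K} {k : K}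
    (h : (rsG2.cv' χ (rsG2.sim (0 : Fin 2)) : K) = θ k ∧ (rsG2.cv' χ (rsG2.sim (1 : Fin 2)) : K) = k) {τ : K ≃+* K}
    (hc : ∀ t, τ (θ t) = θ (τ t)) (x : K × K × K) :
    (reeW θ x).map (fun a => (a.1, rsG2.chN χ a.1 * τ a.2)) = reeW θ (reA s k (τ x.1, τ x.2.1, τ x.2.2)) := by
  have key : ∀ r < 12, ∀ a b : ℕ, rsG2.c r 0 = a → rsG2.c r 1 = b → (rsG2.chN χ r : K) = θ k ^ a * k ^ b := fun r hr a b h1 h2 => by
    rw [rsG2.chN_of_lt χ hr]
    refine (congrArg Units.val (Fin.prod_univ_two _)).trans ?_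
    simp [h1, h2, h]
  simp only [reeW, reA, List.map_cons, List.map_nil, key 7 (by decide) 1 0 rfl rfl, key 6 (by decide) 0 1 rfl rfl,
    key 8 (by decide) 1 1 rfl rfl, key 9 (by decide) 2 1 rfl rfl, key 10 (by decide) 3 1 rfl rfl, key 11 (by decide) 3 2 rfl rfl,
    map_add, map_mul, map_pow, hc, hs, mul_pow, h2, List.cons.injEq, Prod.mk.injEq, true_and, and_true]
  refine ⟨?_, ?_, ?_, ?_, ?_, ?_⟩ <;> ring

theorem reeW_sa (h2 : ∀ t, θ (θ t) ^ 3 = t) {s : K →+* K} (hs : ∀ t, s t = θ t ^ 3) {c : I chevG2 → Kˣ} {k : K}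
    (h : (c (0 : Fin 2) : K) = θ k ∧ (c (1 : Fin 2) : K) = k) {τ : K ≃+* K} (hc : ∀ t, τ (θ t) = θ (τ t)) (x : K × K × K) :
    (rsG2.adj K).WN (reeW θ (reA s k (τ x.1, τ x.2.1, τ x.2.2))) = sa goodG2 c τ ((rsG2.adj K).WN (reeW θ x)) := by
  rw [sa_WN, reeW_map h2 hs ⟨(congrArg _ (cv'_chOf_sim c _)).trans h.1, (congrArg _ (cv'_chOf_sim c _)).trans h.2⟩ hc]

end

theorem out2F4 {K : Type*} [Field K] [Fintype K] {m : ℕ} (hm : 1 ≤ m) (hK : Fintype.card K = 2 ^ (2 * m + 1)) :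
    Nat.card (Out (twistedF4 K (2 ^ m))) = Nat.card (K ≃+* K) := by
  haveI := charP_of_card Nat.prime_two hK
  obtain ⟨θ, hθ, h2⟩ := exists_theta Nat.prime_two hK
  have A := act2F4 θ
  have Z := (nt2F4 A h2).re (eq2F4 h2 hθ)
  have h1 : 3 < Nat.card K := by
    rw [Nat.card_eq_fintype_card, hK]; exact lt_of_lt_of_le (by decide) (Nat.pow_le_pow_right two_pos (show 3 ≤ 2 * m + 1 by omega))
  have := card_out goodF4 A hθ Z (Γ_range (eq2F4 h2 hθ)).le (fun b => ?_) ⟨(3 : Fin 4), fun t =>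
    Γ_out ((mem2F4_0 A h2).1.2 ⟨t, rfl⟩) (by simp; decide) (.tail _ (.head _))⟩ fun α hα => ?_
  · rw [card_H_G1 (rel3_of_inj Z.hπ) (hp_inj_of_ker (rel3_of_inj Z.hπ) (kerF4.ker_eq_bot (K := K))) (H_le2F4 A h2 Z.hπ), mul_comm] at this
    exact Nat.eq_of_mul_eq_mul_left Nat.card_pos this
  · fin_cases b
    exacts [⟨(3 : Fin 4), rfl, Γ_out ((mem2F4_0 A h2).1.2 ⟨1, rfl⟩) (by simp; decide) (.tail _ (.head _))⟩,
      ⟨(2 : Fin 4), rfl, Γ_out ((mem2F4_1 A h2).1.2 ⟨(1, 0), rfl⟩) (by simp; decide) (.tail _ (.head _))⟩]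
  have hm := Z.maps_self (by omega) (cardP2F4 A h2) (fun a b => if a = b then 1 else 8) ⟨by decide +kernel, by decide +kernel⟩ hα
  obtain ⟨P, p1, p2⟩ := Z.exists_node (b := 0) [(0 : Fin 4), (3 : Fin 4)] ![θ, θ, θ, RingHom.id K] (by decide +kernel) (mem2F4_0 A h2)
  obtain ⟨σ, c, a1, a2⟩ := P.aut' Z hα (hm 0) p2 (oc_mul _ _)
  have hc : ∀ (τ : K ≃+* K) t, τ (θ t) = θ (τ t) := fun τ t => by simp [hθ]
  choose u hu using fun x => Z.pre ((tw2F4 θ).G1b_le _ 1 (Subgroup.mem_sup_left ((mem2F4_1 A h2).1.2 ⟨x, rfl⟩)))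
  replace hu : ∀ x, Subgroup.inclusion (Γ_le (eq2F4 h2 hθ)) (u x) = (rsF4.adj K).WN (szW θ x) := hu
  have hU : ∀ g, Subgroup.inclusion (Γ_le (eq2F4 h2 hθ)) g ∈ (rsF4.adj K).U (rsF4.SubP (orb2F4.orb ⁻¹' {1})) ↔ ∃ x, g = u x := fun g =>
    ⟨fun h => ((mem2F4_1 A h2).1.1 ⟨h, Z.fix g⟩).imp fun x e => Z.inj (e.trans (hu x).symm),
      fun ⟨x, e⟩ => by rw [e, hu]; exact ((mem2F4_1 A h2).1.2 ⟨x, rfl⟩).1⟩
  have ui : Function.Injective u := fun x y e => by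
    have := WN_inj_pos (l := [27, 25, 28, 30]) (by decide) rfl rfl ((hu x).symm.trans ((congrArg _ e).trans (hu y)))
    simp only [szW, List.cons.injEq, Prod.mk.injEq, true_and] at this
    exact Prod.ext this.2.1 (by simpa [this.2.1] using this.2.2.1)
  choose F hF using fun x => (hU _).1 ((hm 1 _).1.2 ((hU _).2 ⟨x, rfl⟩))
  have um : ∀ x y, u (szM θ x y) = u x * u y := fun x y => Z.inj (by rw [map_mul, hu, hu, hu, szW_mul h2])
  have uh : ∀ (s : Kˣ) (x : K × K), P.h s⁻¹ * u x * (P.h s⁻¹)⁻¹ = u (s * x.1, θ s * s * x.2) := fun s x => Z.inj (by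
    rw [map_mul, map_mul, map_inv, hu, hu, (p2 _).conj_WN]
    refine congrArg _ (szW_map h2 (τ := RingEquiv.refl K) ⟨(cv'_oc _ _ _ _).trans ?_, (cv'_oc _ _ _ _).trans ?_⟩ (fun _ => rfl) x)
    · exact (congrArg₂ (· * ·) (_root_.zpow_neg_one _) ((mul_one _).trans (zpow_zero _))).trans (by simp)
    · exact (congrArg₂ (· * ·) (zpow_zero _) ((mul_one _).trans (_root_.zpow_neg_one _))).trans (by simp))
  obtain ⟨d, hd⟩ := sz_rigid h2 (hc σ) (by
      obtain ⟨s, hs⟩ := exists_sq_ne h1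
      refine ⟨s, fun h => hs (Units.ext ?_)⟩
      have := h2 s
      rw [h, h, sq, mul_eq_left₀ s.ne_zero] at this
      simp [this]) (F := F) (fun x y e => ui (α.injective (by rw [hF, hF, e]))) (fun x y => ui (by rw [← hF, um, um, map_mul, hF, hF]))
    fun k hk x => ui (by
      have := congrArg α (uh (Units.mk0 k hk) x)
      rw [map_mul, map_mul, map_inv, a2, map_inv, hF, hF, uh] at this
      exact this.symm)
  obtain ⟨c', k0, k1, k2, k3⟩ : ∃ c' : I chevF4 → Kˣ, (tw2F4 θ).ac c' = c' ∧ (c' (0 : Fin 4) : K) = θ c ∧ (c' (3 : Fin 4) : K) = c ∧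
    (c' (1 : Fin 4) : K) = θ d ∧ (c' (2 : Fin 4) : K) = d := ⟨_, (ac2F4 A h2).2 ⟨(c, d), rfl⟩, rfl, rfl, rfl, rfl⟩
  refine ⟨c', k0, σ, fun b g hg => ?_⟩
  fin_cases b
  · exact node_std _ P p1 a1 (fa2 ⟨k1, hc σ⟩ ⟨k2, fun _ => rfl⟩) hg
  · obtain ⟨x, rfl⟩ := (hU g).1 hg
    rw [hF, hu, hu, hd]
    exact szW_sa h2 k3 (hc σ) x

theorem out2G2 {K : Type*} [Field K] [Fintype K] {m : ℕ} (hm : 1 ≤ m) (hK : Fintype.card K = 3 ^ (2 * m + 1)) :
    Nat.card (Out (twistedG2 K (3 ^ m))) = Nat.card (K ≃+* K) := by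
  haveI := charP_of_card Nat.prime_three hK
  obtain ⟨θ, hθ, h2⟩ := exists_theta Nat.prime_three hK
  have A := act2G2 θ
  have Z := (nt2G2 A h2).re (eq2G2 h2 hθ)
  have h3 := rel3_of_inj Z.hπ
  have h1 : 3 < Nat.card K := by
    rw [Nat.card_eq_fintype_card, hK]; exact lt_of_lt_of_le (by decide) (Nat.pow_le_pow_right three_pos (show 3 ≤ 2 * m + 1 by omega))
  have := card_out goodG2 A hθ Z (Γ_range (eq2G2 h2 hθ)).le (fun b => ?_) ⟨(1 : Fin 2), fun t =>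
    Γ_out ((mem2G2_P A h2).2 ⟨(t, 0, 0), rfl⟩) (by simp [reeW]; decide) (.tail _ (.head _))⟩ fun α hα => ?_
  · rw [card_H_G1 h3 (hp_inj_of_ker h3 (kerG2.ker_eq_bot (K := K))) (H_le2G2 A h2 Z.hπ hK), mul_comm] at this
    exact Nat.eq_of_mul_eq_mul_left Nat.card_pos this
  · exact ⟨(1 : Fin 2), Subsingleton.elim _ _, Γ_out ((mem2G2_P A h2).2 ⟨(1, 0, 0), rfl⟩) (by simp [reeW]; decide) (.tail _ (.head _))⟩
  have hc : ∀ (τ : K ≃+* K) t, τ (θ t) = θ (τ t) := fun τ t => by simp [hθ]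
  let s := (frobenius K 3).comp θ
  have hs : ∀ t, s t = θ t ^ 3 := fun _ => rfl
  choose u hu using fun x => Z.pre ((tw2G2 θ).G1b_le _ 0 (Subgroup.mem_sup_left ((mem2G2_P A h2).2 ⟨x, rfl⟩)))
  have hU : ∀ g, Subgroup.inclusion (Γ_le (eq2G2 h2 hθ)) g ∈ (rsG2.adj K).U {r | rsG2.Pos r} ↔ ∃ x, g = u x := fun g =>
    ⟨fun h => ((mem2G2_P A h2).1 ⟨subP2G2 ▸ h, Z.fix g⟩).imp fun x e => Z.inj (e.trans (hu x).symm),
      fun ⟨x, e⟩ => by rw [e, hu, ← subP2G2]; exact ((mem2G2_P A h2).2 ⟨x, rfl⟩).1⟩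
  have ui : Function.Injective u := fun x y e => reeW_inj ((hu x).symm.trans ((congrArg _ e).trans (hu y)))
  choose F hF using fun x => (hU _).1 ((hα _).1.2 ((hU _).2 ⟨x, rfl⟩))
  have um : ∀ x y, u (reM s x y) = u x * u y := fun x y => Z.inj (by rw [map_mul, hu, hu, hu, reeW_mul A h2 hs])
  have uh : ∀ {k χ}, (rsG2.adj K).Diag (Subgroup.inclusion (Γ_le (eq2G2 h2 hθ)) k) χ → ∀ x,
      k * u x * k⁻¹ = u (reA s (rsG2.cv' χ (rsG2.sim (1 : Fin 2))) x) := fun {k χ} h x => Z.inj (by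
    rw [map_mul, map_mul, map_inv, hu, hu, h.conj_WN]
    refine congrArg _ (reeW_map h2 hs (τ := RingEquiv.refl K) ⟨?_, rfl⟩ (fun _ => rfl) x)
    exact ((tw2G2 θ).cv'_σ h (((tw2G2 θ).mem_Fix.1 (Z.fix k)).symm ▸ h) (rsG2.sim (1 : Fin 2))).trans ((A.φ _ _).trans (pow_one _)))
  obtain ⟨e, τ, hd⟩ := ree_rigid (s := s) (fun t => by rw [hs, hs, map_pow, h2]) (n := 3 ^ m * 3) (fun t => by rw [hs, hθ, pow_mul]) (by
      obtain ⟨a, ha⟩ := exists_sq_ne h1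
      refine ⟨a, fun h => ha (Units.ext ?_)⟩
      have : s (s a) = a ^ 3 := by rw [hs, hs, map_pow, h2]
      rw [h, h, pow_succ, right_eq_mul₀ a.ne_zero] at this
      simpa using this) (F := F) (fun x y e => ui (α.injective (by rw [hF, hF, e]))) (fun x y => ui (by rw [← hF, um, um, map_mul, hF, hF]))
    fun d hd => by
      lift d to Kˣ using hd.isUnit
      obtain ⟨k, hk⟩ := Z.pre (H_le2G2 A h2 Z.hπ hK (hp_mem_Fix h3 ((ac2G2 A h2).2 ⟨d ^ 2 * Units.map (θ : K →* K) d ^ 3, rfl⟩)))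
      obtain ⟨χ, hχ⟩ := exists_diag ((Z.A0_H hα).2 (hk ▸ hp_mem _))
      refine ⟨rsG2.cv' χ (rsG2.sim (1 : Fin 2)), fun x => ui ?_⟩
      rw [← uh hχ, ← hF, ← hF, ← map_inv, ← map_mul, ← map_mul, uh (hk ▸ diag_hp _)]
      congr 3
      refine Eq.symm ((congrArg _ ((rsG2.cv'_tau K _ _).trans (Fin.prod_univ_two _))).trans ?_)
      change ((Units.map (θ : K →* K) _ ^ (-3 : ℤ) * (d ^ 2 * Units.map (θ : K →* K) d ^ 3) ^ (2 : ℤ) : Kˣ) : K) = _
      have := (map_ne_zero θ).2 hd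
      simp [h2]
      field_simp
  obtain ⟨c', k0, k1⟩ : ∃ c' : I chevG2 → Kˣ, (tw2G2 θ).ac c' = c' ∧ (c' (0 : Fin 2) : K) = θ e ∧ (c' (1 : Fin 2) : K) = e :=
    ⟨_, (ac2G2 A h2).2 ⟨e, rfl⟩, rfl, rfl⟩
  refine ⟨c', k0, τ, fun b g hg => ?_⟩
  obtain ⟨x, rfl⟩ := (hU g).1 (U_mono (fun _ h => h.1) hg)
  rw [hF, hu, hu, hd]
  exact reeW_sa h2 hs k1 (hc τ) x

end Cfsg.Agent.H5
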