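import Cfsg.Agent.H5.Ce2

set_option autoImplicit false

namespace Cfsg.Agent.H5

open Cfsg.Lie
open scoped commutatorElement

variable {D : ChevalleyDatum}

theorem exists_not_root {K : Type*} [Field K] {n : ℕ} (hK : ∃ s : Finset K, n < s.card) (f : Polynomial K) (h0 : f ≠ 0)
    (hf : f.natDegree ≤ n) : ∃ v, f.eval v ≠ 0 := by
  obtain ⟨s, hs⟩ := hK
  by_contra h
  exact h0 (Polynomial.eq_zero_of_natDegree_lt_card_of_eval_eq_zero' f s (fun v _ => by simpa using not_exists.1 h v) (by omega))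

theorem exists_pow_ne {K : Type*} [Field K] {n : ℕ} (hK : ∃ s : Finset K, n + 1 < s.card) (k : ℕ) (h1 : 1 ≤ k) (h2 : k ≤ n) :
    ∃ v : Kˣ, v ^ k ≠ 1 := by
  obtain ⟨v, hv⟩ := exists_not_root hK (Polynomial.X * (Polynomial.X ^ k - 1)) (mul_ne_zero Polynomial.X_ne_zero
    (Polynomial.X_pow_sub_C_ne_zero h1 1)) (by compute_degree; omega)
  simp only [Polynomial.eval_mul, Polynomial.eval_X, Polynomial.eval_sub, Polynomial.eval_pow, Polynomial.eval_one, ne_eq,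
    mul_eq_zero, not_or, sub_eq_zero] at hv
  exact ⟨.mk0 v hv.1, fun e => hv.2 (by simpa using congrArg Units.val e)⟩

theorem neg_one_ne {K : Type*} [Field K] (h3 : (3 : K) = 0) {a : ℤ} (ha : a % 2 = 1) : (-1 : Kˣ) ^ a ≠ 1 := by
  rw [(Int.odd_iff.2 ha).neg_one_zpow]
  exact fun e => one_ne_zero (α := K) (by have := congrArg Units.val e; simp at this; linear_combination h3 + this)

namespace RS
variable (R : RS D)

def CBig : Prop := R.C0 3 ∧ ∀ s, R.Dm s → (∃ j, R.car j s = 1) ∨ R.Dec 0 s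
def CFour : Prop := R.C0 2 ∧ ∀ s, R.Dm s → R.Dec 2 s
def Par3 (r s : Φ D) : Prop := ∃ j, R.car j r % 2 ≠ R.car j s % 2
def Swap (L : List (List (I D))) (r s : Φ D) : Prop :=
  R.tm r s = [] ∧ ∃ l ∈ L, ∃ ε ∈ [(1 : ℤ), -1], R.fw l r = (s, ε) ∧ R.fw l s = (r, ε)
def CThree (L : List (List (I D))) : Prop := ∀ s, R.Dm s → (∃ j, R.car j s % 2 = 1) ∧ ∀ r, r ≠ s → r ≠ R.neg s →
  R.Par3 r s ∨ R.Swap L r s
def SL (r s : Φ D) : Prop := R.pr r s = R.pr s r ∧ ((R.pr s r = 0 ∨ R.pr s r = 1) ∧ R.tm r s = [] ∨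
  R.pr s r = -1 ∧ ∃ c ∈ R.tm r s, (c.2.1 = 1 ∨ c.2.1 = -1) ∧ R.tm r s = [(c.1, c.2.1, 1, 1)])
def CTwo : Prop := ∀ s, R.Dm s → (∀ r, r ≠ s → r ≠ R.neg s → R.SL r s ∧ (0 ≤ R.pr s r → ∃ j, R.car j s = 0 ∧ (R.car j r).natAbs = 1)) ∧
  ∃ k, R.car k s = 1 ∧ ∀ a, R.pr s a = 1 → a = R.sim k ∨ ∃ i, R.car i s = 0 ∧ R.car i a = 1

variable {R}
theorem SL.smul {r s : Φ D} (h : R.SL r s) (w : R.W) : R.SL (w • r) (w • s) := by
  induction w using W_induction with
  | one => simpa using h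
  | step i w ih =>
    simp only [mul_smul, sw_smul]
    generalize w • r = r, w • s = s at *
    simp only [SL, pr_ref, tm_tr R R (R.sg_sq i) (R.ch_ref i)]
    refine ⟨ih.1, ih.2.imp (fun h => ⟨h.1, by simp [h.2]⟩) fun ⟨h1, c, _, h2, h3⟩ => ⟨h1, ?_⟩⟩
    rw [h3]
    refine ⟨_, List.mem_singleton_self _, ?_, rfl⟩
    rcases R.sg_cases i c.1 with e | e <;> rcases R.sg_cases i r with e' | e' <;> rcases R.sg_cases i s with e'' | e'' <;>
      rcases h2 with h2 | h2 <;> simp [e, e', e'', h2]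

theorem Par3.sp {K : Type*} [Field K] (h3 : (3 : K) = 0) {r s : Φ D} (h : R.Par3 r s) : R.Sp K r s ∨ R.Sp K s r := by
  obtain ⟨j, hj⟩ := h
  have key : ∀ a b : ℤ, a % 2 = 0 → b % 2 = 1 → (-1 : Kˣ) ^ a = 1 ∧ (-1 : Kˣ) ^ b ≠ 1 := fun a b ha hb =>
    ⟨(Int.even_iff.2 ha).neg_one_zpow, neg_one_ne h3 hb⟩
  by_cases e : R.car j s % 2 = 0
  · exact .inl ⟨R.sim j, -1, by simpa only [pr_sim] using key _ _ e (by omega)⟩
  · exact .inr ⟨R.sim j, -1, by simpa only [pr_sim] using key _ _ (by omega) (by omega)⟩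

end RS

namespace StN
open StG RS
variable {R : RS D} {K : Type*} [Field K] {G : Type*} [Group G] (S : StN R K G) {E : Type*} [Group E] {ψ : E →* G} (h : CE ψ)
include h

theorem lift_of_cm {n : ℕ} (hn : 2 ≤ n) (hK : ∃ s : Finset K, n + 1 < s.card) (h1 : R.C0 n) (h2 : ∀ s, R.Dm s → S.Cm h s s) :
    ∃ y, R.Rel12 y ∧ ∀ r t, ψ (y r t) = S.x r t := by
  obtain ⟨v, hv⟩ := exists_pow_ne hK 2 one_le_two hn
  exact rel12_of_cm h (fun r => exists_liftR h (ρ := r) (v := v) (by rwa [pr_self, zpow_ofNat])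
    (of_dm1 (p := fun r => S.Cm h r r) (fun w _ h => h.smul w) h2 r)) fun r s e e' => .inl (h1.sp (exists_pow_ne hK) r s e e')

theorem lift_big (hK : ∃ s : Finset K, 4 < s.card) (hR : R.CBig) : ∃ y, R.Rel12 y ∧ ∀ r t, ψ (y r t) = S.x r t :=
  S.lift_of_cm h (by omega) hK hR.1 fun s hs => (hR.2 s hs).elim (fun ⟨j, hj⟩ => cm_of_big h (ρ := R.sim j) (by
    obtain ⟨v, hv⟩ := exists_not_root hK (Polynomial.X * (1 + Polynomial.X) * (Polynomial.X ^ 2 + Polynomial.X + 1))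
      (Polynomial.Monic.ne_zero (by monicity!)) (by compute_degree)
    exact ⟨v, by simpa [and_assoc] using hv⟩) (by rwa [pr_sim])) (cm_of_dec h Int.cast_zero (hR.1.sp (exists_pow_ne hK)))

theorem lift_four (hK : ∃ s : Finset K, 3 < s.card) (h2 : (2 : K) = 0) (hR : R.CFour) : ∃ y, R.Rel12 y ∧ ∀ r t, ψ (y r t) = S.x r t :=
  S.lift_of_cm h le_rfl hK hR.1 fun s hs => cm_of_dec h (by exact_mod_cast h2) (hR.1.sp (exists_pow_ne hK)) (hR.2 s hs)

theorem cm_of_Swap (hK : ∀ t : K, ∃ n : ℤ, t = n) (h3 : (3 : K) = 0) {L : List (List (I D))} {r s : Φ D} (h1 : s ≠ r) (h2 : s ≠ R.neg r)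
    (h4 : R.Swap L r s) : S.Cm h r s := by
  obtain ⟨h4, l, -, ε, hε, h5, h6⟩ := h4
  exact cm_of_swap h hK h3 (x_comm_of_dvd Int.cast_zero h1 h2 (by simp [h4])) h5 h6 (by simpa using hε)

theorem lift_three (hK : ∀ t : K, ∃ n : ℤ, t = n) (h3 : (3 : K) = 0) {L : List (List (I D))} (hR : R.CThree L) :
    ∃ y, R.Rel12 y ∧ ∀ r t, ψ (y r t) = S.x r t := by
  refine rel12_of_cm h (fun r => ?_) (of_dm (fun w r s h => h.imp (·.smul w) (Or.imp (·.smul w) (·.smul w))) fun s hs r h1 h2 =>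
    ((hR s hs).2 r h1 h2).elim (fun h => (h.sp h3).imp_right .inl) fun h4 =>
      .inr (.inr (S.cm_of_Swap h hK h3 h1.symm (fun e => h2 (by simp [e])) h4)))
  obtain ⟨ρ, hρ⟩ := of_dm1 (p := fun r => ∃ ρ, R.pr ρ r % 2 = 1) (fun w r ⟨ρ, h⟩ => ⟨w • ρ, by rwa [pr_smul]⟩)
    (fun s hs => (hR s hs).1.elim fun j hj => ⟨R.sim j, by rwa [pr_sim]⟩) r
  exact exists_liftR h (neg_one_ne h3 hρ) (cm_of_prime h hK r)

theorem lift_two (hK : ∀ t : K, t = 0 ∨ t = 1) (hR : R.CTwo) : ∃ y, R.Rel12 y ∧ ∀ r t, ψ (y r t) = S.x r t := by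
  have h2 : (1 : K) + 1 = 0 := (hK _).resolve_right (by simp)
  have hn : (-1 : K) = 1 := by grind
  have xi : ∀ r, (S.x r 1)⁻¹ = S.x r 1 := fun r => by rw [x_inv, hn]
  have sl : ∀ r s, s ≠ r → s ≠ R.neg r → R.SL r s := of_dm (fun w _ _ h => h.smul w) fun s hs r h1 h2 => ((hR s hs).1 r h1 h2).1
  have sym : ∀ r s, R.pr r s = R.pr s r := fun r s => by
    by_cases h1 : s = r
    · rw [h1]
    by_cases h2 : s = R.neg r
    · rw [h2, pr_neg_left, pr_neg_right]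
    exact (sl r s h1 h2).1
  have le1 : ∀ r s, s ≠ r → R.pr s r ≤ 1 := fun r s h1 => by
    by_cases h2 : s = R.neg r
    · rw [h2, pr_neg_left, pr_self]; omega
    rcases (sl r s h1 h2).2 with h | h <;> omega
  have nn : ∀ {r s}, -1 ≤ R.pr s r → s ≠ R.neg r := fun h e => by rw [e, pr_neg_left, pr_self] at h; omega
  have g1 : ∀ r s t u, 0 ≤ R.pr s r → S.x r t * S.x s u = S.x s u * S.x r t := fun r s t u h0 => by
    by_cases h1 : s = r
    · rw [h1, S.r1, S.r1, add_comm]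
    rcases (sl r s h1 (nn (by omega))).2 with h | h
    · exact x_comm_of_dvd Int.cast_zero h1 (nn (by omega)) (by simp [h.2]) t u
    · omega
  have lin : ∀ {a b c}, R.vec c = R.vec a + R.vec b → ∀ s, R.pr s c = R.pr s a + R.pr s b := fun e s => by
    simp only [← prf_vec, e, map_add]
  have dec : ∀ {a b c}, R.vec c = R.vec a + R.vec b → R.pr c a = 1 ∧ R.pr c b = 1 ∧ R.pr b a = -1 := fun {a b c} e => by
    have h1 := le1 a c (by rintro rfl; exact R.vec_ne_zero b (by simpa using e))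
    have h2 := le1 b c (by rintro rfl; exact R.vec_ne_zero a (by simpa using e))
    have h3 := lin e c
    have h4 := lin e b
    rw [pr_self] at h3 h4
    have := sym b c
    omega
  have g2 : ∀ {a b c}, R.vec c = R.vec a + R.vec b → ⁅S.x a 1, S.x b 1⁆ = S.x c 1 := fun {a b c} e => by
    have h0 := (dec e).2.2
    have h1 : b ≠ a := fun e => by rw [e, pr_self] at h0; omega
    rcases (sl a b h1 (nn h0.ge)).2 with h | ⟨-, d, hd, h3, h4⟩
    · omega
    have h5 := (tm_vec R (h4 ▸ List.mem_singleton_self _ : (d.1, d.2.1, 1, 1) ∈ R.tm a b)).1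
    obtain rfl : d.1 = c := R.vec_inj (by simpa [e] using h5)
    have h6 := S.r2 a b h1 (nn h0.ge) 1 1
    rw [RS.cw, h4, ← inv_mul_eq_iff_eq_mul, mul_inv_rev, xi, xi] at h6
    rw [← inv_inj, commutatorElement_inv, commutatorElement_def, xi, xi, xi, mul_assoc, h6]
    rcases h3 with h | h <;> simp [h, hn]
  have m1 : ∀ r s, 0 ≤ R.pr s r → S.Cm h r s := fun r s h0 => by
    by_cases h1 : s = r
    · exact h1 ▸ cm_of_prime h (fun t => (hK t).elim (fun e => ⟨0, by simp [e]⟩) fun e => ⟨1, by simp [e]⟩) s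
    refine of_dm (p := fun r s => 0 ≤ R.pr s r → S.Cm h r s) (fun w r s h h0 => (h (by rwa [pr_smul] at h0)).smul w)
      (fun s hs r h1 h2 h0 t u => ?_) r s h1 (nn (by omega)) h0
    obtain ⟨j, h3, h4⟩ := ((hR s hs).1 r h1 h2).2 h0
    obtain ⟨b, h5, h6⟩ : ∃ b, R.vec r = R.vec (R.ref j r) + R.vec b ∧ R.pr s b = 0 := by
      rcases Int.natAbs_eq_iff.1 h4 with e | e
      · exact ⟨R.sim j, by simp [vec_ref, vec_sim, e], by rw [sym, pr_sim, h3]⟩
      · exact ⟨R.neg (R.sim j), by simp [vec_ref, vec_sim, vec_neg, e, Pi.single_neg], by rw [pr_neg_right, sym, pr_sim, h3, neg_zero]⟩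
    rcases hK t with rfl | rfl
    · rw [StG.x_zero]; exact one_mem _
    rw [← g2 h5]
    exact h.lc_comm (g1 _ _ _ _ (by have := lin h5 s; omega)) (g1 _ _ _ _ h6.ge)
  have sq : ∀ {a b c e e'}, R.vec c = R.vec a + R.vec b → ψ e = S.x a 1 → ψ e' = S.x b 1 → ⁅e, e'⁆ * ⁅e, e'⁆ = 1 := fun {a b c e e'} hc he he' => by
    have h3 := commutatorElement_eq_one_iff_mul_comm.1 (m1 b c (by rw [(dec hc).2.1]; omega) 1 1 e' ⁅e, e'⁆ he'
      (by rw [map_commutatorElement, he, he', g2 hc]))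
    have h4 : ⁅e, e' * e'⁆ = 1 := (h.comm_congr rfl (b' := 1) (by simp [he', S.r1, h2])).trans (commutatorElement_one_right _)
    rwa [show ⁅e, e' * e'⁆ = ⁅e, e'⁆ * (e' * ⁅e, e'⁆ * e'⁻¹) by group, h3, mul_inv_cancel_right] at h4
  have m2 : ∀ c, ∃ z, ψ z = S.x c 1 ∧ z * z = 1 ∧ ∀ a b, R.vec c = R.vec a + R.vec b → ∀ e e', ψ e = S.x a 1 → ψ e' = S.x b 1 → ⁅e, e'⁆ = z := by
    refine of_dm1 (R := R) (fun w c ⟨z, h1, h3, h4⟩ => ?_) fun s hs => ?_
    · obtain ⟨g, -, γ, -, hg, -⟩ := exists_N_lift (S := S) w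
      have hγ : ∀ r, (γ r : K) = 1 := fun r => (hK _).resolve_left (γ r).ne_zero
      simp only [hγ, one_mul] at hg
      obtain ⟨g, rfl⟩ := h.surj g
      refine ⟨g * z * g⁻¹, by simp [h1, hg], by simp [h3], fun a b hc e e' he he' => ?_⟩
      obtain ⟨a, rfl⟩ := MulAction.surjective w a
      obtain ⟨b, rfl⟩ := MulAction.surjective w b
      rw [← h4 a b (by simpa [← vec_smul] using congrArg (RS.lin w⁻¹) hc) (g⁻¹ * e * g) (g⁻¹ * e' * g) (by simp [he, ← hg, mul_assoc])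
        (by simp [he', ← hg, mul_assoc])]
      group
    obtain ⟨k, hk, h3⟩ := (hR s hs).2
    have h4 : R.vec s = R.vec (R.sim k) + R.vec (R.ref k s) := by simp [vec_ref, vec_sim, hk]
    obtain ⟨e₀, he₀⟩ := h.surj (S.x (R.sim k) 1)
    obtain ⟨e₁, he₁⟩ := h.surj (S.x (R.ref k s) 1)
    refine ⟨⁅e₀, e₁⁆, by rw [map_commutatorElement, he₀, he₁, g2 h4], sq h4 he₀ he₁, fun a => ?_⟩
    induction a using (wellFounded_lt (α := Φ D)).induction with
    | _ a ih =>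
    intro b hc e e' he he'
    obtain ⟨d1, d2, d3⟩ := dec hc
    rcases h3 a d1 with rfl | ⟨i, h5, h6⟩
    · obtain rfl : b = R.ref k s := R.vec_inj (add_left_cancel (hc.symm.trans h4))
      exact h.comm_congr (he.trans he₀.symm) (he'.trans he₁.symm)
    have h7 : R.car i b = -1 := by have := lin hc (R.sim i); simp only [pr_sim] at this; omega
    have h8 : R.vec a = R.vec (R.ref i a) + R.vec (R.sim i) := by simp [vec_ref, vec_sim, h6]
    have h9 : R.vec (R.ref i b) = R.vec (R.sim i) + R.vec b := by simp [vec_ref, vec_sim, h7, Pi.single_neg, add_comm]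
    obtain ⟨u, hu⟩ := h.surj (S.x (R.ref i a) 1)
    obtain ⟨v, hv⟩ := h.surj (S.x (R.sim i) 1)
    have hp : ψ ⁅u, v⁆ = S.x a 1 := by rw [map_commutatorElement, hu, hv, g2 h8]
    have hq : ψ ⁅v, e'⁆ = S.x (R.ref i b) 1 := by rw [map_commutatorElement, he', hv, g2 h9]
    have c1 := commutatorElement_eq_one_iff_mul_comm.1 (m1 (R.ref i a) b (by
      have := lin h8 b; rw [sym b (R.sim i), pr_sim] at this; omega) 1 1 u e' hu he')
    have c2 := commutatorElement_eq_one_iff_mul_comm.1 (m1 (R.ref i b) a (by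
      have := lin h9 a; rw [sym a (R.sim i), pr_sim, sym a b] at this; omega) 1 1 _ _ hq hp)
    rw [← ih (R.ref i a) (R.ht_strictMono.lt_iff_lt.1 (by have := R.lam_pos i; rw [ht_ref, h6]; omega)) (R.ref i b)
      (by rw [hc, h8, h9, add_assoc]) u ⁅v, e'⁆⁻¹ hu (by rw [map_inv, hq, xi]), h.comm_congr (he.trans hp.symm) rfl,
      ← eq_inv_of_mul_eq_one_left (sq hc hp he') |>.symm, commutatorElement_inv, commutatorElement_def e',
      conjugate_commutatorElement, ← c1, mul_inv_cancel_right, show e' * v * e'⁻¹ = ⁅v, e'⁆⁻¹ * v by group,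
      show ∀ q : E, ⁅u, q⁻¹ * v⁆ = ⁅u, q⁻¹⁆ * (q⁻¹ * (⁅u, v⁆ * q)) from fun q => by group, ← c2]
    group
  classical
  choose z hz1 hz2 hz3 using m2
  have hy : ∀ r t, ψ (if t = 0 then 1 else z r) = S.x r t := fun r t => by rcases hK t with rfl | rfl <;> simp [hz1]
  refine ⟨fun r t => if t = 0 then 1 else z r, ⟨fun r t u => ?_, fun r s h1 h3 t u => ?_⟩, hy⟩
  · rcases hK t with rfl | rfl <;> rcases hK u with rfl | rfl <;> simp [h2, hz2]
  rcases (sl r s h1 h3).2 with h4 | ⟨-, d, -, h4, h5⟩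
  · rw [RS.cw, h4.2, List.map_nil, List.prod_nil, mul_one]
    exact (commutatorElement_eq_one_iff_mul_comm.1 (m1 r s (by omega) t u _ _ (hy r t) (hy s u))).symm
  have h6 := (tm_vec R (h5 ▸ List.mem_singleton_self _ : (d.1, d.2.1, 1, 1) ∈ R.tm r s)).1
  have h7 : (d.2.1 : K) ≠ 0 := by rcases h4 with h | h <;> simp [h]
  rcases hK t with rfl | rfl <;> rcases hK u with rfl | rfl <;> simp [RS.cw, h5, h7]
  rw [← hz3 d.1 s r (by simpa [add_comm] using h6) (z s)⁻¹ (z r)⁻¹ (by rw [map_inv, hz1, xi]) (by rw [map_inv, hz1, xi])]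
  group

end StN

end Cfsg.Agent.H5
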