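import Cfsg.Agent.H5.Ce3
import Cfsg.Agent.H5.EmbC

set_option autoImplicit false
set_option maxRecDepth 100000
set_option synthInstance.maxSize 5000
set_option synthInstance.maxHeartbeats 200000

namespace Cfsg.Agent.H5

open Cfsg.Lie
open scoped commutatorElement

variable {D : ChevalleyDatum}

namespace RS
variable (R : RS D)

def T2 (a b r : Φ D) : Prop := b ≠ a ∧ b ≠ R.neg a ∧ ∃ m ∈ [(2 : ℤ), -2], R.tm a b = [(r, m, 1, 1)]
def CB3 (L : List (List (I D))) : Prop := (∀ r, ((∃ j, R.car j r % 2 = 1) ∧ ∀ a b, ¬ R.T2 a b r) ∨ ∃ a b, R.T2 a b r ∧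
  (∀ d ∈ [a, b], r ≠ d ∧ r ≠ R.neg d ∧ R.Par3 d r ∧ R.tm d r = []) ∧ ∀ a' b', R.T2 a' b' r → a' = a ∧ b' = b ∨ a' = b ∧ b' = a) ∧
  ∀ r s, s ≠ r → s ≠ R.neg r → R.Par3 r s ∨ R.Swap L r s ∨ ∃ c, R.T2 r s c
instance instDecPar3 (r s : Φ D) : Decidable (R.Par3 r s) := by unfold Par3; infer_instance
instance instDecSwap (L : List (List (I D))) (r s : Φ D) : Decidable (R.Swap L r s) := by unfold Swap; infer_instance
instance instDecT2 (a b r : Φ D) : Decidable (R.T2 a b r) := by unfold T2; infer_instance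
instance instDecCThree (L : List (List (I D))) : Decidable (R.CThree L) := by unfold CThree; infer_instance
instance instDecCB3 (L : List (List (I D))) : Decidable (R.CB3 L) := by unfold CB3; infer_instance

end RS

namespace StN
open StG RS
variable {R : RS D} {K : Type*} [Field K] {G : Type*} [Group G] (S : StN R K G) {E : Type*} [Group E] {ψ : E →* G} (h : CE ψ)
include h

theorem liftR_comm (hK : ∀ t : K, t = 0 ∨ t = 1 ∨ t = -1) (h3 : (3 : K) = 0) {a b r : Φ D} (hT : R.T2 a b r) (ha : S.Cm h a r)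
    (hb : S.Cm h b r) : ∃ y, S.LiftR ψ r y ∧ ∀ e e' t u, ψ e = S.x b t → ψ e' = S.x a u → ⁅e, e'⁆ ∈ Set.range y := by
  obtain ⟨h1, h2, m, hm, h4⟩ := hT
  obtain ⟨s, hs⟩ := h.surj.hasRightInverse
  have m2 : (m : K) * m = 1 := by
    simp only [List.mem_cons, List.not_mem_nil, or_false] at hm
    rcases hm with rfl | rfl <;> push_cast <;> linear_combination h3
  have h5 : ∀ e e' t u, ψ e = S.x b t → ψ e' = S.x a u → ψ ⁅e, e'⁆ = S.x r (-m * t * u) := fun e e' t u he he' => by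
    have := S.r2 a b h1 h2 (-u) (-t)
    rw [RS.cw, h4, ← inv_mul_eq_iff_eq_mul, mul_inv_rev, x_inv, x_inv] at this
    rw [map_commutatorElement, he, he', commutatorElement_def, x_inv, x_inv, mul_assoc]
    simpa [mul_comm, mul_left_comm] using this
  let F : K → E := fun t => ⁅s (S.x b t), s (S.x a 1)⁆
  have h6 : ∀ t u, F t * F u = F (t + u) := fun t u => by
    have := commutatorElement_eq_one_iff_mul_comm.1 (hb _ _ _ _ (hs (S.x b u)) (h5 _ _ _ _ (hs (S.x b t)) (hs (S.x a 1))))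
    rw [show F (t + u) = _ from h.comm_congr (a' := s (S.x b u) * s (S.x b t)) (by rw [map_mul, hs, hs, hs, S.r1, add_comm]) rfl,
      show F t = _ from (mul_inv_eq_iff_eq_mul.2 this).symm]
    simp only [F]; group
  have h7 : F 0 = 1 := by simpa using h6 0 0
  have h8 : ∀ e e' t u, ψ e = S.x b t → ψ e' = S.x a u → ⁅e, e'⁆ = F (t * u) := fun e e' t u he he' => by
    rcases hK u with rfl | rfl | rfl
    · rw [mul_zero, h7, h.comm_congr rfl (b' := 1) (by simp [he']), commutatorElement_one_right]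
    · exact h.comm_congr (by rw [hs, he, mul_one]) (by rw [hs, he'])
    have := commutatorElement_eq_one_iff_mul_comm.1 (ha _ _ _ _ (hs (S.x a 1)) (h5 _ _ _ _ (hs (S.x b t)) (hs (S.x a 1))))
    rw [h.comm_congr (a' := s (S.x b t)) (b' := (s (S.x a 1))⁻¹) (by rw [hs, he]) (by rw [map_inv, hs, he', x_inv]),
      eq_inv_of_mul_eq_one_left ((h6 (t * -1) t).trans (by simp [h7])), show F t = _ from (inv_mul_eq_iff_eq_mul.2 this.symm).symm]
    group
  refine ⟨fun t => F (-m * t), ⟨fun t => ?_, fun t u => by rw [h6, mul_add], fun ρ v e t he => ?_⟩, fun e e' t u he he' =>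
    ⟨-m * (t * u), by simp only [h8 e e' t u he he', ← mul_assoc (-m : K), neg_mul_neg, m2, one_mul]⟩⟩
  · rw [h5 _ _ _ _ (hs _) (hs _), mul_one, ← mul_assoc, neg_mul_neg, m2, one_mul]
  have h9 := (tm_vec R (h4 ▸ List.mem_singleton_self _ : (r, m, 1, 1) ∈ R.tm a b)).1
  rw [conjugate_commutatorElement, h8 _ _ _ _ (by rw [map_mul, map_mul, map_inv, he, hs, hr_conj])
    (by rw [map_mul, map_mul, map_inv, he, hs, hr_conj]), ← prf_vec R ρ r, h9]
  simp [prf_vec, zpow_add₀ v.ne_zero, mul_comm, mul_left_comm, mul_assoc]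

theorem lift_B3 (hK : ∀ t : K, t = 0 ∨ t = 1 ∨ t = -1) (h3 : (3 : K) = 0) {L : List (List (I D))} (hR : R.CB3 L) :
    ∃ y, R.Rel12 y ∧ ∀ r t, ψ (y r t) = S.x r t := by
  have hK' : ∀ t : K, ∃ n : ℤ, t = n := fun t => by
    rcases hK t with rfl | rfl | rfl
    exacts [⟨0, by simp⟩, ⟨1, by simp⟩, ⟨-1, by simp⟩]
  have key : ∀ r, ∃ y, S.LiftR ψ r y ∧ ∀ a b, R.T2 a b r → ∀ e e' t u, ψ e = S.x a t → ψ e' = S.x b u →
      ⁅e, e'⁆ ∈ Subgroup.closure (Set.range y) := fun r => by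
    rcases hR.1 r with ⟨⟨j, hj⟩, h1⟩ | ⟨a, b, h1, h2, h4⟩
    · obtain ⟨y, hy⟩ := exists_liftR h (ρ := R.sim j) (neg_one_ne h3 (by rwa [pr_sim])) (cm_of_prime h hK' r)
      exact ⟨y, hy, fun a b h => (h1 a b h).elim⟩
    have h5 : ∀ d ∈ [a, b], S.Cm h d r := fun d hd => by
      obtain ⟨e1, e2, e3, e4⟩ := h2 d hd
      have := x_comm_of_dvd (S := S) (Int.cast_zero) e1 e2 (by simp [e4])
      exact (e3.sp h3).elim (fun hs => lc_of_sp h hs this) fun hs => Cm.symm (lc_of_sp h hs fun t u => (this u t).symm)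
    obtain ⟨y, hy, h6⟩ := S.liftR_comm h hK h3 h1 (h5 a (by simp)) (h5 b (by simp))
    refine ⟨y, hy, fun a' b' hT e e' t u he he' => ?_⟩
    rcases h4 a' b' hT with ⟨rfl, rfl⟩ | ⟨rfl, rfl⟩
    · rw [← inv_mem_iff, commutatorElement_inv]; exact Subgroup.subset_closure (h6 _ _ _ _ he' he)
    · exact Subgroup.subset_closure (h6 _ _ _ _ he he')
  choose y hy hy' using key
  refine ⟨y, rel12_of_lifts h (fun r => (hy r).map) (fun r => (hy r).add) (fun ρ v e r t => (hy r).conj ρ v e t) fun r s e e' => ?_,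
    fun r => (hy r).map⟩
  rcases hR.2 r s e e' with h1 | h1 | ⟨c, h1⟩
  · exact (h1.sp h3).imp_right .inl
  · exact .inr (.inr fun t u => by rw [S.cm_of_Swap h hK' h3 e e' h1 t u _ _ ((hy r).map t) ((hy s).map u)]; exact one_mem _)
  · refine .inr (.inr fun t u => Subgroup.closure_mono ?_ (hy' c r s h1 _ _ t u ((hy r).map t) ((hy s).map u)))
    obtain ⟨-, -, m, -, h2⟩ := h1
    rintro _ ⟨v, rfl⟩
    exact ⟨c, v, R.comb_of_tm (h2 ▸ List.mem_singleton_self _ : (c, m, 1, 1) ∈ R.tm r s), rfl⟩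

end StN

section
open RS
theorem cbigB2 : rsB2.CBig := by unfold CBig C0; decide +kernel
theorem cbigG2 : rsG2.CBig := by unfold CBig C0; decide +kernel
theorem cbigD4 : rsD4.CBig := by unfold CBig C0; decide +kernel
theorem cbigF4 : rsF4.CBig := by unfold CBig C0; decide +kernel
theorem cbigE6 : rsE6.CBig := by unfold CBig C0; decide +kernel
theorem cbigE7 : rsE7.CBig := by unfold CBig C0; decide +kernel
theorem cbigE8 : rsE8.CBig := by unfold CBig C0; decide +kernel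
theorem cfourB2 : rsB2.CFour := by unfold CFour C0; decide +kernel
theorem cfourD4 : rsD4.CFour := by unfold CFour C0; decide +kernel
theorem cfourF4 : rsF4.CFour := by unfold CFour C0; decide +kernel
theorem cfourE6 : rsE6.CFour := by unfold CFour C0; decide +kernel
theorem cfourE7 : rsE7.CFour := by unfold CFour C0; decide +kernel
theorem cfourE8 : rsE8.CFour := by unfold CFour C0; decide +kernel
theorem cthreeB2 : rsB2.CB3 (show List (List (Fin 2)) from [[0], [1, 0, 1]]) :=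
  @of_decide_eq_true _ (rsB2.instDecCB3 _) (by decide +kernel)
theorem cthreeD4 : rsD4.CThree (show List (List (Fin 4)) from
  [[0, 1, 3, 2, 1, 0], [2, 1, 3, 0, 1, 2], [3, 1, 2, 0, 1, 3], [1, 2, 0, 1], [1, 3, 0, 1], [1, 3, 2, 1]]) :=
  @of_decide_eq_true _ (rsD4.instDecCThree _) (by decide +kernel)
theorem cthreeF4 : rsF4.CThree (show List (List (Fin 4)) from
  [[0, 1, 2, 3, 1, 2, 0, 1, 2, 3, 0, 1, 2, 1, 0], [1, 2, 3, 1, 2, 0, 1, 2, 3, 0, 1, 2, 1], [2, 3, 1, 2, 0, 1, 2, 3, 0, 1, 2],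
    [3, 1, 2, 0, 1, 2, 3, 0, 1], [3, 2, 0, 1, 2, 3, 0], [3, 2, 1, 2, 3]]) :=
  @of_decide_eq_true _ (rsF4.instDecCThree _) (by decide +kernel)
theorem cthreeE6 : rsE6.CThree [] := by decide +kernel
theorem cthreeE7 : rsE7.CThree [] := by decide +kernel
theorem cthreeE8 : rsE8.CThree [] := by decide +kernel
theorem ctwoE6 : rsE6.CTwo := by unfold CTwo SL; decide +kernel
theorem ctwoE7 : rsE7.CTwo := by unfold CTwo SL; decide +kernel
theorem ctwoE8 : rsE8.CTwo := by unfold CTwo SL; decide +kernel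
end

theorem card_cases (K : Type*) [Field K] [Fintype K] : (Fintype.card K = 2 ∧ ∀ t : K, t = 0 ∨ t = 1) ∨
    (Fintype.card K = 3 ∧ (3 : K) = 0 ∧ ∀ t : K, t = 0 ∨ t = 1 ∨ t = -1) ∨ (Fintype.card K = 4 ∧ (2 : K) = 0) ∨ 4 < Fintype.card K := by
  have h1 := Fintype.one_lt_card (α := K)
  have h2 := FiniteField.cast_card_eq_zero K
  have h3 := FiniteField.pow_card (K := K)
  generalize Fintype.card K = q at *
  rcases (by omega : q = 2 ∨ q = 3 ∨ q = 4 ∨ 4 < q) with rfl | rfl | rfl | h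
  · exact .inl ⟨rfl, fun t => by have := h3 t; grind⟩
  · exact .inr (.inl ⟨rfl, by exact_mod_cast h2, fun t => by have := h3 t; grind⟩)
  · exact .inr (.inr (.inl ⟨rfl, by have : (2 : K) * 2 = 0 := by rw [← h2]; norm_num
                                    simpa using this⟩))
  · exact .inr (.inr (.inr h))

namespace StN
variable {R : RS D} {K : Type*} [Field K] [Fintype K] {G : Type*} [Group G] (S : StN R K G)

theorem lift_fin {E : Type*} [Group E] {ψ : E →* G} (h : CE ψ) (h2 : Fintype.card K = 2 → R.CTwo)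
    (h3 : Fintype.card K = 3 → ∃ L, R.CThree L ∨ R.CB3 L) (h4 : Fintype.card K = 4 → R.CFour) (h5 : R.CBig) :
    ∃ y, R.Rel12 y ∧ ∀ r t, ψ (y r t) = S.x r t := by
  rcases card_cases K with ⟨e, hK⟩ | ⟨e, h0, hK⟩ | ⟨e, h0⟩ | e
  · exact S.lift_two h hK (h2 e)
  · obtain ⟨L, hL | hL⟩ := h3 e
    · exact S.lift_three h (fun t => by rcases hK t with rfl | rfl | rfl; exacts [⟨0, by simp⟩, ⟨1, by simp⟩, ⟨-1, by simp⟩]) h0 hL
    · exact S.lift_B3 h hK h0 hL
  · exact S.lift_four h ⟨Finset.univ, by simp [e]⟩ h0 (h4 e)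
  · exact S.lift_big h ⟨Finset.univ, e⟩ h5

omit [Fintype K] in
theorem finite_of_rel3 [Finite K] (h3 : R.Rel3 S.x) (hgen : S.U Set.univ = ⊤) : Finite G := by
  have : Finite S.π.ker := by
    rw [ker_eq_center hgen, center_eq h3 hgen]
    exact Finite.of_surjective _ (MonoidHom.subgroupMap_surjective _ _)
  exact (MonoidHom.finite_iff_finite_ker_range S.π).2 ⟨this, inferInstance⟩

theorem exists_stLift (hR : R.Good) {E : Type*} [Group E] {ψ : E →* G} {y : Φ D → K → E} (h : R.Rel12 y) (hy : ∀ r t, ψ (y r t) = S.x r t) :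
    ∃ τ : D.SteinbergGroup K →* E, ∀ r t, τ ((R.st K hR).x r t) = y r t :=
  let S' : StG R K E := ⟨y, h.r1, h.r2, S.π.comp ψ, fun r t => by rw [MonoidHom.comp_apply, hy, S.hπ]⟩
  ⟨_, RS.stLift_x hR h (rel3_of_finite (S := ⟨S', S'.nRel_of_good hR⟩))⟩

end StN

universe u in
theorem RS.hasMult {R : RS D} (hR : R.Good) {K : Type u} [Field K] [Fintype K] {G : Type u} [Group G] (S : StN R K G)
    (hgen : S.U Set.univ = ⊤) (hp : commutator (D.SteinbergGroup K) = ⊤) {π : D.SteinbergGroup K →* G}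
    (hπ : ∀ r t, π ((R.st K hR).x r t) = S.x r t) {A : Type*} [CommGroup A] (e : π.ker ≃* A) (h2 : Fintype.card K = 2 → R.CTwo)
    (h3 : Fintype.card K = 3 → ∃ L, R.CThree L ∨ R.CB3 L) (h4 : Fintype.card K = 4 → R.CFour) (h5 : R.CBig) : HasSchurMultiplier G A := by
  have := (R.st K hR).finite_of_rel3 (R.st_rel3 K hR) (R.st_gen K hR)
  refine hasMult_of_lift ⟨StN.surj_of_hf hπ hgen, fun g hg => ?_, hp ▸ le_top⟩ e fun Γ _ _ σ hσ => ?_
  · rw [← StN.ker_eq_center (R.st_gen K hR), MonoidHom.mem_ker, ← StN.π_comp hπ (R.st_gen K hR), MonoidHom.mem_ker.1 hg, map_one]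
  obtain ⟨y, h6, h7⟩ := S.lift_fin ⟨hσ.1, hσ.2.1⟩ h2 h3 h4 h5
  obtain ⟨τ, hτ⟩ := S.exists_stLift hR h6 h7
  exact ⟨τ, StN.hom_ext (R.st_gen K hR) fun r t => by rw [MonoidHom.comp_apply, hτ, h7, hπ]⟩

theorem RS.hasMult_adj {R : RS D} (hR : R.Good) {K : Type*} [Field K] [Fintype K] (hp : commutator (D.SteinbergGroup K) = ⊤)
    (hi : Function.Injective (R.st K hR).hp) {m d : ℕ} {u v : Fin m → I D → ℤ} (hk : R.KerData m d u v) (hm : m ≤ 1) {n : ℕ}
    (hn : n = Nat.gcd d (Fintype.card K - 1) ^ m) (h2 : Fintype.card K = 2 → R.CTwo)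
    (h3 : Fintype.card K = 3 → ∃ L, R.CThree L ∨ R.CB3 L) (h4 : Fintype.card K = 4 → R.CFour) (h5 : R.CBig) :
    HasCyclicSchurMultiplier (D.group K) n := by
  obtain ⟨e, -⟩ := hk.equiv K
  have h6 : IsCyclic (R.tau K).ker := by
    refine (MulEquiv.isCyclic e).1 ?_
    obtain rfl | rfl : m = 0 ∨ m = 1 := by omega
    · exact isCyclic_of_subsingleton
    · exact (MulEquiv.isCyclic (MulEquiv.piUnique _)).2 inferInstance
  refine RS.hasMult hR (R.adj K) (R.adj_gen K) hp (StN.toAdj_x (R.st_gen K hR)) ((MulEquiv.subgroupCongr ((StN.toAdj_ker _).trans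
    (StN.center_eq (R.st_rel3 K hR) (R.st_gen K hR)))).trans (((R.tau K).ker.equivMapOfInjective _ hi).symm.trans ?_)) h2 h3 h4 h5
  rw [hn, ← Nat.card_eq_fintype_card, ← hk.card K]
  exact (zmodCyclicMulEquiv h6).symm

end Cfsg.Agent.H5
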