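import Cfsg.Agent.H5.Ce4

set_option autoImplicit false

namespace Cfsg.Agent.H5

open Cfsg.Lie
open scoped commutatorElement

section abs
variable {E G : Type*} [Group E] [Group G]

theorem exists_powHom {C : Subgroup E} [C.FiniteIndex] (h : C ≤ Subgroup.center E) : ∃ f : E →* C, ∀ g, (f g : E) = g ^ C.index := by
  letI : CommGroup C := { (inferInstance : Group C) with mul_comm := fun a b => Subtype.ext (Subgroup.mem_center_iff.1 (h b.2) a) }
  refine ⟨MonoidHom.transfer (MonoidHom.id C), fun g => ?_⟩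
  rw [MonoidHom.transfer_eq_pow _ g fun k g₀ hk => ?_]
  · rfl
  have := Subgroup.mem_center_iff.1 (h hk) g₀
  generalize g ^ k = x at *
  have h1 : x = g₀⁻¹ * x * g₀ := by rw [← mul_left_inj g₀, ← this]; group
  exact h1.symm

theorem hom_eq_of_perfect {Δ : Type*} [Group Δ] (hp : commutator Δ = ⊤) {ψ : E →* G} (h : ψ.ker ≤ Subgroup.center E) {f g : Δ →* E}
    (e : ψ.comp f = ψ.comp g) : f = g := by
  have hc : CE ψ.rangeRestrict := ⟨ψ.rangeRestrict_surjective, by rwa [MonoidHom.ker_rangeRestrict]⟩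
  refine MonoidHom.eq_of_eqOn_top fun x hx => (show commutator Δ ≤ f.eqLocus g from Subgroup.commutator_le.2 fun a _ b _ => ?_) (hp ▸ hx)
  change f _ = g _
  rw [map_commutatorElement, map_commutatorElement]
  exact hc.comm_congr (Subtype.ext (DFunLike.congr_fun e a)) (Subtype.ext (DFunLike.congr_fun e b))

theorem exists_pullback {G₁ : Type*} [Group G₁] {π : E →* G₁} (h : CE π) (σ : G →* G₁) :
    ∃ (P : Subgroup (E × G)), CE ((MonoidHom.snd E G).comp P.subtype) ∧ ∀ x ∈ P, π x.1 = σ x.2 :=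
  ⟨(π.comp (.fst E G)).eqLocus (σ.comp (.snd E G)), ⟨fun g => (h.surj (σ g)).elim fun e he => ⟨⟨(e, g), he⟩, rfl⟩,
    fun ⟨(a, b), hx⟩ hb => Subgroup.mem_center_iff.2 fun y => by
      obtain rfl : b = 1 := hb
      exact Subtype.ext (Prod.ext (h.comm (hx.trans (map_one σ)) _) (by simp))⟩, fun _ => id⟩

namespace CE
variable {ψ : E →* G} (h : CE ψ) {p : ℕ} [Fact p.Prime] (hC : ∀ c, ψ c = 1 → c ^ p = 1 → c = 1)
include h hC

omit h in
theorem eq_one_of_pow {c : E} (h1 : ψ c = 1) {k : ℕ} (h2 : c ^ p ^ k = 1) : c = 1 := by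
  induction k with
  | zero => simpa using h2
  | succ k ih => exact ih (hC _ (by simp [h1]) (by rwa [← pow_mul, ← pow_succ]))

/-- the unique lift of a `p`-subgroup -/
theorem exists_plift {U : Subgroup G} [Finite U] (hU : IsPGroup p U) :
    ∃ P : Subgroup E, ∀ e, e ∈ P ↔ ψ e ∈ U ∧ ∃ k, e ^ p ^ k = 1 := by
  let φ := ψ.subgroupComap U
  have hs : Function.Surjective φ := ψ.subgroupComap_surjective_of_surjective U h.surj
  obtain ⟨k, hk⟩ := IsPGroup.iff_card.1 hU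
  have hi : φ.ker.index = p ^ k := by rw [Subgroup.index_ker, MonoidHom.range_eq_top.2 hs, Subgroup.card_top, hk]
  have : φ.ker.FiniteIndex := ⟨hi ▸ pow_ne_zero _ (Fact.out : p.Prime).ne_zero⟩
  obtain ⟨f, hf⟩ := exists_powHom (C := φ.ker) fun c hc => Subgroup.mem_center_iff.2 fun g =>
    Subtype.ext (h.comm (congrArg Subtype.val hc) g)
  refine ⟨f.ker.map (U.comap ψ).subtype, fun e => ⟨?_, fun ⟨h1, j, h2⟩ => ⟨⟨e, h1⟩, Subtype.ext (Subtype.ext ?_), rfl⟩⟩⟩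
  · rintro ⟨e, he, rfl⟩
    exact ⟨e.2, k, by rw [← hi]; exact congrArg Subtype.val ((hf e).symm.trans (congrArg Subtype.val he))⟩
  · refine eq_one_of_pow hC (congrArg Subtype.val (f ⟨e, h1⟩).2) (k := j) ?_
    rw [hf, Subgroup.coe_pow, ← pow_mul, mul_comm, pow_mul, h2, one_pow]

omit hC in
theorem exists_pelt [Finite G] (hp : commutator G = ⊤) {g : G} {k : ℕ} (hg : g ^ p ^ k = 1) : ∃ e, ψ e = g ∧ ∃ k, e ^ p ^ k = 1 := by
  have hi : ψ.ker.index = Nat.card G := by rw [Subgroup.index_ker, MonoidHom.range_eq_top.2 h.surj, Subgroup.card_top]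
  have : ψ.ker.FiniteIndex := ⟨hi ▸ Nat.card_pos.ne'⟩
  obtain ⟨f, hf⟩ := exists_powHom h.cen
  obtain ⟨e, he, rfl⟩ : g ∈ (commutator E).map ψ := by
    rw [map_commutator_eq, MonoidHom.range_eq_top.2 h.surj, ← commutator_def, hp]; trivial
  have h1 : e ^ Nat.card G = 1 := by
    letI : CommGroup ψ.ker := { (inferInstance : Group ψ.ker) with
      mul_comm := fun a b => Subtype.ext (Subgroup.mem_center_iff.1 (h.cen b.2) a) }
    rw [← hi, ← hf, Abelianization.commutator_subset_ker f he, OneMemClass.coe_one]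
  obtain ⟨a, m, h2, h3⟩ := Nat.exists_eq_pow_mul_and_not_dvd (Nat.card_pos (α := G)).ne' p (Fact.out : p.Prime).ne_one
  obtain ⟨n, hn⟩ := exists_pow_eq_self_of_coprime (x := ψ e) (n := m)
    (Nat.Coprime.coprime_dvd_right (orderOf_dvd_of_pow_eq_one hg) (((Nat.Prime.coprime_iff_not_dvd Fact.out).2 h2).symm.pow_right _))
  exact ⟨(e ^ m) ^ n, by simp [hn], a, by rw [← pow_mul, ← pow_mul, mul_comm n, ← mul_assoc, mul_comm m, ← h3, pow_mul, h1, one_pow]⟩

end CE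
end abs

variable {D : ChevalleyDatum}

namespace StN
open StG RS
variable {R : RS D} {K : Type*} [Field K] {G : Type*} [Group G] (S : StN R K G) {E : Type*} [Group E] {ψ : E →* G} (h : CE ψ)
include h

theorem lift_coprime [Finite K] [Finite G] (hp : commutator G = ⊤) {p : ℕ} [Fact p.Prime] [CharP K p]
    (hC : ∀ c, ψ c = 1 → c ^ p = 1 → c = 1) : ∃ y, R.Rel12 y ∧ ∀ r t, ψ (y r t) = S.x r t := by
  have key : ∀ r s, s ≠ R.neg r → ∃ T : Set (Φ D), r ∈ T ∧ s ∈ T ∧ R.Closed T ∧ IsPGroup p (S.U T) := fun r s hs => by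
    obtain ⟨L, h1, h2, -⟩ := exists_L hs
    cases nonempty_fintype K
    obtain ⟨n, -, hn⟩ := FiniteField.card K p
    exact ⟨_, h1, h2, closed_pos L, .of_card (by rw [card_U (closed_pos L) fun _ => id, Nat.card_eq_fintype_card, hn, ← pow_mul])⟩
  choose y hy hy' using fun r t => (key r r (R.neg_ne r).symm).elim fun T hT => (hT.2.2.2 ⟨_, x_mem (S := S.toStG) hT.1 t⟩).elim
    fun k hk => h.exists_pelt hp (congrArg Subtype.val hk)
  have main : ∀ r s, s ≠ R.neg r → ∃ P : Subgroup E, (∀ c, c = r ∨ c = s ∨ R.Comb r s c → ∀ t, y c t ∈ P) ∧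
      ∀ a ∈ P, ∀ b ∈ P, ψ a = ψ b → a = b := fun r s hs => by
    obtain ⟨T, h1, h2, h3, h4⟩ := key r s hs
    obtain ⟨P, hP⟩ := h.exists_plift hC h4
    refine ⟨P, fun c hc t => (hP _).2 ⟨hy c t ▸ x_mem (by rcases hc with rfl | rfl | hc; exacts [h1, h2, h3 _ h1 _ h2 _ hc]) t, hy' c t⟩,
      fun a ha b hb e => ?_⟩
    obtain ⟨-, k, hk⟩ := (hP _).1 (mul_mem ha (inv_mem hb))
    exact mul_inv_eq_one.1 (CE.eq_one_of_pow hC (by simp [e]) hk)
  refine ⟨y, ⟨fun r t u => ?_, fun r s h1 h2 t u => ?_⟩, hy⟩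
  · obtain ⟨P, h1, h2⟩ := main r r (R.neg_ne r).symm
    exact h2 _ (mul_mem (h1 r (.inl rfl) _) (h1 r (.inl rfl) _)) _ (h1 r (.inl rfl) _) (by rw [map_mul, hy, hy, hy, S.r1])
  obtain ⟨P, h3, h4⟩ := main r s h2
  have a := h3 r (.inl rfl) t
  have b := h3 s (.inr (.inl rfl)) u
  refine h4 _ (mul_mem b a) _ (mul_mem (mul_mem a b) (list_prod_mem fun g hg => ?_)) (by
    simp only [map_mul, R.map_cw, hy]; exact S.r2 r s h1 h2 t u)
  obtain ⟨c, hc, rfl⟩ := List.mem_map.1 hg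
  exact h3 _ (.inr (.inr (R.comb_of_tm hc))) _

end StN

theorem RS.sc_lift {R : RS D} (hR : R.Good) {K : Type*} [Field K] (hp : commutator (D.SteinbergCover K) = ⊤) {G₁ E : Type*} [Group G₁]
    [Group E] {π : E →* G₁} (h : CE π) (σ : D.SteinbergCover K →* G₁)
    (H : ∀ P : Subgroup (E × D.SteinbergCover K), CE ((MonoidHom.snd _ _).comp P.subtype) → (∀ x ∈ P, π x.1 = σ x.2) →
      ∃ y : Φ D → K → P, R.Rel12 y ∧ ∀ r t, (y r t).1.2 = (R.sc K hR).x r t) : ∃! τ : D.SteinbergCover K →* E, π.comp τ = σ := by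
  obtain ⟨P, h1, h2⟩ := exists_pullback h σ
  obtain ⟨y, h3, h4⟩ := H P h1 h2
  have := StN.hom_ext (f := π.comp (((MonoidHom.fst _ _).comp P.subtype).comp (RS.scLift h3))) (g := σ) (R.sc_gen K hR) fun r t => by
    simp only [MonoidHom.comp_apply, RS.scLift_x hR]
    exact (h2 _ (y r t).2).trans (congrArg σ (h4 r t))
  exact ⟨_, this, fun τ e => hom_eq_of_perfect hp h.cen (e.trans this.symm)⟩

theorem exists_rs_big {D : ChevalleyDatum} (hD : D ∈ [chevG2, chevB2, chevD4, chevF4, chevE6, chevE7, chevE8]) :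
    ∃ R : RS D, R.Good ∧ (R.Good1 ∨ R.Good2 ∧ D ∈ [chevB2, chevG2]) ∧ R.CBig := by
  simp only [List.mem_cons, List.not_mem_nil, or_false] at hD
  rcases hD with rfl | rfl | rfl | rfl | rfl | rfl | rfl
  exacts [⟨_, goodG2, .inr ⟨good2G2, by simp⟩, cbigG2⟩, ⟨_, goodB2, .inr ⟨good2B2, by simp⟩, cbigB2⟩, ⟨_, goodD4, .inl good1D4, cbigD4⟩,
    ⟨_, goodF4, .inl good1F4, cbigF4⟩, ⟨_, goodE6, .inl good1E6, cbigE6⟩, ⟨_, goodE7, .inl good1E7, cbigE7⟩, ⟨_, goodE8, .inl good1E8, cbigE8⟩]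

end Cfsg.Agent.H5
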