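import Cfsg.Agent.H5.Ce2
import Cfsg.Agent.H5.Cent

/-! Generation by `N` and root subgroups. -/

set_option autoImplicit false

namespace Cfsg.Agent.H5

open Cfsg.Lie StG StN RS

variable {D : ChevalleyDatum} {R : RS D} {K : Type*} [Field K]

theorem RS.exists_smul_of_nrm {a b : Φ D} (h : ∀ s, R.Dm s → s = a ∨ s = b) (hn : a = b ∨ R.nrm a ≠ R.nrm b) {r s : Φ D}
    (e : R.nrm r = R.nrm s) : ∃ w : R.W, w • r = s := by
  obtain ⟨w, hw⟩ := exists_dom (R := R) r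
  obtain ⟨v, hv⟩ := exists_dom (R := R) s
  refine ⟨v⁻¹ * w, by
    rw [mul_smul, inv_smul_eq_iff]
    rw [← nrm_smul w, ← nrm_smul v s] at e
    rcases h _ hw with h1 | h1 <;> rcases h _ hv with h2 | h2 <;> rw [h1, h2] at e ⊢ <;> tauto⟩

theorem StN.root_smul {G : Type*} [Group G] {S : StN R K G} {M : Subgroup G} (hM : S.N ≤ M) {r : Φ D} (h : S.U {r} ≤ M) (w : R.W) :
    S.U {w • r} ≤ M := fun g hg => by
  obtain ⟨m, hm, hl⟩ := exists_N_lift (S := S) w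
  have := (hl.inv hm).conj_mem (T' := {r}) (by simp) hg
  simpa [mul_assoc] using mul_mem (mul_mem (hM hm) (h this)) (inv_mem (hM hm))

section
variable {G : Type*} [Group G] {S : StN R K G} {M : Subgroup G} (hM : S.N ≤ M) {a b : Φ D}
include hM

theorem StN.gen_N1 (h : ∀ s, R.Dm s → s = a) {r : Φ D} (h1 : S.U {r} ≤ M) : S.U Set.univ ≤ M := U_le.2 fun t _ u => by
  obtain ⟨w, hw⟩ := exists_dom (R := R) t
  obtain ⟨v, hv⟩ := exists_dom (R := R) r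
  exact root_smul hM h1 (w⁻¹ * v) (x_mem (by rw [mul_smul, h _ hv, ← h _ hw, inv_smul_smul]; rfl) u)

variable (h : (∀ s, R.Dm s → s = a ∨ s = b) ∧ (a = b ∨ R.nrm a ≠ R.nrm b))
include h

theorem StN.gen_N {r s : Φ D} (hr : R.nrm r = R.nrm a) (hs : R.nrm s = R.nrm b) (h1 : S.U {r} ≤ M) (h2 : S.U {s} ≤ M) :
    S.U Set.univ ≤ M := U_le.2 fun t _ u => by
  obtain ⟨w, hw⟩ := exists_dom (R := R) t
  rcases h.1 _ hw with e | e
  · obtain ⟨v, hv⟩ := exists_smul_of_nrm h.1 h.2 (r := r) (s := t) (by rw [hr, ← e, nrm_smul])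
    exact root_smul hM h1 v (x_mem (Set.mem_singleton_iff.2 hv.symm) u)
  · obtain ⟨v, hv⟩ := exists_smul_of_nrm h.1 h.2 (r := s) (s := t) (by rw [hs, ← e, nrm_smul])
    exact root_smul hM h2 v (x_mem (Set.mem_singleton_iff.2 hv.symm) u)

theorem StN.gen_N' {c : Φ D} {n : ℤ} (h' : R.nrm c = R.nrm a ∧ a ≠ c ∧ a ≠ R.neg c ∧ R.tm c a = [(b, n, 1, 1)]) (hn : (n : K) ≠ 0)
    {r : Φ D} (hr : R.nrm r = R.nrm a) (h1 : S.U {r} ≤ M) : S.U Set.univ ≤ M := by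
  refine gen_N hM h hr rfl h1 (U_le.2 ?_)
  obtain ⟨v, hv⟩ := exists_smul_of_nrm h.1 h.2 hr
  obtain ⟨w, hw⟩ := exists_smul_of_nrm h.1 h.2 (hr.trans h'.1.symm)
  have h2 : ∀ t, S.x a t ∈ M := fun t => root_smul hM h1 v (x_mem (Set.mem_singleton_iff.2 hv.symm) t)
  have h3 : ∀ t, S.x c t ∈ M := fun t => root_smul hM h1 w (x_mem (Set.mem_singleton_iff.2 hw.symm) t)
  rintro _ rfl t
  have := S.r2 c _ h'.2.1 h'.2.2.1 (-1) (t / n)
  rw [cw, h'.2.2.2] at this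
  have h4 := h2 (t / n)
  have h5 := mul_mem h4 (h3 (-1))
  rw [this, mul_mem_cancel_left (mul_mem (h3 _) h4)] at h5
  simpa [mul_div_cancel₀ _ hn] using h5
end

theorem RS.root_sim (R : RS D) (i : I D) : D.rootSubgroup K (D.simple i) = (R.gl K).U {R.sim i} := by rw [← R.root_eq, R.sim_val]

end Cfsg.Agent.H5
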