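import Cfsg.Agent.H4.Lang6

/-! Centralizers of graph automorphisms of the projective special linear groups. -/

set_option autoImplicit false

namespace Cfsg.Agent.H5

open H4 H4.CForm H4.Gam Module Matrix

variable {F : Type*} [Field F]

/-- transport of linear automorphisms -/
def cgE {V W : Type*} [AddCommGroup V] [Module F V] [AddCommGroup W] [Module F W] (e : V ≃ₗ[F] W) :
    (W ≃ₗ[F] W) →* (V ≃ₗ[F] V) where
  toFun g := e.trans (g.trans e.symm)
  map_one' := by ext; simp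
  map_mul' := by intros; ext; simp

@[simp] theorem cgE_apply {V W : Type*} [AddCommGroup V] [Module F V] [AddCommGroup W] [Module F W] (e : V ≃ₗ[F] W)
    (g : W ≃ₗ[F] W) (x : V) : cgE e g x = e.symm (g (e x)) := rfl

variable [Fintype F] {n : ℕ} (hn : 2 ≤ n)

theorem comm_graph_iff (k h : (Fin n → F) ≃ₗ[F] (Fin n → F)) :
    slΦ F hn (lin h) ∈ Subgroup.centralizer {slΦ F hn (lin k) * slι F n} ↔
      ∃ c : Fˣ, ∀ x y, h x ⬝ᵥ k.symm (h y) = c * (x ⬝ᵥ k.symm y) := by
  rw [Subgroup.mem_centralizer_singleton_iff, mul_assoc, slι_mul_Φ, ← mul_assoc, ← mul_assoc, mul_left_inj, ← map_mul (slΦ F hn),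
    ← map_mul (slΦ F hn), slΦ_eq, slΦ_eq, Mdl.Φ_eq_iff]
  refine exists_congr fun c => ⟨fun e x y => ?_, fun e => ext' (fun y => ?_) (by simp)⟩
  · obtain ⟨y, rfl⟩ := k.surjective y
    have h1 : h (k y) = (c : F) • k (gr h y) := by simpa using congrArg (fun a : Gam F (Fin n → F) => a.s y) e
    rw [h1, map_smul, LinearEquiv.symm_apply_apply, LinearEquiv.symm_apply_apply, dotProduct_smul, gr_dot, smul_eq_mul]
  · have h1 : k.symm (h (k y)) = (c : F) • gr h y := eq_of_dot fun z => by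
      obtain ⟨x, rfl⟩ := h.surjective z
      rw [e, LinearEquiv.symm_apply_apply, dotProduct_smul, gr_dot, smul_eq_mul]
    simpa using congrArg k h1

theorem cent_graph {κ : Type} [Fintype κ] [DecidableEq κ] (k : (Fin n → F) ≃ₗ[F] (Fin n → F)) (e : (Fin n → F) ≃ₗ[F] (κ → F))
    {K : Subgroup (GL κ F)} (hK : ∀ g, g ∈ K ↔ ∃ c : Fˣ, ∀ x y,
      cgE e (glE g) x ⬝ᵥ k.symm (cgE e (glE g) y) = c * (x ⬝ᵥ k.symm y)) :
    Nonempty (↥(inndiagPSL n F ⊓ Subgroup.centralizer {slΦ F hn (lin k) * slι F n}) ≃* projQuot K) := by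
  let θ : K →* MulAut (ProjectiveSpecialLinearGroup (Fin n) F) :=
    (slΦ F hn).comp (lin.comp ((cgE e).comp (glE.toMonoidHom.comp K.subtype)))
  have h1 : θ.range = inndiagPSL n F ⊓ Subgroup.centralizer {slΦ F hn (lin k) * slι F n} := by
    rw [inndiagPSL_eq hn]
    ext β
    constructor
    · rintro ⟨g, rfl⟩
      exact ⟨⟨⟨_, trivial⟩, ⟨glE.symm (cgE e (glE g.1)), trivial, congrArg lin (glE.apply_symm_apply _)⟩, rfl⟩,
        (comm_graph_iff hn k _).2 ((hK g).1 g.2)⟩
    · rintro ⟨⟨⟨_, ha⟩, ⟨g, -, rfl⟩, rfl⟩, h⟩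
      have h2 : cgE e (glE (glE.symm (cgE e.symm (glE g)))) = glE g := by ext x; simp [-glE_apply]
      exact ⟨⟨glE.symm (cgE e.symm (glE g)), (hK _).2 (by rw [h2]; exact (comm_graph_iff hn k _).1 h)⟩,
        congrArg (fun u => slΦ F hn (lin u)) h2⟩
  have h2 : θ.ker = (Geo.scalars κ F).subgroupOf K := by
    ext g
    rw [Subgroup.mem_subgroupOf, Geo.mem_scalars_iff]
    refine ((slM F hn).ker ⟨_, trivial⟩).trans (exists_congr fun c => ⟨fun h => ?_, fun h => ext' (fun x => ?_) rfl⟩)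
    · refine Matrix.toLin'.injective (LinearMap.ext fun v => ?_)
      have h3 : (c : F) • e.symm v = e.symm ((g.1 : Matrix κ κ F) *ᵥ e (e.symm v)) :=
        congrArg (fun a : Gam F (Fin n → F) => a.s (e.symm v)) h
      rw [← map_smul, LinearEquiv.apply_symm_apply] at h3
      simpa [Matrix.smul_mulVec] using (e.symm.injective h3).symm
    · change (c : F) • x = e.symm ((g.1 : Matrix κ κ F) *ᵥ e x)
      simp [h, Matrix.smul_mulVec]
  exact ⟨(MulEquiv.subgroupCongr h1).symm.trans ((QuotientGroup.quotientKerEquivRange θ).symm.trans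
    (QuotientGroup.quotientMulEquivOfEq h2))⟩

theorem cent_graph_quad {κ : Type} [Fintype κ] [DecidableEq κ] (h2 : (2 : F) ≠ 0) (k : (Fin n → F) ≃ₗ[F] (Fin n → F))
    {f : CForm (FType.orth F) (Fin n → F)} {f' : CForm (FType.orth F) (κ → F)} (h : Isom f f') {a : F} (ha : a ≠ 0)
    (hk : ∀ x y, f.B x y = a * (x ⬝ᵥ k.symm y)) :
    Nonempty (↥(inndiagPSL n F ⊓ Subgroup.centralizer {slΦ F hn (lin k) * slι F n}) ≃* PGO F f'.Q) := by
  obtain ⟨e, h3, h4⟩ := h
  have h5 : ∀ x y, a * (e.symm x ⬝ᵥ k.symm (e.symm y)) = f'.B x y := fun x y => by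
    rw [← hk, ← h3]; simp
  refine cent_graph hn k e fun g => exists_congr fun c => ⟨fun h x y => mul_left_cancel₀ ha ?_, fun h v => ?_⟩
  · rw [cgE_apply, cgE_apply, h5, mul_left_comm, ← hk, ← h3, f'.orth_B_eq, f'.orth_B_eq, ← map_add, glE_apply, glE_apply,
      glE_apply, h, h, h]
    simp [mul_sub]
  · have h6 := congrArg (a * ·) (h (e.symm v) (e.symm v))
    simp only [cgE_apply, LinearEquiv.apply_symm_apply, h5, mul_left_comm a, f'.B_self, FType.orth_β, glE_apply] at h6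
    exact mul_left_cancel₀ h2 (h6.trans (mul_left_comm _ _ _))

omit [Fintype F] in
theorem polar_dot (x y : Fin n → F) : QuadraticMap.polar (fun x : Fin n → F => x ⬝ᵥ x) x y = 2 * (x ⬝ᵥ y) := by
  simp only [QuadraticMap.polar, add_dotProduct, dotProduct_add, dotProduct_comm y x]; ring

variable (F n) in
/-- the sum of squares -/
def dotF : CForm (FType.orth F) (Fin n → F) :=
  mkQuad (fun x => x ⬝ᵥ x) (fun a x => by simp [sq, mul_assoc]) (fun x y z => by simp [polar_dot, mul_add])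
    fun a x y => by simp [polar_dot, mul_left_comm]

omit [Fintype F] in
theorem dotF_gram : (Matrix.of fun i j => (dotF F n).B (Pi.basisFun F _ i) (Pi.basisFun F _ j)).det = 2 ^ n := by
  have : (Matrix.of fun i j => (dotF F n).B (Pi.basisFun F _ i) (Pi.basisFun F _ j)) = Matrix.diagonal fun _ => 2 := by
    ext i j
    by_cases e : i = j <;> simp [dotF, polar_dot, e, Pi.single_apply, eq_comm (a := j)]
  rw [this, Matrix.det_diagonal]; simp

end Cfsg.Agent.H5
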