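import Cfsg.Agent.H5.GrC

/-! Conjugacy classes of graph automorphisms of the projective special linear groups. -/

set_option autoImplicit false

namespace Cfsg.Agent.H5

open H4 H4.CForm H4.Gam Module Matrix

variable {F : Type*} [Field F] {n : ℕ}

theorem exists_kform {T : FType F} {W : Type*} [AddCommGroup W] [Module F W] {f : CForm T W} (hσ : ∀ a, T.σ a = a)
    (hf : f.Nondeg) (e : (Fin n → F) ≃ₗ[F] W) :
    ∃ k : (Fin n → F) ≃ₗ[F] (Fin n → F), ∀ x y, x ⬝ᵥ k.symm y = f.B (e x) (e y) := by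
  let L : (Fin n → F) →ₗ[F] (Fin n → F) :=
    { toFun := fun y i => f.B (e (Pi.single i 1)) (e y)
      map_add' := fun x y => by ext i; simp
      map_smul' := fun a y => by ext i; simp [hσ] }
  have h1 : ∀ x y, x ⬝ᵥ L y = f.B (e x) (e y) := fun x y => by
    conv_rhs => rw [pi_eq_sum_univ' x]
    simp [L, dotProduct]
  refine ⟨(LinearEquiv.ofInjectiveEndo L ?_).symm, h1⟩
  rw [injective_iff_map_eq_zero]
  intro y hy
  refine e.injective ((hf _ fun x => ?_).trans (map_zero e).symm)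
  obtain ⟨x, rfl⟩ := e.surjective x
  exact f.B_zero_symm (by rw [← h1, hy, dotProduct_zero])

theorem kform_nondeg (k : (Fin n → F) ≃ₗ[F] (Fin n → F)) (x : Fin n → F) (h : ∀ y, x ⬝ᵥ k.symm y = 0) : x = 0 :=
  eq_of_dot fun z => by
    obtain ⟨y, rfl⟩ := k.symm.surjective z
    rw [dotProduct_comm, h, dotProduct_zero]

variable [Fintype F] (hn : 2 ≤ n)

/-- the graph automorphism attached to a bilinear form -/
noncomputable def gK (k : (Fin n → F) ≃ₗ[F] (Fin n → F)) : MulAut (ProjectiveSpecialLinearGroup (Fin n) F) :=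
  slΦ F hn (lin k) * slι F n

theorem conj_gK_iff (k k' h : (Fin n → F) ≃ₗ[F] (Fin n → F)) :
    gK hn k' = slΦ F hn (lin h) * gK hn k * (slΦ F hn (lin h))⁻¹ ↔
      ∃ c : Fˣ, ∀ x y, h x ⬝ᵥ k'.symm (h y) = c * (x ⬝ᵥ k.symm y) := by
  rw [eq_comm, mul_inv_eq_iff_eq_mul, gK, gK, mul_assoc, slι_mul_Φ, ← mul_assoc, ← mul_assoc, mul_left_inj,
    ← map_mul (slΦ F hn), ← map_mul (slΦ F hn), slΦ_eq, slΦ_eq, Mdl.Φ_eq_iff]
  refine exists_congr fun c => ⟨fun e x y => ?_, fun e => ext' (fun y => ?_) (by simp)⟩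
  · obtain ⟨y, rfl⟩ := k.surjective y
    have h1 : h (k y) = (c : F) • k' (gr h y) := by simpa using congrArg (fun a : Gam F (Fin n → F) => a.s y) e
    rw [h1, map_smul, LinearEquiv.symm_apply_apply, LinearEquiv.symm_apply_apply, dotProduct_smul, gr_dot, smul_eq_mul]
  · have h1 : k'.symm (h (k y)) = (c : F) • gr h y := eq_of_dot fun z => by
      obtain ⟨x, rfl⟩ := h.surjective z
      rw [e, LinearEquiv.symm_apply_apply, dotProduct_smul, gr_dot, smul_eq_mul]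
    simpa using congrArg k' h1

theorem mem_inndiag_iff {β} : β ∈ inndiagPSL n F ↔ ∃ h, slΦ F hn (lin h) = β := by
  rw [inndiagPSL_eq hn]
  exact ⟨by rintro ⟨⟨_, ha⟩, ⟨g, -, rfl⟩, rfl⟩; exact ⟨_, rfl⟩, by
    rintro ⟨h, rfl⟩; exact ⟨⟨_, trivial⟩, ⟨glE.symm h, trivial, congrArg lin (glE.apply_symm_apply _)⟩, rfl⟩⟩

theorem isConj_gK_iff (k k' : (Fin n → F) ≃ₗ[F] (Fin n → F)) : IsConjUnder (inndiagPSL n F) (gK hn k) (gK hn k') ↔
    ∃ h : (Fin n → F) ≃ₗ[F] (Fin n → F), ∃ c : Fˣ, ∀ x y, h x ⬝ᵥ k'.symm (h y) = c * (x ⬝ᵥ k.symm y) := by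
  constructor
  · rintro ⟨β, hβ, e⟩
    obtain ⟨h, rfl⟩ := (mem_inndiag_iff hn).1 hβ
    exact ⟨h, (conj_gK_iff hn k k' h).1 e⟩
  · rintro ⟨h, e⟩
    exact ⟨_, (mem_inndiag_iff hn).2 ⟨h, rfl⟩, (conj_gK_iff hn k k' h).2 e⟩

theorem graph_class_iff (h3 : 3 ≤ n) {γ} : IsGraphAutClassPSL γ ↔ ∃ k : (Fin n → F) ≃ₗ[F] (Fin n → F), gK hn k = γ := by
  constructor
  · rintro ⟨-, δ, _, h1, h2, rfl⟩
    obtain ⟨k, rfl⟩ := (mem_inndiag_iff hn).1 (inndiagPSL_eq (F := F) hn ▸ (slM_inndiag hn).1 h1)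
    exact ⟨k, by rw [slι_iff.1 h2]; rfl⟩
  · rintro ⟨k, rfl⟩
    exact ⟨h3, _, _, (slM_inndiag hn).2 (inndiagPSL_eq (F := F) hn ▸ (mem_inndiag_iff hn).2 ⟨k, rfl⟩), slι_iff.2 rfl, rfl⟩

theorem order_gK_iff (h3 : 3 ≤ n) (k : (Fin n → F) ≃ₗ[F] (Fin n → F)) :
    orderOf (gK hn k) = 2 ↔ ∃ c : Fˣ, ∀ x y, y ⬝ᵥ k.symm x = c * (x ⬝ᵥ k.symm y) := by
  have h1 : gK hn k ≠ 1 := fun e => slι_notMem (F := F) hn h3
    ⟨⟨(lin k)⁻¹, trivial⟩, (map_inv (slΦ F hn) _).trans (inv_eq_of_mul_eq_one_right e)⟩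
  have h2 : gK hn k ^ 2 = slΦ F hn (lin k * dual (lin k)) := by
    rw [sq, gK, mul_assoc, ← mul_assoc (slι F n), slι_mul_Φ, mul_assoc, slι_mul, mul_one, map_mul]
  have h4 : ∀ x y, x ⬝ᵥ gr k y = y ⬝ᵥ k.symm x := fun x y => by
    rw [dotProduct_comm y, ← gr_dot k (k.symm x), LinearEquiv.apply_symm_apply]
  rw [orderOf_eq_prime_iff, and_iff_left h1, h2]
  refine ((slM F hn).ker ⟨_, trivial⟩).trans (exists_congr fun c => ⟨fun e x y => ?_, fun e => ext' (fun y => ?_) (by simp)⟩)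
  · have h5 : (c : F) • y = k (gr k y) := by simpa using congrArg (fun a : Gam F (Fin n → F) => a.s y) e
    rw [← h4, ← smul_eq_mul, ← dotProduct_smul, ← map_smul, h5, LinearEquiv.symm_apply_apply]
  · have h5 : (c : F) • k.symm y = gr k y := eq_of_dot fun x => by rw [h4, e, dotProduct_smul, smul_eq_mul]
    simpa using congrArg k h5

include hn in
omit [Fintype F] in
theorem kform_cases {k : (Fin n → F) ≃ₗ[F] (Fin n → F)} {c : F} (h : ∀ x y, y ⬝ᵥ k.symm x = c * (x ⬝ᵥ k.symm y)) :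
    (∀ x y, y ⬝ᵥ k.symm x = x ⬝ᵥ k.symm y) ∨ ∀ x y, y ⬝ᵥ k.symm x = -(x ⬝ᵥ k.symm y) := by
  have h1 := h (k (Pi.single ⟨0, by omega⟩ 1)) (Pi.single ⟨0, by omega⟩ 1)
  rw [h (Pi.single ⟨0, by omega⟩ 1) (k _), LinearEquiv.symm_apply_apply] at h1
  have h2 : c * c = 1 := by simpa [← mul_assoc] using h1.symm
  rcases mul_self_eq_one_iff.1 h2 with rfl | rfl
  · exact .inl (by simpa using h)
  · exact .inr (by simpa using h)

end Cfsg.Agent.H5
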