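import Cfsg.Agent.H5.GrD

/-! Graph automorphisms of the projective special linear groups in characteristic two. -/

set_option autoImplicit false

namespace Cfsg.Agent.H5

open H4 H4.CForm H4.Gam Module Matrix

variable {F : Type*} [Field F] [Fintype F] {n : ℕ} (h2 : (2 : F) = 0) {k : (Fin n → F) ≃ₗ[F] (Fin n → F)}
  (s : ∀ x y, y ⬝ᵥ k.symm x = x ⬝ᵥ k.symm y)
include h2 s

theorem exists_kvec : ∃ v, ∀ x, x ⬝ᵥ k.symm x = (x ⬝ᵥ k.symm v) * (x ⬝ᵥ k.symm v) := by
  choose u hu using fun i : Fin n => isSquare_of_two_eq_zero h2 (Pi.single i 1 ⬝ᵥ k.symm (Pi.single i 1))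
  refine ⟨k u, fun x => ?_⟩
  rw [LinearEquiv.symm_apply_apply]
  refine Pi.single_induction (fun x => x ⬝ᵥ k.symm x = (x ⬝ᵥ u) * (x ⬝ᵥ u)) x (by simp) (fun x y h h' => ?_) fun i a => ?_
  · simp only [map_add, add_dotProduct, dotProduct_add, h, h', s x y]
    linear_combination (x ⬝ᵥ k.symm y - x ⬝ᵥ u * y ⬝ᵥ u) * h2
  · rw [show (Pi.single i a : Fin n → F) = a • Pi.single i 1 by ext j; by_cases e : j = i <;> simp [e], map_smul,
      smul_dotProduct, smul_dotProduct, dotProduct_smul, hu]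
    simp; ring

theorem exists_kodd {m : ℕ} (hm : n = 2 * m + 1) : ∃ e : (Fin n → F) ≃ₗ[F] F × (Fin m ⊕ Fin m → F),
    ∀ x y, x ⬝ᵥ k.symm y = (e x).1 * (e y).1 + sympForm m F (e x).2 (e y).2 := by
  obtain ⟨v, hv⟩ := exists_kvec h2 s
  let f := mkAlt (fun x y => x ⬝ᵥ k.symm y + (x ⬝ᵥ k.symm v) * (y ⬝ᵥ k.symm v)) (fun x y z => by simp; ring)
    (fun a x y => by simp; ring) (fun x y => by
      rw [s x y]; linear_combination (x ⬝ᵥ k.symm y + (x ⬝ᵥ k.symm v) * (y ⬝ᵥ k.symm v)) * h2)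
    fun x => by rw [hv]; linear_combination (x ⬝ᵥ k.symm v) * (x ⬝ᵥ k.symm v) * h2
  have h1 : v ⬝ᵥ k.symm v = 1 := by
    by_contra h
    have h3 : v ⬝ᵥ k.symm v = 0 := by
      by_contra h3
      exact h (mul_left_cancel₀ h3 ((hv v).symm.trans (mul_one _).symm))
    have hf : f.Nondeg := fun x hx => by
      have h4 : x + (x ⬝ᵥ k.symm v) • v = 0 := kform_nondeg k _ fun y => by
        simpa [f, s y v] using hx y
      have h5 := congrArg (· ⬝ᵥ k.symm v) h4
      simp only [add_dotProduct, smul_dotProduct, h3, smul_zero, add_zero, zero_dotProduct] at h5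
      simpa [h5] using h4
    have := hf.symp_finrank
    simp at this
    omega
  let l : (Fin n → F) →ₗ[F] F := ⟨⟨fun x => x ⬝ᵥ k.symm v, fun x y => add_dotProduct _ _ _⟩, fun a x => by simp⟩
  have hl : ∀ x, l x = x ⬝ᵥ k.symm v := fun _ => rfl
  let P : (Fin n → F) →ₗ[F] LinearMap.ker l := (LinearMap.id - l.smulRight v).codRestrict _ fun x => by simp [hl, h1]
  have hP : ∀ x y, (f.res (LinearMap.ker l)).B (P x) (P y) = x ⬝ᵥ k.symm y - l x * l y := fun x y => by
    simp [P, f, hl, h1, s y v, mul_comm]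
  have hf : (f.res (LinearMap.ker l)).Nondeg := fun x hx => Subtype.ext (kform_nondeg k _ fun y => by
    have h3 : P x = x := Subtype.ext (by simp [P, LinearMap.mem_ker.1 x.2])
    have h4 := hP x y
    rwa [h3, hx, LinearMap.mem_ker.1 x.2, zero_mul, sub_zero, eq_comm] at h4)
  have h3 := Module.Dual.finrank_ker_add_one_of_ne_zero (f := l) fun e => by simpa [e, h1] using hl v
  obtain ⟨ψ, hψ, -⟩ := hf.symp_isom (spF_nondeg m) (by simp at h3 ⊢; omega)
  have h4 : ∀ x y, x ⬝ᵥ k.symm y = l x * l y + sympForm m F (ψ (P x)) (ψ (P y)) := fun x y => by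
    rw [← spF_B, show (spF F m).B (ψ (P x)) (ψ (P y)) = _ from hψ _ _, hP]; ring
  refine ⟨(l.prod (ψ.toLinearMap.comp P)).linearEquivOfInjective ((injective_iff_map_eq_zero _).2 fun x hx =>
    kform_nondeg k x fun y => ?_) (by simp; omega), h4⟩
  rw [h4, show l x = 0 from congrArg Prod.fst hx, show ψ (P x) = 0 from congrArg Prod.snd hx]
  simp [sympForm_eq]

omit s in
theorem cent_kodd (hn : 2 ≤ n) {m : ℕ} {e : (Fin n → F) ≃ₗ[F] F × (Fin m ⊕ Fin m → F)}
    (he : ∀ x y, x ⬝ᵥ k.symm y = (e x).1 * (e y).1 + sympForm m F (e x).2 (e y).2) :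
    Nonempty (↥(inndiagPSL n F ⊓ Subgroup.centralizer {gK hn k}) ≃* Matrix.symplecticGroup (Fin m) F) := by
  let ι : ((Fin m ⊕ Fin m → F) ≃ₗ[F] (Fin m ⊕ Fin m → F)) →* (F × (Fin m ⊕ Fin m → F)) ≃ₗ[F] F × (Fin m ⊕ Fin m → F) :=
    ⟨⟨fun h => (LinearEquiv.refl F F).prodCongr h, by ext <;> simp⟩, fun _ _ => by ext <;> simp⟩
  have hι : ∀ h x, ι h x = (x.1, h x.2) := fun _ _ => rfl
  let θ : (spF F m).iso →* MulAut (ProjectiveSpecialLinearGroup (Fin n) F) :=
    (slΦ F hn).comp (lin.comp ((cgE e).comp (ι.comp (spF F m).iso.subtype)))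
  have h1 : θ.range = inndiagPSL n F ⊓ Subgroup.centralizer {gK hn k} := by
    ext β
    constructor
    · rintro ⟨g, rfl⟩
      refine ⟨(mem_inndiag_iff hn).2 ⟨_, rfl⟩, (comm_graph_iff hn k _).2 ⟨1, fun x y => ?_⟩⟩
      simp [he, hι, show ∀ x y, sympForm m F (g.1 x) (g.1 y) = sympForm m F x y from g.2.1]
    · rintro ⟨h, h'⟩
      obtain ⟨g, rfl⟩ := (mem_inndiag_iff hn).1 h
      obtain ⟨c, hc⟩ := (comm_graph_iff hn k g).1 h'
      obtain ⟨d, hd⟩ := isSquare_of_two_eq_zero h2 (c : F)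
      have h0 : d ≠ 0 := fun e => c.ne_zero (by rw [hd, e, mul_zero])
      let g' := cgE e.symm (scal _ (Units.mk0 d h0)⁻¹ * g)
      have h3 : ∀ x y, (g' x).1 * (g' y).1 + sympForm m F (g' x).2 (g' y).2 = x.1 * y.1 + sympForm m F x.2 y.2 := fun x y => by
        have := he (e.symm x) (e.symm y)
        rw [LinearEquiv.apply_symm_apply, LinearEquiv.apply_symm_apply] at this
        rw [← this, cgE_apply, cgE_apply, LinearEquiv.symm_symm, ← he]
        simp only [LinearEquiv.mul_apply, scal_apply, map_smul, smul_dotProduct, dotProduct_smul, hc, hd, smul_eq_mul,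
          Units.val_inv_eq_inv_val, Units.val_mk0]
        field_simp
      have h4 : ∀ x, (g' x).1 = x.1 := fun x => by
        have := h3 x x
        rw [← spF_B, ← spF_B, B_self_of_Q _ (symp_Q _ _), B_self_of_Q _ (symp_Q _ _), add_zero, add_zero,
          mul_self_eq_mul_self_iff] at this
        exact this.elim id fun h => by linear_combination h - x.1 * h2
      let L : (Fin m ⊕ Fin m → F) →ₗ[F] (Fin m ⊕ Fin m → F) := (LinearMap.snd F _ _).comp (g'.toLinearMap.comp (LinearMap.inr F _ _))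
      have h5 : ∀ x y, (spF F m).B (L x) (L y) = (spF F m).B x y := fun x y => by
        change sympForm m F (g' (0, x)).2 (g' (0, y)).2 = sympForm m F x y
        simpa [h4] using h3 (0, x) (0, y)
      let L' := (spF_nondeg m).toEquiv L h5
      have h6 : (g' (1, 0)).2 = 0 := spF_nondeg m _ fun y => by
        obtain ⟨y, rfl⟩ := L'.surjective y
        change sympForm m F (g' (1, 0)).2 (g' (0, y)).2 = 0
        simpa [h4, sympForm_eq] using h3 (1, 0) (0, y)
      have h7 : ι L' = g' := LinearEquiv.ext fun x => Prod.ext (h4 x).symm (by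
        conv_rhs => rw [show x = x.1 • (1, 0) + (0, x.2) by simp, map_add, map_smul]
        simp only [Prod.snd_add, Prod.smul_snd, h6, smul_zero, zero_add]
        rfl)
      refine ⟨⟨L', symp_mem_iso.2 h5⟩, (slM F hn).Φ_eq_iff.2 ⟨(Units.mk0 d h0)⁻¹, ext' (fun x => ?_) (mul_one (1 : F ≃+* F)).symm⟩⟩
      change e.symm (ι L' (e x)) = (((Units.mk0 d h0)⁻¹ : Fˣ) : F) • g x
      rw [h7]; simp [g']
  have h3 : Function.Injective θ := (injective_iff_map_eq_one _).2 fun g h => by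
    obtain ⟨c, hc⟩ := ((slM F hn).ker ⟨_, trivial⟩).1 h
    have h4 : ∀ x, (c : F) • x = ι g.1 x := fun x => e.symm.injective (by
      simpa using congrArg (fun a : Gam F (Fin n → F) => a.s (e.symm x)) hc)
    have h5 : (c : F) = 1 := by simpa [hι] using congrArg Prod.fst (h4 (1, 0))
    exact Subtype.ext (LinearEquiv.ext fun x => by simpa [hι, h5] using (congrArg Prod.snd (h4 (0, x))).symm)
  exact ⟨(MulEquiv.subgroupCongr h1).symm.trans ((MonoidHom.ofInjective h3).symm.trans (spEquiv F m).symm)⟩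

omit s in
theorem pgo_two {κ : Type} [Fintype κ] [DecidableEq κ] (f : CForm (FType.orth F) (κ → F)) {v} (hv : f.Q v ≠ 0) :
    Nonempty (isometryGroup F f.Q ≃* PGO F f.Q) := by
  obtain ⟨η, h5, h6⟩ := exists_projQuot (K' := f.Sim) fun g => mem_quadSim (f := f)
  refine ⟨(isomEquiv f).trans (MulEquiv.ofBijective (η.comp (Subgroup.inclusion iso_le_Sim))
    ⟨(injective_iff_map_eq_one _).2 fun g h => ?_, fun y => ?_⟩)⟩
  · obtain ⟨c, hc⟩ := (h6 _).1 h
    have h1 := g.2.2 v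
    rw [show g.1 = scal _ c from hc, scal_apply, orth_Q_smul, mul_left_eq_self₀, or_iff_left hv, sq, mul_self_eq_one_iff] at h1
    have h3 : (c : F) = 1 := h1.elim id fun h => by linear_combination h - h2
    exact Subtype.ext (hc.trans (LinearEquiv.ext fun x => by simp [h3]))
  · obtain ⟨g, rfl⟩ := h5 y
    obtain ⟨c, hc⟩ := orth_mem_GamS.1 g.2
    obtain ⟨d, hd⟩ := isSquare_of_two_eq_zero h2 (c : F)
    have h0 : d ≠ 0 := fun e => c.ne_zero (by rw [hd, e, mul_zero])
    refine ⟨⟨scal _ (Units.mk0 d h0)⁻¹ * g.1, orth_mem_iso.2 fun x => ?_⟩, ?_⟩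
    · rw [LinearEquiv.mul_apply, scal_apply, orth_Q_smul, show f.Q (g.1 x) = c * f.Q x from hc x, hd]
      simp; field_simp
    · rw [MonoidHom.comp_apply, ← mul_inv_eq_one, ← map_inv, ← map_mul, h6]
      exact ⟨_, mul_inv_cancel_right _ _⟩

end Cfsg.Agent.H5
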