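import Cfsg.Agent.H5.GrE

/-! Graph automorphisms of the projective special linear groups in characteristic two, even dimension. -/

set_option autoImplicit false

namespace Cfsg.Agent.H5

open H4 H4.CForm H4.Gam Module Matrix

variable {F : Type*} [Field F] [Fintype F] {n : ℕ} (h2 : (2 : F) = 0) {k : (Fin n → F) ≃ₗ[F] (Fin n → F)}
include h2

theorem exists_keven (s : ∀ x y, y ⬝ᵥ k.symm x = x ⬝ᵥ k.symm y) {m : ℕ} (hm : n = 2 * m) :
    ∃ (e : (Fin n → F) ≃ₗ[F] (Fin m ⊕ Fin m → F)) (w : Fin m ⊕ Fin m → F),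
      ∀ x y, x ⬝ᵥ k.symm y = (spF F m).B (e x) (e y) + (spF F m).B (e x) w * (spF F m).B (e y) w := by
  obtain ⟨v, hv⟩ := exists_kvec h2 s
  let f := mkAlt (fun x y => x ⬝ᵥ k.symm y + (x ⬝ᵥ k.symm v) * (y ⬝ᵥ k.symm v)) (fun x y z => by simp; ring)
    (fun a x y => by simp; ring) (fun x y => by
      rw [s x y]; linear_combination (x ⬝ᵥ k.symm y + (x ⬝ᵥ k.symm v) * (y ⬝ᵥ k.symm v)) * h2)
    fun x => by rw [hv]; linear_combination (x ⬝ᵥ k.symm v) * (x ⬝ᵥ k.symm v) * h2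
  have h3 : v ⬝ᵥ k.symm v = 0 := by
    by_contra h3
    have h1 : v ⬝ᵥ k.symm v = 1 := mul_left_cancel₀ h3 ((hv v).symm.trans (mul_one _).symm)
    let l : (Fin n → F) →ₗ[F] F := ⟨⟨fun x => x ⬝ᵥ k.symm v, fun x y => add_dotProduct _ _ _⟩, fun a x => by simp⟩
    have hl : ∀ x, l x = x ⬝ᵥ k.symm v := fun _ => rfl
    have hf : (f.res (LinearMap.ker l)).Nondeg := fun x hx => Subtype.ext (kform_nondeg k _ fun y => by
      have h4 : x.1 ⬝ᵥ k.symm v = 0 := x.2
      simpa [f, h4] using hx ⟨y - l y • v, by simp [hl, h1]⟩)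
    have h4 := Module.Dual.finrank_ker_add_one_of_ne_zero (f := l) fun e => by simpa [e, h1] using hl v
    have h5 := hf.symp_finrank
    simp at h4
    omega
  have hf : f.Nondeg := fun x hx => by
    have h4 : x + (x ⬝ᵥ k.symm v) • v = 0 := kform_nondeg k _ fun y => by
      simpa [f, s y v] using hx y
    have h5 := congrArg (· ⬝ᵥ k.symm v) h4
    simp only [add_dotProduct, smul_dotProduct, h3, smul_zero, add_zero, zero_dotProduct] at h5
    simpa [h5] using h4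
  obtain ⟨e, he, -⟩ := hf.symp_isom (spF_nondeg m) (by simp; omega)
  refine ⟨e, e v, fun x y => ?_⟩
  have h4 : ∀ x y, (spF F m).B (e x) (e y) = x ⬝ᵥ k.symm y + (x ⬝ᵥ k.symm v) * (y ⬝ᵥ k.symm v) := he
  rw [h4, h4, h4, h3]
  linear_combination -(x ⬝ᵥ k.symm v) * (y ⬝ᵥ k.symm v) * h2

omit [Fintype F] in
theorem keven_iso {m : ℕ} {w w' : Fin m ⊕ Fin m → F} {g : (Fin m ⊕ Fin m → F) ≃ₗ[F] (Fin m ⊕ Fin m → F)}
    (h : ∀ x y, (spF F m).B (g x) (g y) + (spF F m).B (g x) w' * (spF F m).B (g y) w' =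
      (spF F m).B x y + (spF F m).B x w * (spF F m).B y w) : g ∈ (spF F m).iso ∧ g w = w' := by
  have h4 : ∀ x, (spF F m).B (g x) w' = (spF F m).B x w := fun x => by
    have := h x x
    rw [symp_B_self, symp_B_self, zero_add, zero_add, mul_self_eq_mul_self_iff] at this
    exact this.elim id fun h => by linear_combination h - (spF F m).B x w * h2
  have h5 : g ∈ (spF F m).iso := symp_mem_iso.2 fun x y => by simpa [h4, -spF_B] using h x y
  refine ⟨h5, sub_eq_zero.1 (spF_nondeg m _ fun y => (spF F m).B_zero_symm ?_)⟩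
  obtain ⟨y, rfl⟩ := g.surjective y
  rw [map_sub, h5.1, h4, sub_self]

theorem cent_keven (hn : 2 ≤ n) {m : ℕ} {e : (Fin n → F) ≃ₗ[F] (Fin m ⊕ Fin m → F)} {w : Fin m ⊕ Fin m → F}
    (he : ∀ x y, x ⬝ᵥ k.symm y = (spF F m).B (e x) (e y) + (spF F m).B (e x) w * (spF F m).B (e y) w)
    {K : Subgroup (Matrix.symplecticGroup (Fin m) F)} (hK : ∀ g, g ∈ K ↔ (spEquiv F m g).1 w = w) :
    Nonempty (↥(inndiagPSL n F ⊓ Subgroup.centralizer {gK hn k}) ≃* K) := by
  let θ : K →* MulAut (ProjectiveSpecialLinearGroup (Fin n) F) :=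
    (slΦ F hn).comp (lin.comp ((cgE e).comp ((spF F m).iso.subtype.comp ((spEquiv F m).toMonoidHom.comp K.subtype))))
  have h1 : θ.range = inndiagPSL n F ⊓ Subgroup.centralizer {gK hn k} := by
    ext β
    constructor
    · rintro ⟨g, rfl⟩
      refine ⟨(mem_inndiag_iff hn).2 ⟨_, rfl⟩, (comm_graph_iff hn k _).2 ⟨1, fun x y => ?_⟩⟩
      have h3 : ∀ x, (spF F m).B ((spEquiv F m g.1).1 x) w = (spF F m).B x w := fun x => by
        conv_lhs => rw [← (hK _).1 g.2, (spEquiv F m g.1).2.1]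
      change cgE e (spEquiv F m g.1).1 x ⬝ᵥ k.symm (cgE e (spEquiv F m g.1).1 y) = _
      simp only [he, cgE_apply, LinearEquiv.apply_symm_apply, h3, (spEquiv F m g.1).2.1, Units.val_one, one_mul]
    · rintro ⟨h, h'⟩
      obtain ⟨g, rfl⟩ := (mem_inndiag_iff hn).1 h
      obtain ⟨c, hc⟩ := (comm_graph_iff hn k g).1 h'
      obtain ⟨d, hd⟩ := isSquare_of_two_eq_zero h2 (c : F)
      have h0 : d ≠ 0 := fun e => c.ne_zero (by rw [hd, e, mul_zero])
      obtain ⟨h3, h4⟩ := keven_iso h2 (g := cgE e.symm (scal _ (Units.mk0 d h0)⁻¹ * g)) (w := w) (w' := w) fun x y => by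
        have := he (e.symm x) (e.symm y)
        rw [LinearEquiv.apply_symm_apply, LinearEquiv.apply_symm_apply] at this
        rw [← this, cgE_apply, cgE_apply, LinearEquiv.symm_symm, ← he]
        simp only [LinearEquiv.mul_apply, scal_apply, map_smul, smul_dotProduct, dotProduct_smul, hc, hd, smul_eq_mul,
          Units.val_inv_eq_inv_val, Units.val_mk0]
        field_simp
      obtain ⟨u, hu⟩ := (spEquiv F m).surjective ⟨_, h3⟩
      refine ⟨⟨u, (hK u).2 (by rw [hu]; exact h4)⟩, (slM F hn).Φ_eq_iff.2 ⟨(Units.mk0 d h0)⁻¹,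
        ext' (fun x => ?_) (mul_one (1 : F ≃+* F)).symm⟩⟩
      change e.symm ((spEquiv F m u).1 (e x)) = (((Units.mk0 d h0)⁻¹ : Fˣ) : F) • g x
      rw [hu]; simp
  have h3 : Function.Injective θ := (injective_iff_map_eq_one _).2 fun g h => by
    obtain ⟨c, hc⟩ := ((slM F hn).ker ⟨_, trivial⟩).1 h
    have h4 : ∀ x, (c : F) • x = (spEquiv F m g.1).1 x := fun x => e.symm.injective (by
      have : (c : F) • e.symm x = e.symm ((spEquiv F m g.1).1 (e (e.symm x))) :=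
        congrArg (fun a : Gam F (Fin n → F) => a.s (e.symm x)) hc
      rwa [LinearEquiv.apply_symm_apply, ← map_smul] at this)
    have : Nonempty (Fin n) := ⟨⟨0, by omega⟩⟩
    have := e.symm.toEquiv.nontrivial
    obtain ⟨x, hx⟩ := exists_ne (0 : Fin m ⊕ Fin m → F)
    obtain ⟨y, hy⟩ := (spF_nondeg m).exists_B_ne hx
    have h6 := (spEquiv F m g.1).2.1 x y
    rw [← h4, ← h4, B_smul_left, B_smul_right, ← mul_assoc, mul_left_eq_self₀, or_iff_left hy] at h6
    have h5 : (c : F) = 1 := (mul_self_eq_one_iff.1 h6).elim id fun h => by linear_combination h - h2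
    exact Subtype.ext ((spEquiv F m).injective (Subtype.ext (LinearEquiv.ext fun x => by rw [← h4, h5, one_smul]; simp)))
  exact ⟨(MulEquiv.subgroupCongr h1).symm.trans (MonoidHom.ofInjective h3).symm⟩

omit [Fintype F] h2 in
theorem exists_kw {m : ℕ} (e : (Fin n → F) ≃ₗ[F] (Fin m ⊕ Fin m → F)) (w : Fin m ⊕ Fin m → F) :
    ∃ k : (Fin n → F) ≃ₗ[F] (Fin n → F),
      ∀ x y, x ⬝ᵥ k.symm y = (spF F m).B (e x) (e y) + (spF F m).B (e x) w * (spF F m).B (e y) w := by
  obtain ⟨k, hk⟩ := exists_kform (fun _ => rfl) (spF_nondeg (F := F) m) e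
  refine ⟨((cgE e ((spF F m).tv w 1)).trans k.symm).symm, fun x y => ?_⟩
  rw [LinearEquiv.symm_symm, LinearEquiv.trans_apply, hk, cgE_apply, LinearEquiv.apply_symm_apply, symp_tv_apply]
  simp [mul_comm, -spF_B]

end Cfsg.Agent.H5
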