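import Cfsg.Agent.H4.Lang7

/-! Graph automorphisms of orthogonal groups induced by similarities. -/

set_option autoImplicit false

namespace Cfsg.Agent.H5

open H4 H4.CForm H4.Gam Module

variable {F : Type*} [Field F] [Fintype F] {V : Type*} [AddCommGroup V] [Module F V] [FiniteDimensional F V]
  {f : CForm (FType.orth F) V} (hf : f.Nondeg) (h2 : (2 : F) ≠ 0) (h5 : 5 ≤ finrank F V)
include hf h2 h5

theorem exists_perp_vec {g : V ≃ₗ[F] V} {μ l : F} (hB : ∀ x y, f.B (g x) (g y) = μ * f.B x y) (hl : ∀ x, g (g x) = l • x)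
    (hμ : ¬ IsSquare μ) : ∃ w, f.Q w ≠ 0 ∧ f.B w (g w) = 0 := by
  have := nontrivial_of_five h5
  have h0 : μ ≠ 0 := fun e => hμ (e ▸ IsSquare.zero)
  have hQ : ∀ x, f.B x x = 2 * f.Q x := fun x => f.orth_B_self x
  obtain ⟨x, hx⟩ := exists_ne (0 : V)
  obtain ⟨y, hy⟩ := hf.exists_B_ne hx
  have h1 : μ * μ = l * l := mul_right_cancel₀ hy (by
    have := hB (g x) (g y)
    rw [hl, hl, hB] at this
    simp only [map_smulₛₗ, FType.orth_σ, LinearMap.smul_apply, smul_eq_mul, RingHom.id_apply] at this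
    first | linear_combination -this | linear_combination this)
  have h3 : ∀ x y, μ * f.B (g x) y = l * f.B x (g y) := fun x y => by rw [← hB, hl]; simp
  rcases mul_self_eq_mul_self_iff.1 h1 with rfl | rfl
  · have s : ∀ x y, f.B (g x) y = f.B x (g y) := fun x y => mul_left_cancel₀ h0 (h3 x y)
    let f' := mkSymm h2 (fun x y => f.B x (g y)) (by simp) (by simp) fun x y => by rw [f.orth_symm, s]
    obtain ⟨e, he, hq⟩ := not_aniso.1 (Nondeg.orth_not_aniso (f := f') (by omega))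
    have h4 : f.B e (g e) = 0 := by simpa [f', h2] using hq
    by_cases h6 : f.Q e = 0
    swap
    · exact ⟨e, h6, h4⟩
    obtain ⟨y, hy⟩ := hf.exists_B_ne he
    obtain ⟨v, h7, h8⟩ : ∃ v, f.B e v ≠ 0 ∧ f.B e (g v) = 0 := ⟨(μ * f.B e y) • y - f.B e (g y) • g y, fun h => hμ
      ⟨f.B e (g y) / f.B e y, by
        simp only [map_sub, map_smulₛₗ, FType.orth_σ, smul_eq_mul] at h
        field_simp; linear_combination h⟩, by
      simp only [map_sub, map_smul, hl, map_smulₛₗ, FType.orth_σ, smul_eq_mul]; ring⟩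
    have h9 : f.B e e = 0 := by rw [hQ, h6, mul_zero]
    have key : ∀ s t : F, f.B (v + s • e + t • g e) (v + s • e + t • g e) = f.B v v + 2 * s * f.B e v ∧
        f.B (v + s • e + t • g e) (g (v + s • e + t • g e)) = f.B v (g v) + 2 * t * μ * f.B e v := fun s' t => by
      have a1 : f.B v (g e) = 0 := by rw [f.orth_symm, s, h8]
      simp only [map_add, map_smul, hl, LinearMap.add_apply, LinearMap.smul_apply, map_smulₛₗ, FType.orth_σ, smul_eq_mul, s, h4,
        h8, h9, a1, f.orth_symm e v, RingHom.id_apply]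
      constructor <;> ring
    refine ⟨_, fun h => h2 ?_, (key ((2 - f.B v v) / (2 * f.B e v)) (-f.B v (g v) / (2 * μ * f.B e v))).2.trans
      (by field_simp; ring)⟩
    have := (key ((2 - f.B v v) / (2 * f.B e v)) (-f.B v (g v) / (2 * μ * f.B e v))).1
    rw [hQ, h, mul_zero] at this
    rw [this]; field_simp; ring
  · obtain ⟨v, -, hv, -⟩ := hf.exists_rfx_classes h2 (by omega)
    exact ⟨v, by simp [hv], mul_left_cancel₀ (mul_ne_zero h2 h0) (by
      have := h3 v v
      rw [f.orth_symm] at this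
      linear_combination this)⟩

theorem exists_eig_pair {g : V ≃ₗ[F] V} (hg : g ∈ f.iso) (hl : ∀ x, g (g x) = x) :
    ∃ (v w : V) (ε : F), ε ≠ 0 ∧ g v = ε • v ∧ g w = ε • w ∧ f.Q v = 1 ∧ ¬ IsSquare (f.Q w) := by
  let U := fun ε : F => LinearMap.ker (g.toLinearMap - ε • LinearMap.id)
  have hU : ∀ ε x, x ∈ U ε ↔ g x = ε • x := fun ε x => by simp [U, sub_eq_zero]
  have key : ∀ ε : F, ε * ε = 1 → 2 ≤ finrank F (U ε) →
      ∃ (v w : V) (ε : F), ε ≠ 0 ∧ g v = ε • v ∧ g w = ε • w ∧ f.Q v = 1 ∧ ¬ IsSquare (f.Q w) := fun ε h1 h3 => by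
    have h4 : (f.res (U ε)).Nondeg := fun x hx => Subtype.ext (hf _ fun y => mul_left_cancel₀ h2 (by
      have h6 := hx ⟨y + ε • g y, (hU _ _).2 (by simp [hl, smul_smul, h1, add_comm])⟩
      have h7 := hg.1 x (g y)
      rw [hl, (hU _ _).1 x.2] at h7
      simp only [comap_B, Submodule.subtype_apply, map_add, map_smulₛₗ, FType.orth_σ, smul_eq_mul, LinearMap.smul_apply,
        RingHom.id_apply] at h6 h7
      linear_combination h6 + ε * h7 - f.B x y * h1))
    obtain ⟨v, w, hv, hw⟩ := h4.exists_rfx_classes h2 h3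
    exact ⟨v, w, ε, left_ne_zero_of_mul_eq_one h1, (hU _ _).1 v.2, (hU _ _).1 w.2, hv, hw⟩
  have h1 : U 1 ⊔ U (-1) = ⊤ := eq_top_iff.2 fun x _ => Submodule.mem_sup.2 ⟨(2 : F)⁻¹ • (x + g x),
    (hU _ _).2 (by simp [hl, add_comm]), (2 : F)⁻¹ • (x - g x), (hU _ _).2 (by simp [hl, smul_sub]; abel), by
      rw [← smul_add, add_add_sub_cancel, ← two_smul F, smul_smul, inv_mul_cancel₀ h2, one_smul]⟩
  have h3 := Submodule.finrank_add_le_finrank_add_finrank (U 1) (U (-1))
  rw [h1, finrank_top] at h3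
  by_cases h4 : 2 ≤ finrank F (U 1)
  · exact key 1 (by simp) h4
  · exact key (-1) (by simp) (by omega)

theorem exists_comm_spn {m : ℕ} (hm : finrank F V = 2 * m) {g : f.Sim} (h1 : hf.eps h2 hm (by omega) g ≠ 1) {l : Fˣ}
    (hl : g.1 * g.1 = scal V l) : ∃ u ∈ f.iso, dk u = 1 ∧ f.spn u ≠ 1 ∧ g.1 * u = u * g.1 := by
  have := nontrivial_of_five h5
  have key : ∀ v w, f.Q v ≠ 0 → f.Q w ≠ 0 → ¬ IsSquare (f.Q v * f.Q w) →
      f.rfx (g.1 v) * f.rfx (g.1 w) = f.rfx v * f.rfx w → ∃ u ∈ f.iso, dk u = 1 ∧ f.spn u ≠ 1 ∧ g.1 * u = u * g.1 :=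
    fun v w hv hw h e => ⟨f.rfx v * f.rfx w, mul_mem (rfx_mem_iso _) (rfx_mem_iso _), by
      rw [hf.dk_rfx_mul (rfx_mem_iso _) hv, hf.dk_rfx hw, neg_neg], fun h' => h (by
        simpa using (hf.spn_list (l := [v, w]) (by simp [hv, hw])).1 (by simpa using h')), by
      rw [← mul_inv_eq_iff_eq_mul, ← cj_lin, map_mul, cj_rfx g.2, cj_rfx g.2]; exact e⟩
  by_cases hμ : IsSquare (f.mu (lin g.1) : F)
  · obtain ⟨c, k, hk, e⟩ := exists_iso_of_sq hf (fun _ => rfl) g.2 hμ
    have h3 : ∀ x, k (k x) = ((l : F) * ((c : F) * c)⁻¹) • x := fun x => by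
      have := LinearEquiv.congr_fun hl x
      simp only [e, LinearEquiv.mul_apply, scal_apply, map_smul, smul_smul] at this
      rw [mul_comm, ← smul_smul, ← this, smul_smul, inv_mul_cancel₀ (by simp), one_smul]
    generalize (l : F) * ((c : F) * c)⁻¹ = a at h3
    obtain ⟨x, hx⟩ := exists_ne (0 : V)
    obtain ⟨y, hy⟩ := hf.exists_B_ne hx
    have h4 : a * a = 1 := mul_right_cancel₀ hy (by
      have := hk.1 (k x) (k y)
      rw [h3, h3, hk.1] at this
      simp only [map_smulₛₗ, FType.orth_σ, LinearMap.smul_apply, smul_eq_mul, RingHom.id_apply] at this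
      first | linear_combination this | linear_combination -this)
    rcases mul_self_eq_one_iff.1 h4 with rfl | rfl
    · obtain ⟨v, w, ε, h6, h7, h8, h9, h10⟩ := exists_eig_pair hf h2 h5 hk (by simpa using h3)
      refine key v w (by simp [h9]) (fun e => h10 (e ▸ IsSquare.zero)) (by simpa [h9] using h10) ?_
      simp [e, h7, h8, rfx_smul h6, rfx_smul c.ne_zero]
    · refine (h1 ?_).elim
      let s : V ≃ₗ[F] V := LinearEquiv.ofLinear (LinearMap.id + k.toLinearMap) ((2 : F)⁻¹ • (LinearMap.id - k.toLinearMap))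
        (by ext x; simp [h3, smul_sub]; match_scalars <;> field_simp <;> ring)
        (by ext x; simp [h3, smul_sub]; match_scalars <;> field_simp <;> ring)
      have h6 : ∀ x, f.B x (k x) = 0 := fun x => mul_left_cancel₀ h2 (by
        have := hk.1 (k x) x
        rw [h3, f.orth_symm x (k x)] at this
        simp only [map_smulₛₗ, LinearMap.smul_apply, smul_eq_mul, RingHom.id_apply] at this
        linear_combination -this)
      have hs : s ∈ f.Sim := orth_mem_GamS.2 ⟨Units.mk0 2 h2, fun x => by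
        change f.Q (x + k x) = 2 * f.Q x
        rw [orth_Q_add, hk.2, h6]; ring⟩
      rw [show g = ⟨_, scal_mem_Sim (c * (Units.mk0 2 h2)⁻¹)⟩ * (⟨s, hs⟩ * ⟨s, hs⟩) from Subtype.ext (e.trans
        (LinearEquiv.ext fun x => by simp [s, h3]; match_scalars <;> field_simp <;> ring)), map_mul, map_mul, hf.eps_scal,
        Int.units_mul_self, one_mul]
  · obtain ⟨w, h3, h4⟩ := exists_perp_vec hf h2 h5 (g := g.1) (mu_B g.2) (fun x => LinearEquiv.congr_fun hl x) hμ
    have h6 : f.Q (g.1 w) = f.mu (lin g.1) * f.Q w := mu_Q g.2 w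
    refine key w (g.1 w) h3 (by simp [h6, h3]) (by
      rwa [h6, mul_left_comm, mul_comm, ← sq, isSquare_sq_mul h3]) ?_
    rw [show g.1 (g.1 w) = (l : F) • w from LinearEquiv.congr_fun hl w, rfx_smul l.ne_zero, ← mul_inv_eq_iff_eq_mul,
      rfx_conj (rfx_mem_iso _), rfx_apply, h4]
    simp

theorem graph_split {X : Type*} [Group X] (M : Mdl X f.GamS f.E) {m : ℕ} (hm : finrank F V = 2 * m) {g : f.Sim}
    (h1 : hf.sg hm h5 g ≠ 1) (ho : M.Φ ⟨lin g.1, g.2⟩ ^ 2 = 1) :
    (splitClassCount (M.im ((hf.SimP hm h5).map lin)) (Inn X) (M.Φ ⟨lin g.1, g.2⟩) = 1 ∨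
      splitClassCount (M.im ((hf.SimP hm h5).map lin)) (Inn X) (M.Φ ⟨lin g.1, g.2⟩) = 2) ∧ (scal V (-1) ∈ f.E →
      splitClassCount (M.im ((hf.SimP hm h5).map lin)) (Inn X) (M.Φ ⟨lin g.1, g.2⟩) = 2) := by
  classical
  rw [splitClassCount_eq (M.Inn_le (hf.SimP_le hm h5) (hf.E_le_SimP hm h5)), ← M.range_κ (hf.SimP_le hm h5)]
  set A := (M.im ((hf.SimP hm h5).map lin) ⊓ Subgroup.centralizer {M.Φ ⟨lin g.1, g.2⟩}).map (QuotientGroup.mk' (Inn X))
  set B := (M.κ (hf.SimP_le hm h5)).range with hB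
  have hA : A ≤ B := by rw [hB, M.range_κ]; exact Subgroup.map_mono inf_le_left
  have hc : Nat.card B = (if scal V (-1) ∈ f.E then 2 else 1) * 2 := by
    rw [hB, hf.range_SimP hm h5, hf.sg_eq_eps hm h5 h2, hf.card_eps_ker h5 M h2 hm, hf.card_SO h5 M h2 hm]
  have h3 : Nat.card A * A.relIndex B = Nat.card B := by
    rw [← Nat.card_congr (Subgroup.subgroupOfEquivOfLe hA).toEquiv]; exact Subgroup.card_mul_index _
  have main : scal V (-1) ∈ f.E → A.relIndex B = 2 := fun h => by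
    rw [if_pos h] at hc
    have : Finite B := Nat.finite_of_card_ne_zero (by omega)
    have : Finite A := Finite.of_injective _ (Subgroup.inclusion_injective hA)
    obtain ⟨l, hl⟩ := (M.pow_ρ_eq_one ho).1
    obtain ⟨u, hu, h6, h7, h8⟩ := exists_comm_spn hf h2 h5 hm (g := g) (hf.sg_eq_eps hm h5 h2 ▸ h1) (l := l)
      (lin_injective (by rw [map_mul, ← sq, ← sc_eq_lin, hl]))
    have h9 : A ≠ ⊥ := fun e => by
      have : oI M ⟨u, hu⟩ ∈ A := ⟨M.Φ ⟨lin u, iso_le_Sim hu⟩, ⟨⟨_, ⟨u, (hf.mem_SimP hm h5).2 ⟨_, (hf.sg_iso hm h5 hu).trans h6⟩,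
        rfl⟩, rfl⟩, Subgroup.mem_centralizer_singleton_iff.2 (by
          rw [← map_mul, ← map_mul]
          exact congrArg M.Φ (Subtype.ext ((map_mul lin _ _).symm.trans ((congrArg lin h8.symm).trans (map_mul lin _ _)))))⟩, rfl⟩
      rw [e, Subgroup.mem_bot, hf.oI_eq_one_even h5 M h2 hm] at this
      exact this.2.elim h7 fun h' => h' h
    have h10 : A.relIndex B ≠ 1 := fun e => by
      have hle := Subgroup.relIndex_eq_one.1 e
      have hp : ∀ x ∈ B, ∀ y ∈ B, x * y = y * x := fun x hx y hy => congrArg Subtype.val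
        ((IsPGroup.isMulCommutative_of_card_eq_prime_sq (p := 2) (G := B) hc).is_comm.comm ⟨x, hx⟩ ⟨y, hy⟩)
      have hq : ∀ x ∈ B, x * oK M g = oK M g * x := fun x hx => by
        obtain ⟨β, hβ, rfl⟩ := hle hx
        exact congrArg (QuotientGroup.mk' (Inn X)) (Subgroup.mem_centralizer_singleton_iff.1 hβ.2)
      have hr : ∀ x : f.Sim, ∃ y ∈ B, oK M x = y ∨ oK M x = y * oK M g := fun x => by
        by_cases e : hf.sg hm h5 x = 1
        · exact ⟨_, ⟨⟨x, (hf.mem_SimP hm h5).2 ⟨x.2, e⟩⟩, rfl⟩, .inl rfl⟩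
        · exact ⟨oK M (x * g⁻¹), ⟨⟨(x * g⁻¹).1, (hf.mem_SimP hm h5).2 ⟨(x * g⁻¹).2, by
            change hf.sg hm h5 (x * g⁻¹) = 1
            rw [map_mul, map_inv, (Int.units_eq_one_or _).resolve_left e, (Int.units_eq_one_or _).resolve_left h1,
              mul_inv_cancel]⟩⟩, rfl⟩, .inr (by rw [← map_mul, inv_mul_cancel_right])⟩
      obtain ⟨E⟩ := hf.oK_range_dihedral h5 M h2 hm h
      have hs : ∀ x y : (oK M).range, x * y = y * x := by
        rintro ⟨_, x, rfl⟩ ⟨_, y, rfl⟩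
        obtain ⟨a, ha, e1⟩ := hr x
        obtain ⟨b, hb, e2⟩ := hr y
        have c1 : Commute a b := hp a ha b hb
        have c2 : Commute a (oK M g) := hq a ha
        have c3 : Commute b (oK M g) := hq b hb
        refine Subtype.ext (show Commute (oK M x) (oK M y) from ?_)
        rcases e1 with e1 | e1 <;> rcases e2 with e2 | e2 <;> rw [e1, e2]
        exacts [c1, c1.mul_right c2, c1.mul_left c3.symm, (c1.mul_right c2).mul_left (c3.symm.mul_right (Commute.refl _))]
      have := congrArg E (hs (E.symm (.r 1)) (E.symm (.sr 0)))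
      simp only [map_mul, MulEquiv.apply_symm_apply] at this
      exact absurd this (by decide)
    have h11 : Nat.card A ≠ 1 := fun e => h9 (Subgroup.card_eq_one.1 e)
    rw [hc] at h3
    have h12 : A.relIndex B ≤ 4 := Nat.le_of_dvd (by decide) (Dvd.intro_left _ h3)
    generalize A.relIndex B = r at *
    interval_cases r <;> omega
  refine ⟨?_, main⟩
  by_cases h : scal V (-1) ∈ f.E
  · exact .inr (main h)
  · rw [hc, if_neg h] at h3
    exact (Nat.dvd_prime Nat.prime_two).1 (Dvd.intro_left _ h3)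

end Cfsg.Agent.H5
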