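import Cfsg.Agent.H5.GrO

/-! Graph automorphisms of orthogonal groups of minus type. -/

set_option autoImplicit false

namespace Cfsg.Agent.H5

open Module Polynomial in
theorem det_of_sq {F : Type*} [Field F] {V : Type*} [AddCommGroup V] [Module F V] [FiniteDimensional F V] {g : V →ₗ[F] V} {l : F}
    (hl : g * g = l • 1) (h : ¬ IsSquare l) {n : ℕ} (hn : finrank F V = 2 * n) : LinearMap.det g = (-l) ^ n := by
  classical
  let b := Module.finBasis F V
  let A := LinearMap.toMatrix b b g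
  have hA : A * A = l • 1 := by rw [← LinearMap.toMatrix_mul, hl]; simp
  have hm : (X ^ 2 - C l : F[X]).Monic := monic_X_pow_sub_C l two_ne_zero
  have hi : Irreducible (X ^ 2 - C l : F[X]) :=
    (X_pow_sub_C_irreducible_iff_of_prime Nat.prime_two).2 fun x e => h ⟨x, by rw [← e, sq]⟩
  have h1 : A.charmatrix * (Matrix.scalar _ X + A.map C) = (X ^ 2 - C l : F[X]) • 1 := by
    have : A.map C * A.map C = (C l : F[X]) • 1 := by
      rw [← Matrix.map_mul, hA]; ext i j; by_cases e : i = j <;> simp [Matrix.one_apply, e]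
    rw [Matrix.charmatrix, RingHom.mapMatrix_apply, Matrix.scalar_apply, ← Matrix.smul_one_eq_diagonal]
    simp only [sub_mul, mul_add, Matrix.smul_mul, Matrix.mul_smul, one_mul, mul_one, this, smul_smul, sub_smul, sq]
    abel
  have h2 := congrArg Matrix.det h1
  rw [Matrix.det_mul, Matrix.det_smul, Matrix.det_one, mul_one] at h2
  obtain ⟨i, -, h3⟩ := (dvd_prime_pow hi.prime _).1 (Dvd.intro _ h2)
  have h4 : A.charpoly = (X ^ 2 - C l) ^ i := eq_of_monic_of_associated A.charpoly_monic (hm.pow i) h3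
  have h5 := congrArg natDegree h4
  rw [Matrix.charpoly_natDegree_eq_dim, hm.natDegree_pow, natDegree_X_pow_sub_C, Fintype.card_fin, hn] at h5
  obtain rfl : i = n := by omega
  rw [← LinearMap.det_toMatrix b, Matrix.det_eq_sign_charpoly_coeff, h4, coeff_zero_eq_eval_zero, Fintype.card_fin, hn]
  simp [pow_mul]

open H4 H4.CForm H4.Gam Module

variable {F : Type*} [Field F] [Fintype F] {V : Type*} [AddCommGroup V] [Module F V] [FiniteDimensional F V]
  {f : CForm (FType.orth F) V} (hf : f.Nondeg) (h2 : (2 : F) ≠ 0) (h5 : 5 ≤ finrank F V)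
include hf h2 h5

theorem mu_sq_of_comm {m : ℕ} (hm : finrank F V = 2 * m) (he : Even m) (hw : f.wi < m) {g : f.Sim}
    (h1 : hf.eps h2 hm (by omega) g ≠ 1) {l : Fˣ} (hl : g.1 * g.1 = scal V l) {x : f.Sim} {d : Fˣ}
    (hx : x.1 * g.1 = scal V d * (g.1 * x.1)) : IsSquare (f.mu (lin x.1) : F) := by
  have := nontrivial_of_five h5
  obtain ⟨x₀, hx₀⟩ := exists_ne (0 : V)
  obtain ⟨y₀, hy₀⟩ := hf.exists_B_ne hx₀
  have hB : ∀ s : f.Sim, ∀ u v, f.B (s.1 u) (s.1 v) = f.mu (lin s.1) * f.B u v := fun s => mu_B s.2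
  have hQ : ∀ s : f.Sim, ∀ u, f.Q (s.1 u) = f.mu (lin s.1) * f.Q u := fun s => mu_Q s.2
  have hg : ∀ v, g.1 (g.1 v) = (l : F) • v := fun v => LinearEquiv.congr_fun hl v
  have hxg : ∀ v, x.1 (g.1 v) = (d : F) • g.1 (x.1 v) := fun v => LinearEquiv.congr_fun hx v
  have h3 : (f.mu (lin g.1) : F) * f.mu (lin g.1) = l * l := mul_right_cancel₀ hy₀ (by
    have := hB g (g.1 x₀) (g.1 y₀)
    rw [hg, hg, hB] at this
    simp only [map_smulₛₗ, FType.orth_σ, LinearMap.smul_apply, smul_eq_mul, RingHom.id_apply] at this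
    linear_combination -this)
  have hd : (d : F) * d = 1 := by
    have := hB x (g.1 x₀) (g.1 y₀)
    rw [hxg, hxg] at this
    simp only [map_smulₛₗ, FType.orth_σ, LinearMap.smul_apply, smul_eq_mul, RingHom.id_apply, hB] at this
    exact mul_right_cancel₀ (mul_ne_zero (mul_ne_zero (f.mu (lin g.1)).ne_zero (f.mu (lin x.1)).ne_zero) hy₀)
      (by linear_combination this)
  by_cases hs : IsSquare (l : F)
  swap
  · refine (h1 ((hf.eps_eq_one h2 hm _).2 (Units.ext ?_))).elim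
    rw [LinearEquiv.coe_det, det_of_sq (g := g.1.toLinearMap) (l := (l : F)) (LinearMap.ext hg) hs hm, Units.val_pow_eq_pow_val, he.neg_pow]
    obtain ⟨j, rfl⟩ := he
    rw [← two_mul, pow_mul, pow_mul, sq, sq, h3]
  obtain ⟨c, hc⟩ := hs
  have c0 : c ≠ 0 := fun e => l.ne_zero (by rw [hc, e, mul_zero])
  let U := fun ε : F => LinearMap.ker (g.1.toLinearMap - ε • LinearMap.id)
  have hU : ∀ ε v, v ∈ U ε ↔ g.1 v = ε • v := fun ε v => by simp [U, sub_eq_zero]
  have hR : LinearMap.range (g.1.toLinearMap - c • LinearMap.id) = U (-c) := by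
    ext v
    rw [hU]
    constructor
    · rintro ⟨u, rfl⟩
      simp [hg, hc, smul_sub, smul_smul]; abel
    · exact fun h => ⟨(-(2 * c)⁻¹) • v, by simp [h]; match_scalars; field_simp; ring⟩
  have hN : finrank F (U (-c)) + finrank F (U c) = 2 * m := by
    rw [← hR, ← hm]; exact LinearMap.finrank_range_add_finrank_ker _
  rcases mul_self_eq_mul_self_iff.1 h3 with h4 | h4
  swap
  · have h6 : ∀ ε : F, ε * ε = l → finrank F (U ε) ≤ f.wi := fun ε h => (orth_TS_iff.2 fun v hv =>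
      mul_left_cancel₀ (mul_ne_zero h2 l.ne_zero) (by
        have := hQ g v
        rw [(hU _ _).1 hv, h4, f.Q_smul] at this
        simp only [FType.orth_σ] at this
        linear_combination this - f.Q v * h)).le_wi
    have := h6 c hc.symm
    have := h6 (-c) (by rw [hc]; ring)
    omega
  let k := scal V (Units.mk0 c c0)⁻¹ * g.1
  have hk : k ∈ f.iso := ⟨fun u v => by simp [k, hB, h4, hc]; field_simp, fun u => by
    simp [k, f.Q_smul, hQ, h4, hc]; field_simp⟩
  have h6 : Odd (finrank F (U (-c))) := by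
    rw [← hf.sg_eq_eps hm h5 h2, hf.sg_of_eq hm h5 (c := Units.mk0 c c0) hk (LinearEquiv.ext fun v => by simp [k, smul_smul, c0]),
      dk_eq_rank, show (k : V →ₗ[F] V) - LinearMap.id = c⁻¹ • (g.1.toLinearMap - c • LinearMap.id) from by
        ext v; simp [k, smul_sub, smul_smul, c0], LinearMap.range_smul _ _ (inv_ne_zero c0), hR] at h1
    exact Nat.not_even_iff_odd.1 fun h => h1 h.neg_one_pow
  have h7 : ∀ ε : F, (U ε).map x.1.toLinearMap = U (d * ε) := fun ε => by
    ext v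
    rw [Submodule.mem_map_equiv, hU, hU, ← x.1.injective.eq_iff, hxg]
    simp only [map_smul, LinearEquiv.apply_symm_apply, mul_smul]
    exact ⟨fun h => by rw [← h, smul_smul, hd, one_smul], fun h => by rw [h, smul_smul, hd, one_smul]⟩
  rcases mul_self_eq_one_iff.1 hd with h8 | h8
  swap
  · have := LinearEquiv.finrank_map_eq x.1 (U c)
    rw [h7, h8, neg_one_mul] at this
    obtain ⟨j, rfl⟩ := he
    obtain ⟨i, hi⟩ := h6
    omega
  have h9 : (f.res (U (-c))).Nondeg := fun u hu => Subtype.ext (hf _ fun y => mul_left_cancel₀ (mul_ne_zero h2 c0) (by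
    have h6 := hu ⟨c • y - g.1 y, (hU _ _).2 (by simp [hg, hc, smul_sub, smul_smul]; abel)⟩
    have h7 := hB g u y
    rw [(hU _ _).1 u.2, h4, hc] at h7
    simp only [comap_B, Submodule.subtype_apply, map_sub, map_smulₛₗ, FType.orth_σ, smul_eq_mul, LinearMap.smul_apply,
      RingHom.id_apply] at h6 h7
    refine mul_left_cancel₀ c0 ?_
    linear_combination c * h6 - h7))
  let y := x.1.ofSubmodules _ _ ((h7 (-c)).trans (by rw [h8, one_mul]))
  have hy : y ∈ (f.res (U (-c))).Sim := orth_mem_GamS.2 ⟨_, fun u => hQ x u⟩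
  have : Nontrivial (U (-c)) := Module.nontrivial_of_finrank_pos (R := F) h6.pos
  exact h9.mu_eq (μ := f.mu (lin x.1)) hy (fun u v => hB x u v) ▸ h9.mu_sq_of_odd h6 hy

theorem graph_split_even {X : Type*} [Group X] (M : Mdl X f.GamS f.E) {m : ℕ} (hm : finrank F V = 2 * m) (he : Even m)
    (hw : f.wi < m) (hn : scal V (-1) ∉ f.E) {g : f.Sim} (h1 : hf.sg hm h5 g ≠ 1) (ho : M.Φ ⟨lin g.1, g.2⟩ ^ 2 = 1) :
    splitClassCount (M.im ((hf.SimP hm h5).map lin)) (Inn X) (M.Φ ⟨lin g.1, g.2⟩) = 2 := by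
  classical
  have := nontrivial_of_five h5
  rw [splitClassCount_eq (M.Inn_le (hf.SimP_le hm h5) (hf.E_le_SimP hm h5)), ← M.range_κ (hf.SimP_le hm h5)]
  have hc : Nat.card (M.κ (hf.SimP_le hm h5)).range = 2 := by
    rw [hf.range_SimP hm h5, hf.sg_eq_eps hm h5 h2, hf.card_eps_ker h5 M h2 hm, hf.card_SO h5 M h2 hm, if_neg hn]
  rw [← hc, ← Subgroup.relIndex_bot_left]
  congr 1
  rw [eq_bot_iff]
  rintro _ ⟨_, ⟨⟨⟨_, hx⟩, ⟨x, hx', rfl⟩, rfl⟩, h3⟩, rfl⟩
  obtain ⟨l, hl⟩ := (M.pow_ρ_eq_one ho).1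
  have h4 := Subgroup.mem_centralizer_singleton_iff.1 h3
  rw [← map_mul, ← map_mul] at h4
  obtain ⟨d, hd⟩ := M.Φ_eq_iff.1 h4
  obtain ⟨c, k, hk, e⟩ := exists_iso_of_sq hf (fun _ => rfl) hx (mu_sq_of_comm hf h2 h5 hm he hw (g := g)
    (hf.sg_eq_eps hm h5 h2 ▸ h1) (l := l) (lin_injective (by rw [map_mul, ← sq, ← sc_eq_lin, hl])) (x := ⟨x, hx⟩) (d := d)
    (lin_injective (by rw [map_mul, map_mul, map_mul]; exact hd)))
  exact (oK_eq_oI M (g := ⟨x, hx⟩) (k := ⟨k, hk⟩) c e).trans ((hf.oI_eq_one_even h5 M h2 hm).2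
    ⟨(hf.sg_of_eq hm h5 (g := ⟨x, hx⟩) hk e).symm.trans ((hf.mem_SimP hm h5).1 hx').2, .inr hn⟩)

end Cfsg.Agent.H5
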