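import Cfsg.Agent.H5.GrD

/-! Graph automorphisms of unitary groups: transfer to the linear groups over the subfield. -/

set_option autoImplicit false

namespace Cfsg.Agent.H5

open H4 H4.CForm H4.Gam Module Matrix

variable {F : Type*} [Field F] [Fintype F] {q n : ℕ} (hF : Fintype.card F = q ^ 2) {F₀ : Type*} [Field F₀] (φ : F₀ →+* F)

/-- the hermitian form is a multiple of a bilinear form on the rational vectors -/
def UB (k : (Fin n → F) ≃ₗ[F] (Fin n → F)) (k₀ : (Fin n → F₀) ≃ₗ[F₀] (Fin n → F₀)) : Prop :=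
  ∃ l : F, l ≠ 0 ∧ ∀ x y, (unF hF n).B (jv φ k x) (jv φ k y) = l * φ (x ⬝ᵥ k₀.symm y)

variable {φ} {k k' : (Fin n → F) ≃ₗ[F] (Fin n → F)} {k₀ k₀' : (Fin n → F₀) ≃ₗ[F₀] (Fin n → F₀)}

theorem UB.sim (h : UB hF φ k k₀) (h' : UB hF φ k' k₀') (h0 : 2 ≤ n) (g : (Fin n → F₀) ≃ₗ[F₀] (Fin n → F₀)) :
    k.symm.trans ((bc φ g).trans k') ∈ (unF hF n).Sim ↔
      ∃ c : F₀ˣ, ∀ x y, g x ⬝ᵥ k₀'.symm (g y) = c * (x ⬝ᵥ k₀.symm y) := by
  obtain ⟨l, l0, h⟩ := h
  obtain ⟨l', l0', h'⟩ := h'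
  have e : ∀ x, (k.symm.trans ((bc φ g).trans k')) (jv φ k x) = jv φ k' (g x) := fun x => by simp [jv]
  refine (unT_mem_GamS hF).trans ⟨fun ⟨μ, hμ⟩ => ?_, fun ⟨c, hc⟩ => ⟨Units.mk0 (l' * φ c / l) (by simp [l0, l0']), fun u v => ?_⟩⟩
  · have h1 : ∀ x y, l' * φ (g x ⬝ᵥ k₀'.symm (g y)) = μ * (l * φ (x ⬝ᵥ k₀.symm y)) := fun x y => by
      rw [← h, ← h', ← e, ← e]; exact hμ _ _
    have h2 := h1 (Pi.single ⟨0, by omega⟩ 1) (k₀ (Pi.single ⟨0, by omega⟩ 1))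
    rw [LinearEquiv.symm_apply_apply, single_dotProduct _ 1, Pi.single_eq_same, mul_one, map_one, mul_one] at h2
    refine ⟨Units.mk0 _ fun e => ?_, fun x y => φ.injective (mul_left_cancel₀ l0' (by
      rw [h1, map_mul, ← mul_assoc l', Units.val_mk0, h2, mul_assoc]))⟩
    rw [e] at h2
    simp [l0] at h2
  · change (unF hF n).B (k.symm.trans ((bc φ g).trans k') u) (k.symm.trans ((bc φ g).trans k') v) =
      l' * φ c / l * (unF hF n).B u v
    induction u using jv_induction φ k with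
    | h x =>
      induction v using jv_induction φ k with
      | h y => rw [e, e, h, h', hc, map_mul]; field_simp
      | ha y z h1 h2 => simp only [map_add, h1, h2, mul_add]
      | hs a y h1 => simp only [map_smulₛₗ, h1, smul_eq_mul, RingHom.id_apply]; ring
    | ha y z h1 h2 => simp only [map_add, h1, h2, mul_add, LinearMap.add_apply]
    | hs a y h1 => simp only [map_smulₛₗ, h1, smul_eq_mul, RingHom.id_apply, LinearMap.smul_apply]; ring

variable {σ : F ≃+* F} (hσ : ∀ x, σ x = x ↔ ∃ y, φ y = x) (hq : ∀ x, σ x = frobq hF x)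
include hσ

include hq in
theorem exists_UB (h0 : 2 ≤ n) (h : gk k σ ∈ (unF hF n).GamS) :
    ∃ k₀, UB hF φ k k₀ ∧ ∃ c : F₀ˣ, ∀ x y, y ⬝ᵥ k₀.symm x = c * (x ⬝ᵥ k₀.symm y) := by
  have : Nonempty (Fin n) := ⟨⟨0, by omega⟩⟩
  have hf := unF_nondeg hF n
  unfold UB
  generalize unF hF n = f at *
  obtain ⟨μ, hμ⟩ := h
  have hB : ∀ x y, μ * σ (f.B (jv φ k x) (jv φ k y)) = f.B (jv φ k x) (jv φ k y) := fun x y => by
    simpa [gk_jv k hσ] using (hμ.B (jv φ k x) (jv φ k y)).symm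
  obtain ⟨x₀, y₀, hl⟩ := hf.exists_jv_B φ k
  have hφ : ∀ y, frobq hF (φ y) = φ y := fun y => (hq _).symm.trans ((hσ _).2 ⟨y, rfl⟩)
  choose b hb using fun x y => (hσ (f.B (jv φ k x) (jv φ k y) / f.B (jv φ k x₀) (jv φ k y₀))).1 (by
    rw [map_div₀, ← mul_div_mul_left _ _ hμ.ne, hB, hB])
  have hS : ∀ x y, f.B y x = frobq hF (f.B x y) := fun x y => by simpa using f.symm x y
  generalize f.B (jv φ k x₀) (jv φ k y₀) = l at hb hl
  have hb' : ∀ x y, f.B (jv φ k x) (jv φ k y) = l * φ (b x y) := fun x y => by rw [hb]; field_simp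
  let L : (Fin n → F₀) →ₗ[F₀] (Fin n → F₀) :=
    { toFun := fun y i => b (Pi.single i 1) y
      map_add' := fun x y => by ext i; exact φ.injective (by simp [hb, add_div, -unF_B])
      map_smul' := fun a y => by
        ext i; exact φ.injective (by simp [hb, mul_div_assoc, -frobq_apply, hφ]) }
  have h1 : ∀ x y, f.B (jv φ k x) (jv φ k y) = l * φ (x ⬝ᵥ L y) := fun x y => by
    induction x using Pi.single_induction with
    | zero => simp
    | add u v h1 h2 => simp [h1, h2, mul_add]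
    | single i a =>
      rw [show (Pi.single i a : Fin n → F₀) = a • Pi.single i 1 by simp [← Pi.single_smul], jv_smul, f.B_smul_left, hb']
      simp [L]; ring
  have h2 : Function.Injective L := (injective_iff_map_eq_zero _).2 fun y hy => jv_injective φ k
    ((hf _ fun v => by
      induction v using jv_induction φ k with
      | h x => exact f.B_zero_symm (by rw [h1, hy]; simp)
      | ha u v h1 h2 => simp [h1, h2]
      | hs a u h1 => simp [h1]).trans (jv_zero φ k).symm)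
  have h3 : ∀ x y, l * φ (y ⬝ᵥ L x) = frobq hF l * φ (x ⬝ᵥ L y) := fun x y => by rw [← h1, hS, h1, map_mul, hφ]
  obtain ⟨y₁, hy₁⟩ := (LinearMap.injective_iff_surjective.1 h2) (Pi.single (Classical.arbitrary _) 1)
  have h4 := h3 (Pi.single (Classical.arbitrary _) 1) y₁
  rw [hy₁, single_dotProduct _ 1, Pi.single_eq_same, mul_one, map_one, mul_one] at h4
  refine ⟨(LinearEquiv.ofInjectiveEndo L h2).symm, ⟨l, hl, h1⟩, Units.mk0 (y₁ ⬝ᵥ L (Pi.single (Classical.arbitrary _) 1)) fun e => ?_, fun x y =>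
    φ.injective (mul_left_cancel₀ hl ((h3 x y).trans (by rw [← h4, map_mul, ← mul_assoc]; rfl)))⟩
  rw [e, map_zero, mul_zero, eq_comm, map_eq_zero] at h4
  exact hl h4

variable [Fintype F₀] (hn : 3 ≤ n) (hs : ¬ (n = 3 ∧ q = 2)) (h0 : 2 ≤ n)

theorem UB.cent (h : UB hF φ k k₀) (hγ : gk k σ ∈ (unF hF n).GamS) :
    Nonempty (↥(inndiagPSU n F q ⊓ Subgroup.centralizer {(suM hF hn hs).Φ ⟨_, hγ⟩}) ≃*
      ↥(inndiagPSL n F₀ ⊓ Subgroup.centralizer {gK h0 k₀})) := by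
  have : Nonempty (Fin n) := ⟨⟨0, by omega⟩⟩
  obtain ⟨η, h1, h2⟩ := exists_projQuot (K' := (unF hF n).Sim.comap (bk φ k))
    (K := ((unF hF n).Sim.comap (bk φ k)).comap glE.toMonoidHom) fun _ => Iff.rfl
  obtain ⟨e⟩ := cent_graph h0 k₀ (LinearEquiv.refl _ _) (K := ((unF hF n).Sim.comap (bk φ k)).comap glE.toMonoidHom)
    fun g => h.sim hF h h0 (glE g)
  obtain ⟨e'⟩ := Mdl.cent_equiv (suM hF hn hs) le_rfl (K₀ := (unF hF n).Sim.comap (bk φ k)) (fun _ h => h) hσ (orderOf_pos σ) hγ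
    (fun c g h => ⟨1, g, (Subgroup.mul_mem_cancel_left _ (scal_mem_Sim c)).1 h, LinearEquiv.ext fun x => by simp⟩) η h1 h2
  rw [inndiagPSU_eq_Sim hF hn hs]
  exact ⟨e'.trans e.symm⟩

theorem UB.conj (h : UB hF φ k k₀) (h' : UB hF φ k' k₀') (hγ : gk k σ ∈ (unF hF n).GamS) (hγ' : gk k' σ ∈ (unF hF n).GamS) :
    IsConjUnder (inndiagPSU n F q) ((suM hF hn hs).Φ ⟨_, hγ⟩) ((suM hF hn hs).Φ ⟨_, hγ'⟩) ↔
      IsConjUnder (inndiagPSL n F₀) (gK h0 k₀) (gK h0 k₀') := by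
  have : Nonempty (Fin n) := ⟨⟨0, by omega⟩⟩
  rw [inndiagPSU_eq_Sim hF hn hs, isConj_gK_iff]
  constructor
  · rintro ⟨_, ⟨⟨_, h1⟩, ⟨s, h2, rfl⟩, rfl⟩, e⟩
    rw [← map_inv, ← map_mul, ← map_mul, eq_comm, Mdl.Φ_eq_iff] at e
    obtain ⟨c, e⟩ := e
    have e' : lin s * gk k σ * (lin s)⁻¹ = sc F _ c * gk k' σ := e
    obtain ⟨d, g, h3⟩ := exists_bk_of_comm k hσ (orderOf_pos σ) (s := (k.symm.trans k')⁻¹ * s) (c := c) (by
      rw [mul_inv_eq_iff_eq_mul, gk_conj k k'] at e'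
      rw [map_mul, mul_assoc, e', map_inv, ← mul_assoc, ← mul_assoc, ← mul_assoc, ← mul_assoc, ← map_inv, lin_mul_sc]
      simp [mul_assoc])
    refine ⟨g, (h.sim hF h' h0 g).1 ((Subgroup.mul_mem_cancel_left _ (scal_mem_Sim d)).1 ?_)⟩
    rwa [show s = scal _ d * k.symm.trans ((bc φ g).trans k') from LinearEquiv.ext fun x => by
      simpa [bk_apply, LinearEquiv.symm_apply_eq] using LinearEquiv.congr_fun (inv_mul_eq_iff_eq_mul.1 h3) x] at h2
  · rintro ⟨g, hg⟩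
    exact Mdl.isConj_of _ le_rfl ((h.sim hF h' h0 g).2 hg) (d := 1) (by
      rw [map_one, one_mul, ← gk_conj, gk_trans _ hσ])

include hq in
theorem su_graph {γ} (hγ : IsGraphAutClassPSU γ) (h2 : orderOf γ = 2) : ∃ (k : (Fin n → F) ≃ₗ[F] (Fin n → F))
    (h : gk k σ ∈ (unF hF n).GamS), (suM hF hn hs).Φ ⟨_, h⟩ = γ ∧ ∃ k₀, UB hF φ k k₀ ∧ orderOf (gK h0 k₀) = 2 := by
  have : Nonempty (Fin n) := ⟨⟨0, by omega⟩⟩
  obtain ⟨-, _, _, τ, h3, h4, h5, rfl⟩ := hγ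
  obtain ⟨⟨_, h6⟩, ⟨g, hg, rfl⟩, rfl⟩ := (suM_inndiag hF hn hs).1 h4
  obtain rfl := (suM_fld hF hn hs).1 h5
  rw [← map_mul] at h2 ⊢
  obtain ⟨h7, h8⟩ := (suM hF hn hs).pow_ρ_eq_one (orderOf_dvd_iff_pow_eq_one.1 (dvd_of_eq h2))
  generalize ha : (_ * _ : (unF hF n).GamS) = a at *
  have h9 : a.1.ρ = τ := by rw [← ha]; simp
  rw [h9] at h8
  have h10 : τ ≠ 1 := by rintro rfl; simp at h3
  obtain rfl : τ = σ := RingEquiv.ext fun x => (eq_frobq hF h10 h8 x).trans (hq x).symm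
  have h11 : orderOf a.1.ρ = 2 := h9 ▸ orderOf_eq_prime h8 h10
  obtain ⟨d, hd⟩ := exists_sc_mul_pow rfl (orderOf_pos _) (h11 ▸ h7 : a.1 ^ orderOf a.1.ρ ∈ Zs F _)
  obtain ⟨k, hk⟩ := exists_gk (ι := Fin n) (by simp) (γ := sc F _ d * a.1) (by simpa using orderOf_pos _) (by simpa using hd)
  simp only [mul_ρ, sc_ρ, one_mul, h9] at hk
  have h12 : gk k τ ∈ (unF hF n).GamS := hk ▸ mul_mem (sc_mem_GamS d) a.2
  obtain ⟨k₀, h13, h14⟩ := exists_UB hF hσ hq h0 h12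
  exact ⟨k, h12, (suM hF hn hs).Φ_eq_iff.2 ⟨d, hk.symm⟩, k₀, h13, (order_gK_iff h0 hn k₀).2 h14⟩

include hq in
theorem exists_su_graph (h2 : orderOf σ = 2) (k₀ : (Fin n → F₀) ≃ₗ[F₀] (Fin n → F₀)) (ho : orderOf (gK h0 k₀) = 2) :
    ∃ (k : (Fin n → F) ≃ₗ[F] (Fin n → F)) (h : gk k σ ∈ (unF hF n).GamS), UB hF φ k k₀ ∧
      IsGraphAutClassPSU ((suM hF hn hs).Φ ⟨_, h⟩) ∧ orderOf ((suM hF hn hs).Φ ⟨_, h⟩) = 2 := by
  have : Nonempty (Fin n) := ⟨⟨0, by omega⟩⟩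
  obtain ⟨c, hc⟩ := (order_gK_iff h0 hn k₀).1 ho
  have hφ : ∀ y, σ (φ y) = φ y := fun y => (hσ _).2 ⟨y, rfl⟩
  have hσσ : ∀ a, σ (σ a) = a := fun a => by rw [hq, hq, frobq_frobq]
  obtain ⟨l, l0, hl⟩ : ∃ l : F, l ≠ 0 ∧ ∀ x y, l * φ (y ⬝ᵥ k₀.symm x) = σ (l * φ (x ⬝ᵥ k₀.symm y)) := by
    rcases kform_cases h0 hc with s | s
    · exact ⟨1, one_ne_zero, fun x y => by rw [s, one_mul, hφ]⟩
    · obtain ⟨z, hz⟩ : ∃ z, σ z ≠ z := not_forall.1 fun h => frobq_ne hF (RingHom.ext fun x => (hq x).symm.trans (h x))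
      exact ⟨σ z - z, sub_ne_zero.2 hz, fun x y => by rw [s, map_mul, hφ, map_sub, hσσ, map_neg]; ring⟩
  let b := fun u v : Fin n → F => l * (u ⬝ᵥ bc φ k₀.symm ((fld _ σ).s v))
  have hb : ∀ x y, b (jv φ (LinearEquiv.refl _ _) x) (jv φ (LinearEquiv.refl _ _) y) = l * φ (x ⬝ᵥ k₀.symm y) := fun x y => by
    simp only [b, jv_refl, fld_cv hσ, bc_cv]
    simp [cv, dotProduct]
  have a1 : ∀ x y z, b (x + y) z = b x z + b y z := fun x y z => by simp [b, mul_add]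
  have a2 : ∀ (a : F) x y, b (a • x) y = a * b x y := fun a x y => by simp [b]; ring
  have a3 : ∀ x y z, b z (x + y) = b z x + b z y := fun x y z => by
    simp only [b, map_add, dotProduct_add, mul_add]
  have a4 : ∀ (a : F) x y, b y (a • x) = σ a * b y x := fun a x y => by
    simp only [b, (fld _ σ).smul, map_smul, dotProduct_smul, fld_ρ, smul_eq_mul]; ring
  have a5 : ∀ x y, b y x = frobq hF (b x y) := fun u v => by
    rw [← hq]
    induction u using jv_induction φ (LinearEquiv.refl F (Fin n → F)) with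
    | h x =>
      induction v using jv_induction φ (LinearEquiv.refl F (Fin n → F)) with
      | h y => rw [hb, hb, hl]
      | ha y z h1 h2 => rw [a1, a3, h1, h2, map_add]
      | hs a y h1 => rw [a2, a4, h1, map_mul σ (σ a), hσσ]
    | ha y z h1 h2 => rw [a1, a3, h1, h2, map_add]
    | hs a y h1 => rw [a2, a4, h1, map_mul σ a]
  have hf : (mkHerm _ (frobq_frobq hF) (frobq_ne hF) b a1 a2 a5).Nondeg := fun u hu => eq_of_dot fun z => by
    obtain ⟨z, rfl⟩ := ((bc φ k₀.symm).surjective.comp (fld _ σ).s.surjective) z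
    rw [dotProduct_comm, dotProduct_zero]
    exact (mul_eq_zero.1 (hu z)).resolve_left l0
  obtain ⟨k, hk⟩ := hf.unit_isom (frobq_ne hF) (unF_nondeg hF n) rfl
  have h3 : ∀ x y, (unF hF n).B (jv φ k x) (jv φ k y) = l * φ (x ⬝ᵥ k₀.symm y) := fun x y => (hk.B _ _).trans (hb x y)
  have h4 : gk k σ ∈ (unF hF n).GamS := (unT_mem_GamS hF).2 ⟨Units.mk0 (l / σ l) (by simp [l0]), fun u v => by
    change (unF hF n).B ((gk k σ).s u) ((gk k σ).s v) = l / σ l * σ ((unF hF n).B u v)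
    have hρ : (gk k σ).ρ = σ := rfl
    induction u using jv_induction φ k with
    | h x =>
      induction v using jv_induction φ k with
      | h y => rw [gk_jv k hσ, gk_jv k hσ, h3, map_mul, hφ]; field_simp [(map_ne_zero σ).2 l0]
      | ha y z h1 h2 => simp only [map_add, h1, h2, mul_add]
      | hs a y h1 =>
        simp only [(gk k σ).smul, hρ, map_smulₛₗ, h1, smul_eq_mul, map_mul, FType.unit_σ, ← hq]; ring
    | ha y z h1 h2 => simp only [map_add, h1, h2, mul_add, LinearMap.add_apply]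
    | hs a y h1 =>
      simp only [(gk k σ).smul, hρ, map_smulₛₗ, h1, smul_eq_mul, RingHom.id_apply, LinearMap.smul_apply, map_mul]; ring⟩
  obtain ⟨g, hg, e⟩ := suM_exists hF hn hs ⟨_, h4⟩
  exact ⟨k, h4, ⟨l, l0, h3⟩, ⟨hn, _, _, σ, by simp [h2], (suM_inndiag hF hn hs).2 ⟨_, ⟨g, hg, rfl⟩, rfl⟩,
    (suM_fld hF hn hs).2 rfl, e⟩, ((suM hF hn hs).orderOf_gk h4).trans h2⟩

omit hσ in
theorem exists_frob (h : Fintype.card F₀ = q) : ∃ (σ : F ≃+* F) (φ : F₀ →+* F), orderOf σ = 2 ∧ (∀ x, σ x = frobq hF x) ∧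
    ∀ x, σ x = x ↔ ∃ y, φ y = x := by
  have h1 : orderOf (frobE hF) = 2 := orderOf_eq_prime (RingEquiv.ext (frobq_frobq hF)) fun h => frobq_ne hF
    (RingHom.ext fun x => DFunLike.congr_fun h x)
  obtain ⟨φ, h2⟩ := exists_fixed_hom (frobE hF) F₀ (by rw [h1, h, hF])
  exact ⟨_, φ, h1, fun _ => rfl, h2⟩

end Cfsg.Agent.H5
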