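import Cfsg.Agent.H5.Ssc

set_option autoImplicit false

namespace Cfsg.Agent.H5

open Cfsg.Lie StG StN RS

variable {D : ChevalleyDatum} {R : RS D}

noncomputable def cntLt (n : ℕ) (p : ℕ → Bool) : ℕ := Nat.rec 0 (fun i b => Bool.rec b (Nat.succ b) (p i)) n

theorem cntLt_eq (n : ℕ) (p : ℕ → Bool) : cntLt n p = {i : Fin n | p i = true}.ncard := by
  rw [Set.ncard_eq_toFinset_card', Set.toFinset_setOf, Finset.card_filter]
  induction n with
  | zero => rfl
  | succ n ih =>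
    rw [Fin.sum_univ_castSucc]
    change (Bool.rec (cntLt n p) (Nat.succ (cntLt n p)) (p n) : ℕ) = _
    simp only [Fin.val_castSucc, Fin.val_last, ← ih]
    rcases Bool.eq_false_or_eq_true (p n) with e | e <;> simp [e]

noncomputable def Cert.prN (C : Cert) (l r s : ℕ) : ℤ := sumLt l fun j => C.cv r j * C.A j s

/-- one step of the computation of the Poincaré polynomial of a subsystem -/
noncomputable def Cert.paStep (C : Cert) (l n A O β A' : ℕ) (h : List ℕ) : Bool :=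
  Nat.blt β n && O.testBit β &&
  allLt n (fun r => (!O.testBit r || A.testBit r && (Nat.beq r β || anyLt n fun α => A.testBit α && Nat.ble n (2 * α) &&
      decide (C.prN l α r < 0))) && (!A.testBit r || Nat.blt (2 * r) n || decide (0 ≤ C.prN l β r)) &&
    (A'.testBit r == (A.testBit r && decide (C.prN l β r = 0)))) &&
  (Nat.beq O A || allLt n fun γ => !O.testBit γ || allLt n fun α => !A.testBit α || decide (C.prN l α γ = 0) ||
    allLt n fun δ => !A.testBit δ || O.testBit δ || !decide (C.val l δ = C.val l γ - C.prN l α γ * C.val l α)) &&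
  decide (hist (fun γ => Bool.rec 0 (Nat.succ (cntLt n fun s => A.testBit s && Nat.blt (2 * s) n && decide (0 < C.prN l γ s)))
    (O.testBit γ)) n = h)

noncomputable def Cert.paChk (C : Cert) (l n : ℕ) (t : List (ℕ × ℕ × ℕ × List ℕ)) : ℕ → Bool :=
  List.rec (fun A => Nat.beq A 0) (fun x _ ih A => C.paStep l n A x.1 x.2.1 x.2.2.1 x.2.2.2 && ih x.2.2.1) t

namespace RS

theorem prN_eq (r s : Φ D) : R.toCert.prN D.rank r s = R.pr r s := sumLt_eq _ _

theorem pr_zero_comm {r s : Φ D} (h : R.pr r s = 0) : R.pr s r = 0 := by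
  have h1 := (lin_pr (R := R) (A := ℤ) r).two_mul_sum s
  have h2 := (lin_pr (R := R) (A := ℤ) s).two_mul_sum r
  simp only [h, Int.cast_id, mul_zero, mul_comm (R.pr s _)] at h1 h2
  exact (mul_eq_zero.1 (h2.symm.trans h1)).resolve_left (nrm_pos r).ne'

theorem WS_mono {A B : Set (Φ D)} (h : A ⊆ B) : R.WS A ≤ R.WS B := Subgroup.closure_mono (Set.image_mono h)

open Classical in
variable (R) in
/-- Poincaré polynomial of a subsystem -/
noncomputable def PA (A : Set (Φ D)) (q : ℕ) : ℕ := ∑ w : R.W with w ∈ R.WS A, q ^ (inv w ∩ A).ncard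

theorem PA_empty (q : ℕ) : R.PA ∅ q = 1 := by
  rw [PA, Finset.sum_eq_single 1] <;> simp +contextual [WS]

theorem PA_step {A : Set (Φ D)} (h : R.Cong A) {β : Φ D} (hd : ∀ r ∈ A, R.Pos r → 0 ≤ R.pr β r) (O : Finset (Φ D))
    (hO : ∀ γ, γ ∈ O ↔ ∃ w ∈ R.WS A, w • β = γ) (q : ℕ) : R.PA A q =
      (∑ γ ∈ O, q ^ {s | s ∈ A ∧ ¬ R.Pos s ∧ 0 < R.pr γ s}.ncard) * R.PA (A ∩ {r | R.pr β r = 0}) q := by
  classical
  obtain ⟨h1, h2⟩ := h.inter (lin_pr (A := ℤ) β)
  simp only [Int.cast_id] at h1 h2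
  have h3 : R.WS (A ∩ {r | R.pr β r = 0}) ≤ MulAction.stabilizer R.W β := (Subgroup.closure_le _).2 (by
    rintro _ ⟨r, hr, rfl⟩; exact rr_of_pr (pr_zero_comm hr.2))
  have h4 := WS_mono (R := R) (Set.inter_subset_left (s := A) (t := {r | R.pr β r = 0}))
  rw [PA, ← Finset.sum_fiberwise_of_maps_to (t := O) (g := (· • β)) (fun w hw => (hO _).2 ⟨w, by simpa using hw, rfl⟩),
    Finset.sum_mul]
  refine Finset.sum_congr rfl fun γ hγ => ?_
  obtain ⟨w₀, hw₀, rfl⟩ := (hO γ).1 hγ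
  obtain ⟨v, hv, hp⟩ := exists_WS_pos (A := A ∩ {r | R.pr β r = 0}) lin_ht (lin_ht.smul w₀)
  have hw := mul_mem hw₀ (h4 hv)
  have e : (w₀ * v) • β = w₀ • β := by rw [mul_smul, h3 hv]
  simp only [← mul_smul] at hp
  rw [← e]
  generalize w₀ * v = w at *
  replace hp : ∀ r ∈ A ∩ {r | R.pr β r = 0}, R.Pos (w • r) ↔ R.Pos r := fun r hr => by
    have := hp r hr
    have := R.ht_ne_zero r
    have := R.ht_ne_zero (w • r)
    simp only [Pos]
    constructor <;> intro <;> by_contra <;> nlinarith [lt_of_le_of_ne (not_lt.1 ‹¬ _›) ‹_›]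
  rw [PA, Finset.mul_sum]
  refine (Finset.sum_nbij' (fun u => w * u) (fun u => w⁻¹ * u) (fun u hu => ?_) (fun u hu => ?_) (by simp) (by simp)
    fun u hu => ?_).symm
  · simp only [Finset.mem_filter, Finset.mem_univ, true_and] at hu ⊢
    exact ⟨mul_mem hw (h4 hu), by rw [mul_smul, h3 hu]⟩
  · simp only [Finset.mem_filter, Finset.mem_univ, true_and] at hu ⊢
    exact h2 _ (mul_mem (inv_mem hw) hu.1) fun r => by rw [mul_smul, ← pr_smul w, ← hu.2, smul_inv_smul, pr_smul]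
  simp only [Finset.mem_filter, Finset.mem_univ, true_and] at hu
  have h5 := mul_mem hw (h4 hu)
  have h6 : ∀ r, R.pr (w • β) ((w * u) • r) = R.pr β r := fun r => by rw [← pr_smul (w * u) β r, mul_smul w u β, h3 hu]
  rw [← pow_add, ← Set.ncard_preimage_of_injective_subset_range (f := ((w * u) • · : Φ D → Φ D)) (MulAction.injective _)
    (by rw [(MulAction.surjective _).range_eq]; simp), ← Set.ncard_union_eq (Set.disjoint_left.2 fun r a b => by
      have := a.2.2; rw [h6, b.2.2] at this; omega)]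
  congr 2
  ext r
  simp only [Set.mem_union, Set.mem_preimage, Set.mem_setOf, Set.mem_inter_iff, inv, h6, h.smul_mem h5]
  constructor
  · rintro (⟨a, b, c⟩ | ⟨⟨a, b⟩, c⟩)
    · refine ⟨⟨by_contra fun e => ?_, b⟩, a⟩
      have := hd _ (h.neg_mem a) ((R.pos_neg_iff r).2 e)
      rw [pr_neg_right] at this; omega
    · exact ⟨⟨a, by rwa [mul_smul, hp _ ((h1.smul_mem hu).2 c)]⟩, c.1⟩
  · rintro ⟨⟨a, b⟩, c⟩
    rcases (hd r c a).lt_or_eq with e | e
    · exact .inl ⟨c, b, e⟩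
    · exact .inr ⟨⟨a, by rwa [mul_smul, hp _ ((h1.smul_mem hu).2 ⟨c, e.symm⟩)] at b⟩, c, e.symm⟩

theorem PA_chk {t : List (ℕ × ℕ × ℕ × List ℕ)} {A : ℕ} (h : R.Cong {r | A.testBit r = true})
    (hc : R.toCert.paChk D.rank D.nroots t A = true) (q : ℕ) :
    R.PA {r | A.testBit r = true} q = (t.map fun x => horner q x.2.2.2).prod := by
  induction t generalizing A with
  | nil => obtain rfl := Nat.eq_of_beq_eq_true hc; simpa using PA_empty q
  | cons x t ih =>
    obtain ⟨O, β, A', l⟩ := x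
    obtain ⟨h1, h2⟩ := Bool.and_eq_true_iff.1 hc
    simp only [Cert.paStep, Bool.and_eq_true, Bool.or_eq_true, allLt_iff, anyLt_iff, Nat.blt_eq, Nat.ble_eq, decide_eq_true_eq,
      Bool.not_eq_true', beq_iff_eq, Nat.beq_eq, decide_eq_false_iff_not] at h1
    obtain ⟨⟨⟨⟨hβ, h3⟩, h4⟩, h5⟩, rfl⟩ := h1
    lift β to Φ D using hβ
    have h6 : {r : Φ D | A.testBit r = true} ∩ {r | R.pr β r = 0} = {r : Φ D | A'.testBit r = true} := Set.ext fun r => by
      simp [(h4 r r.2).2, prN_eq]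
    have h7 : ∀ α : Φ D, A.testBit α = true → ∀ γ : Φ D, O.testBit γ = true → O.testBit (R.rr α • γ : Φ D) = true := fun α hα γ hγ => by
      have hγ' := (((h4 γ γ.2).1.1.resolve_left (by simp [hγ])).1 :)
      have := (h.smul_mem (Subgroup.subset_closure ⟨α, hα, rfl⟩)).2 hγ'
      rcases h5 with rfl | h5
      · exact this
      rcases ((h5 γ γ.2).resolve_left (by simp [hγ])) α α.2 with (e | e) | e
      · simp [hα] at e
      · rwa [rr_of_pr (prN_eq α γ ▸ e)]
      · refine ((e _ (R.rr α • γ).2).resolve_right fun e => e ?_).resolve_left (by simpa using this)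
        rw [prN_eq, ← ht_eq, ← ht_eq, ← ht_eq]; simpa using lin_ht.rr α γ
    rw [PA_step h (β := β) (fun r hr hp => by
      rw [← prN_eq]; exact ((h4 r r.2).1.2.resolve_left (by simpa [show A.testBit r = true from hr] using (R.pos_iff_le r).1 hp)))
      (Finset.univ.filter fun r : Φ D => O.testBit r = true) fun γ => ?_, h6, ih (h6 ▸ (h.inter (lin_pr (A := ℤ) β)).1) h2,
      List.map_cons, List.prod_cons, horner_hist]
    · congr 1
      refine Finset.sum_congr (Finset.filter_congr fun r _ => by cases O.testBit r <;> simp) fun r hr => ?_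
      have : O.testBit r = true := by have := (Finset.mem_filter.1 hr).2; revert this; cases O.testBit r <;> simp
      simp [this, cntLt_eq, prN_eq, pos_iff_le, and_assoc]
    simp only [Finset.mem_filter, Finset.mem_univ, true_and]
    constructor
    · refine WellFoundedGT.induction (motive := fun γ : Φ D => O.testBit γ = true → ∃ w ∈ R.WS _, w • β = γ) γ fun γ ih hγ => ?_
      obtain ⟨-, e | ⟨α, hα, ⟨a, b⟩, c⟩⟩ := (h4 γ γ.2).1.1.resolve_left (by simp [hγ])
      · exact ⟨1, one_mem _, by rw [one_smul]; exact (Fin.ext e).symm⟩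
      lift α to Φ D using hα
      obtain ⟨w, hw, e⟩ := ih (R.rr α • γ) (R.ht_strictMono.lt_iff_lt.1 (by
        have := (R.pos_iff_le α).2 b
        rw [prN_eq] at c
        rw [lin_ht.rr]; simp only [Pos, Int.cast_id] at *; nlinarith)) (h7 α a γ hγ)
      exact ⟨_, mul_mem (Subgroup.subset_closure ⟨α, a, rfl⟩) hw, by rw [mul_smul, e, rr_rr]⟩
    · rintro ⟨w, hw, rfl⟩
      induction hw using Subgroup.closure_induction_left with
      | one => simpa using h3
      | mul_left x hx y _ ih => obtain ⟨α, hα, rfl⟩ := hx; rw [mul_smul]; exact h7 α hα _ ih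
      | inv_mul_cancel x hx y _ ih =>
        obtain ⟨α, hα, rfl⟩ := hx; rw [mul_smul, inv_eq_of_mul_eq_one_right (rr_sq α)]; exact h7 α hα _ ih

end RS

variable {K : Type*} [Field K]

theorem StN.card_cent_hp [Finite K] {G : Type*} [Group G] {S : StN R K G} (h3 : R.Rel3 S.x) (hinj : Function.Injective S.hp)
    (gen : S.U Set.univ = ⊤) (c : I D → Kˣ) : Nat.card (Subgroup.centralizer {S.hp c}) = (Nat.card K - 1) ^ D.rank *
      Nat.card K ^ ({r | R.Pos r} ∩ {r | R.cv' (R.tau K c) r = 1}).ncard * R.PA {r | R.cv' (R.tau K c) r = 1} (Nat.card K) := by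
  classical
  have hc := isOfFinOrder_of_finite c
  have hA : ∀ k ∈ ({S.hp c} : Set G), k ∈ S.H := by simpa using hp_mem c
  rw [← fixR_hp (S := S)]
  have h0 : ∀ T, S.U (T ∩ S.fixR {S.hp c}) ≤ S.C0 {S.hp c} := fun T => (U_mono Set.inter_subset_right).trans le_sup_right
  let f : S.H × S.U ({r | R.Pos r} ∩ S.fixR {S.hp c}) × (Σ w : R.WS (S.fixR {S.hp c}), S.U (RS.inv w.1 ∩ S.fixR {S.hp c})) →
      Subgroup.centralizer {S.hp c} := fun p => ⟨p.2.1 * p.1 * S.lw p.2.2.1 * p.2.2.2, cent_hp h3 hinj gen hc ▸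
        mul_mem (mul_mem (mul_mem (h0 _ p.2.1.2) (Subgroup.mem_sup_left p.1.2))
          ((lift_lw _).mem_WS (fun _ => neg_mem_fixR hA) p.2.2.1.2 (lw_mem _))) (h0 _ p.2.2.2.2)⟩
  have hf : Function.Bijective f := by
    constructor
    · rintro ⟨⟨k, hk⟩, ⟨u, hu⟩, ⟨w, hw⟩, v, hv⟩ ⟨⟨k', hk'⟩, ⟨u', hu'⟩, ⟨w', hw'⟩, v', hv'⟩ h
      replace h := congrArg Subtype.val h
      have a1 := U_mono Set.inter_subset_left hu
      have a2 := U_mono Set.inter_subset_left hu'
      have a3 := U_mono Set.inter_subset_left hv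
      have a4 := U_mono Set.inter_subset_left hv'
      have hb := mul_mem (S.U_le_B a1) (S.H_le_B hk)
      have hb' := mul_mem (S.U_le_B a2) (S.H_le_B hk')
      obtain rfl := cell_unique' hb (inv_le_B w a3) hb' (inv_le_B w' a4) (lw_mem w) (lw_mem w') h (lift_lw w) (lift_lw w')
      obtain ⟨h1, rfl⟩ := canonical_unique (lift_lw w) hb hb' a3 a4 h
      have h2 : u'⁻¹ * u = k' * k⁻¹ := by rw [inv_mul_eq_iff_eq_mul, ← mul_assoc, ← h1, mul_inv_cancel_right]
      have h3 := eq_one_of_U_H (mul_mem (inv_mem a2) a1) (mul_mem hk' (inv_mem hk)) (by rw [h2])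
      rw [inv_mul_eq_one] at h3
      subst h3
      obtain rfl := mul_left_cancel h1
      rfl
    · rintro ⟨g, hg⟩
      obtain ⟨v, hv, m, hm, w, hw, u, hu, rfl, e⟩ := cent_decomp hA (gen ▸ Subgroup.mem_top g) (f := id) hA (by
        simpa [mul_inv_eq_iff_eq_mul] using Subgroup.mem_centralizer_singleton_iff.1 hg)
      rw [Set.image_id] at hv
      exact ⟨(⟨_, hw.mul_inv_mem hm (lw_mem w) (lift_lw w)⟩, ⟨v, hv⟩, ⟨⟨w, fixR_hp (S := S) c ▸
        wc_WS hc (hinj ((hw.conj_wc h3 c).symm.trans (e _ rfl)))⟩, ⟨u, hu⟩⟩), Subtype.ext (by simp [f, mul_assoc])⟩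
  have h1 : ∀ {T}, R.Closed T → (∀ r ∈ T, R.Pos r) → Nat.card (S.U (T ∩ S.fixR {S.hp c})) = Nat.card K ^ (T ∩ S.fixR {S.hp c}).ncard :=
    fun hT hp => card_U (L := R.lamf) (hT.inter (closed_fixR hA)) fun r h => hp r h.1
  haveI : ∀ w : R.WS (S.fixR {S.hp c}), Finite (S.U (RS.inv w.1 ∩ S.fixR {S.hp c})) := fun w => Nat.finite_of_card_ne_zero (by
    rw [h1 (closed_inv _) fun _ h => h.1]; exact pow_ne_zero _ Nat.card_pos.ne')
  have := Fintype.ofFinite (R.WS (S.fixR {S.hp c}))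
  rw [← Nat.card_eq_of_bijective f hf, Nat.card_prod, Nat.card_prod, Nat.card_sigma, h1 closed_pos' fun _ h => h, mul_assoc,
    ← hpHom_range h3, ← Nat.card_congr (MonoidHom.ofInjective (f := hpHom h3) hinj).toEquiv, Nat.card_fun, Nat.card_units, PA,
    Finset.sum_subtype _ (p := (· ∈ R.WS (S.fixR {S.hp c}))) (F := this) (by simp)]
  simp only [h1 (closed_inv _) fun _ h => h.1, Nat.card_eq_fintype_card (α := I D), Fintype.card_fin]

/-- a vector of signs -/
def sgN (D : ChevalleyDatum) (K : Type*) [Field K] (x : ℕ) : I D → Kˣ := fun i => (-1) ^ ((x.testBit i).toNat : ℤ)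

theorem sgN_sq (x : ℕ) : sgN D K x * sgN D K x = 1 := funext fun i => by simp [sgN, ← mul_pow]

theorem exists_sgN {c : I D → Kˣ} (h : c * c = 1) : ∃ x < 2 ^ D.rank, c = sgN D K x := by
  classical
  refine ⟨Nat.ofBits fun i => decide (c i ≠ 1), Nat.ofBits_lt_two_pow _, funext fun i => ?_⟩
  rw [sgN, Nat.testBit_ofBits_lt _ _ i.2]
  by_cases e' : c i = 1
  · simp [e']
  · rw [decide_eq_true e']
    exact Units.ext (by simpa using (mul_self_eq_one_iff.1 (congrArg Units.val (congrFun h i))).resolve_left fun e => e' (Units.ext e))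

noncomputable def Cert.sgChk (C : Cert) (l x₁ x₂ : ℕ) (t : List (ℕ × ℕ × ℕ)) : Bool :=
  allLt (2 ^ l) fun x => Nat.beq x 0 || Nat.beq x x₁ || Nat.beq x x₂ || (fun (i y d : ℕ) => Nat.blt i l && Nat.blt y (2 ^ l) &&
    !Nat.beq y 0 && Nat.blt (t.getD y 0).2.2 d && allLt l fun j =>
      decide ((sumLt l (fun k => (x.testBit k).toNat * C.cv (C.w i (C.sp k)) j) - (y.testBit j).toNat) % 2 = 0))
    (t.getD x 0).1 (t.getD x 0).2.1 (t.getD x 0).2.2

theorem RS.wc_mul' (v w : R.W) (c : I D → Kˣ) : R.wc (v * w) c = R.wc v (R.wc w c) := funext fun j => by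
  have := fun i => congrFun (congrFun (wm_mul v w) j) i
  simp only [wm, Matrix.of_apply, Matrix.mul_apply] at this
  simp only [wc, MonoidHom.coe_mk, OneHom.coe_mk, this, zpow_sum', ← Finset.prod_zpow, ← zpow_mul]
  rw [Finset.prod_comm]; simp only [mul_comm]

theorem RS.orb_chk {x₁ x₂ : ℕ} {t : List (ℕ × ℕ × ℕ)} (h : R.toCert.sgChk D.rank x₁ x₂ t = true) {c : I D → Kˣ} (h1 : c * c = 1)
    (h2 : c ≠ 1) : ∃ v, R.wc v c = sgN D K x₁ ∨ R.wc v c = sgN D K x₂ := by
  obtain ⟨x, hx, rfl⟩ := exists_sgN h1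
  replace h2 : x ≠ 0 := by rintro rfl; exact h2 (funext fun i => by simp [sgN])
  clear h1
  induction hn : (t.getD x 0).2.2 using Nat.strong_induction_on generalizing x with | _ n ih => ?_
  have := allLt_iff.1 h x hx
  simp only [Bool.and_eq_true, Bool.or_eq_true, allLt_iff, Nat.blt_eq, decide_eq_true_eq, Bool.not_eq_true', Nat.beq_eq, h2,
    false_or] at this
  rcases this with (rfl | rfl) | ⟨⟨⟨⟨a, b⟩, c⟩, d⟩, e⟩
  exacts [⟨1, .inl (wc_one _)⟩, ⟨1, .inr (wc_one _)⟩, by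
    obtain ⟨v, hv⟩ := ih _ (hn ▸ d) _ b (Nat.ne_of_beq_eq_false c) rfl
    refine ⟨v * R.sw ⟨_, a⟩, ?_⟩
    rwa [wc_mul', show R.wc (R.sw ⟨_, a⟩) (sgN D K x) = sgN D K (t.getD x 0).2.1 from funext fun j => by
      simp only [wc, sgN, MonoidHom.coe_mk, OneHom.coe_mk, ← zpow_mul, ← zpow_sum']
      rw [← mul_inv_eq_one, ← zpow_sub]
      exact Even.neg_one_zpow (Int.even_iff.2 (by have := e j j.2; rw [sumLt_eq] at this; exact this))]]

theorem RS.fix_sgN (h2 : (2 : K) ≠ 0) {x A : ℕ} (h : allLt D.nroots (fun r => A.testBit r ==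
    decide (sumLt D.rank (fun i => (x.testBit i).toNat * R.A i r) % 2 = 0)) = true) :
    {r | R.cv' (R.tau K (sgN D K x)) r = 1} = {r : Φ D | A.testBit r = true} := Set.ext fun r => by
  have := allLt_iff.1 h r r.2
  simp only [beq_iff_eq, sumLt_eq, ← Int.even_iff] at this
  simp only [Set.mem_setOf, cv'_tau, sgN, ← zpow_mul, ← zpow_sum', this, decide_eq_true_eq]
  refine ⟨fun e => by_contra fun e' => h2 ?_, Even.neg_one_zpow⟩
  have := congrArg Units.val ((Odd.neg_one_zpow (Int.not_even_iff_odd.1 e')).symm.trans e)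
  simp only [Units.val_neg, Units.val_one] at this
  linear_combination -this

/-- data for an involution: sign vector, centralized roots, number of positive ones, chain for the Poincaré polynomial -/
noncomputable def Cert.invChk (C : Cert) (l n x A m : ℕ) (t : List (ℕ × ℕ × ℕ × List ℕ)) : Bool :=
  allLt n (fun r => A.testBit r == decide (sumLt l (fun i => (x.testBit i).toNat * C.A i r) % 2 = 0)) &&
    Nat.beq (cntLt n fun r => Nat.ble n (2 * r) && A.testBit r) m && Nat.beq (cntLt n A.testBit) (2 * m) && Nat.blt (2 * m) n &&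
    C.paChk l n t A

section
variable {F : Type*} [Field F] [Fintype F] (hF : Odd (Fintype.card F)) (hk : (R.tau F).ker = ⊥)
include hF

theorem two_ne_of_odd : (2 : F) ≠ 0 := fun e => by
  have := FiniteField.even_card_of_char_two (F := F) (ringChar.spec F 2 |>.1 (by exact_mod_cast e) |> fun h =>
    ((Nat.dvd_prime Nat.prime_two).1 h).resolve_left CharP.ringChar_ne_one)
  rw [Nat.odd_iff] at hF; omega

include hk
theorem RS.inv_chk {x A m : ℕ} {t : List (ℕ × ℕ × ℕ × List ℕ)} (h : R.toCert.invChk D.rank D.nroots x A m t = true) :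
    orderOf ((R.adj F).hp (sgN D F x)) = 2 ∧ {r | R.cv' (R.tau F (sgN D F x)) r = 1}.ncard = 2 * m ∧
      Nat.card (Subgroup.centralizer {(R.adj F).hp (sgN D F x)}) = (Fintype.card F - 1) ^ D.rank * Fintype.card F ^ m *
        (t.map fun x => horner (Fintype.card F) x.2.2.2).prod := by
  simp only [Cert.invChk, Bool.and_eq_true, Nat.beq_eq, Nat.blt_eq, cntLt_eq, Nat.ble_eq] at h
  obtain ⟨⟨⟨⟨h1, h2⟩, h3⟩, h4⟩, h5⟩ := h
  have h6 := R.fix_sgN (two_ne_of_odd hF) h1
  have h7 := rel3_of_inj (R.adj_inj F)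
  have h8 := hp_inj_of_ker h7 hk
  refine ⟨orderOf_eq_prime (by rw [sq, hp_mul h7, sgN_sq]; exact map_one (hpHom h7)) fun e => ?_, h6 ▸ h3, ?_⟩
  · rw [h8 (e.trans (map_one (hpHom h7)).symm), map_one] at h6
    rw [← h6] at h3
    simp [Set.ncard_univ] at h3; omega
  · rw [card_cent_hp h7 h8 (R.adj_gen F), h6, PA_chk (h6 ▸ cong_fix (isOfFinOrder_of_finite _)) h5, Nat.card_eq_fintype_card, ← h2]
    simp only [pos_iff_le]; rfl

omit hF in
theorem RS.ncard_of_isConj {c c' : I D → Fˣ} (h : IsConj ((R.adj F).hp c) ((R.adj F).hp c')) :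
    {r | R.cv' (R.tau F c) r = 1}.ncard = {r | R.cv' (R.tau F c') r = 1}.ncard := by
  obtain ⟨g, hg⟩ := isConj_iff.1 h
  have h7 := rel3_of_inj (R.adj_inj F)
  obtain ⟨-, -, m, -, w, hw, -, rfl⟩ := conj_hp_eq h7 (hp_inj_of_ker h7 hk) (R.adj_gen F) hg
  simp only [← fun r => hw.cv'_eq (χ := R.tau F c) (χ' := R.tau F _) (diag_hp c) (diag_hp _) (hw.conj_wc h7 c) r]
  exact Set.ncard_preimage_of_injective_subset_range (f := (w • · : Φ D → Φ D)) (s := {r | R.cv' (R.tau F (R.wc w c)) r = 1})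
    (MulAction.injective _) (by rw [(MulAction.surjective _).range_eq]; simp)

omit hk in
theorem RS.invol_conj (hR : R.Good) (hk : (R.tau (AlgebraicClosure F)).ker = ⊥) {x₁ x₂ : ℕ} {t : List (ℕ × ℕ × ℕ)}
    (h : R.toCert.sgChk D.rank x₁ x₂ t = true) {u : D.group F} (hu : orderOf u = 2) :
    IsConj u ((R.adj F).hp (sgN D F x₁)) ∨ IsConj u ((R.adj F).hp (sgN D F x₂)) := by
  obtain ⟨p, hp⟩ := CharP.exists F
  obtain ⟨n, h1, h2⟩ := FiniteField.card F p
  haveI := Fact.mk h1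
  let L := algAd (AlgebraicClosure F) hR hk h2
  have hs : L.SC := fun g _ e => R.adj_inj _ (by rw [map_one]; exact congrArg Subtype.val e)
  obtain ⟨w, X, c, rfl⟩ := hs.exists_f (g := u) (hu ▸ (Nat.coprime_primes Nat.prime_two h1).2 fun e => by
    rw [h2, ← e] at hF; exact absurd hF (by simp [Nat.odd_pow_iff n.ne_zero]))
  rw [hs.orderOf_f] at hu
  let X₁ : L.Tor 1 := ⟨1, by simp, by simpa using lift_one⟩
  have h3 : ∀ x, ∃ c : L.tA 1, c.1 = sgN D _ x ∧ X₁.f c = (R.adj F).hp (sgN D F x) := fun x =>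
    ⟨⟨sgN D _ x, (L.mem_tA' (q := Fintype.card F) fun _ _ => h2 ▸ rfl).2 (by
      obtain ⟨k, hk⟩ := hF
      rw [wc_one, hk, pow_succ, pow_mul, sq, sgN_sq, one_pow, one_mul])⟩, rfl, L.jinj (by
        rw [X₁.j_f]
        refine Eq.trans ?_ (bc_hp (R.bc_x _) _).symm
        rw [show X₁.x = 1 from rfl, one_mul, _root_.inv_one, mul_one, L.π_hp]
        exact congrArg (R.adj _).hp (funext fun i => by simp [sgN]))⟩
  obtain ⟨v, hv⟩ := R.orb_chk h (c := c.1) (by rw [← sq, ← hu, pow_orderOf_eq_one]) fun e => by simp [e] at hu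
  refine hv.imp (fun e => ?_) fun e => ?_
  · obtain ⟨d, e1, e2⟩ := h3 x₁
    exact e2 ▸ (hs.isConj_f X X₁).2 ⟨v, e.trans e1.symm⟩
  · obtain ⟨d, e1, e2⟩ := h3 x₂
    exact e2 ▸ (hs.isConj_f X X₁).2 ⟨v, e.trans e1.symm⟩
end

end Cfsg.Agent.H5
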