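import Cfsg.Agent.H5.AutC

/-! `Out(B₂(2^f))` is cyclic of order `2 f`. -/

set_option autoImplicit false

namespace Cfsg.Agent.H5

open Cfsg.Lie StN StG RS

/-- transport of the outer automorphism group along an isomorphism -/
noncomputable def outCongr {G H : Type*} [Group G] [Group H] (e : G ≃* H) : Out G ≃* Out H :=
  QuotientGroup.congr (Inn G) (Inn H) (MulAut.congr e) (by
    ext φ
    constructor
    · rintro ⟨_, ⟨g, rfl⟩, rfl⟩
      exact ⟨e g, by ext x; simp⟩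
    · rintro ⟨g, rfl⟩
      exact ⟨MulAut.conj (e.symm g), ⟨_, rfl⟩, by ext x; simp⟩)

variable {D : ChevalleyDatum} {F : Type*} [Field F] [Fintype F]

theorem RS.out_cyclic {R : RS D} (hR : R.Good) (Y : R.Sym) {p f : ℕ} [Fact p.Prime] [CharP F p] (hf : 1 ≤ f)
    (hF : Fintype.card F = p ^ f) {π : ℕ → ℕ} (e : ℕ → ℕ) (hρ : ∀ r, (Y.ρ r : ℕ) = π r)
    (h4 : R.toCert.excChk D.nroots p π e = true)
    (he : ∀ r : Φ D, (e r = 1 ∨ e r = p) ∧ e (R.neg r) = e r ∧ e r * e (Y.ρ r) = p ∧ Y.ρ (Y.ρ r) = r)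
    (i : I D) (hi : Y.ρ₀ i ≠ i) (hc : Nat.card (Out (D.group F)) = 2 * f) : IsCyclic (Out (D.group F)) := by
  obtain ⟨α, hα⟩ := exists_excAut hR Y p (CharP.cast_eq_zero F p) (surjective_frobenius F p) e hρ h4
    fun r => ⟨(he r).1, (he r).2.1⟩
  let γ : MulAut (D.group F) := α
  have hγ : ∀ r t, γ ((R.adj F).x r t) = (R.adj F).x (Y.ρ r) (t ^ e r) := hα
  have h0 : γ ∈ (R.adj F).A0 (MonoidHom.id _) := mem_A0_of_sym Y fun r t => ⟨_, hγ r t⟩
  have h2 : ∀ m r t, (γ ^ (2 * m)) ((R.adj F).x r t) = (R.adj F).x r (t ^ p ^ m) := by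
    intro m
    induction m with
    | zero => simp
    | succ m ih =>
      intro r t
      rw [mul_add, pow_add, mul_one, pow_two, MulAut.mul_apply, MulAut.mul_apply, hγ, hγ, ih, (he r).2.2.2, ← pow_mul,
        ← pow_mul, ← mul_assoc, (he r).2.2.1, pow_succ']
  have hpos : 0 < Nat.card (Out (D.group F)) := by omega
  haveI := Nat.finite_of_card_ne_zero hpos.ne'
  set o := QuotientGroup.mk' (Inn (D.group F)) γ
  refine isCyclic_of_orderOf_eq_card o (le_antisymm (orderOf_le_card) ?_)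
  have h1 : QuotientGroup.mk' (Inn (D.group F)) (γ ^ orderOf o) = 1 := by rw [map_pow, pow_orderOf_eq_one]
  obtain ⟨g, hg⟩ := (QuotientGroup.eq_one_iff (N := Inn _) _).1 h1
  have h3 : g ∈ (R.adj F).H := (R.reAdj F).conj_mem_A0.1 (hg ▸ pow_mem h0 _)
  obtain ⟨χ, -, hχ⟩ := exists_diag h3
  have h5 : ∀ t, (γ ^ orderOf o) ((R.adj F).x (R.sim i) t) = (R.adj F).x (R.sim i) (R.cv' χ (R.sim i) * t) := fun t => by
    rw [← hg, MulAut.conj_apply, hχ]
  have hk := orderOf_pos o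
  obtain ⟨m, hm | hm⟩ := Nat.even_or_odd' (orderOf o)
  · rw [hm] at h5 hk
    have h6 : ∀ t : F, t ^ p ^ m = R.cv' χ (R.sim i) * t := fun t =>
      x_inj (S := R.adj F) (congrArg (R.adj F).π ((h2 m _ t).symm.trans (h5 t)))
    have h7 : ((R.cv' χ (R.sim i) : Fˣ) : F) = 1 := by simpa using (h6 1).symm
    have hp := (Fact.out : p.Prime).one_lt
    have hpm : 1 < p ^ m := Nat.one_lt_pow (by omega) hp
    have h8 := (FiniteField.forall_pow_eq_one_iff F (p ^ m - 1)).1 fun x => by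
      have := h6 x
      rw [h7, one_mul, ← Nat.sub_add_cancel hpm.le, pow_succ, mul_eq_right₀ x.ne_zero] at this
      exact Units.ext (by simpa using this)
    have h9 := Nat.le_of_dvd (by omega) h8
    rw [hF] at h9
    have h10 : p ^ f ≤ p ^ m := by omega
    have := (Nat.pow_le_pow_iff_right hp).1 h10
    omega
  · exfalso
    have h6 := h5 1
    rw [hm, pow_succ, MulAut.mul_apply, hγ, h2, one_pow, one_pow, Y.sim, mul_one] at h6
    have := x_sim_not_mem (h6 ▸ x_mem (S := (R.adj F).toStG) (T := {r | R.Pos r ∧ r ≠ R.sim i})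
      (And.intro (R.pos_sim _) fun e => hi (R.sim_inj e)) _)
    exact Units.ne_zero _ this

theorem outB2 {f : ℕ} (hf : 1 ≤ f) (hF : Fintype.card F = 2 ^ f) :
    IsCyclic (Out (chevB2.group F)) ∧ Nat.card (Out (chevB2.group F)) = 2 * f := by
  haveI := charP_of_card Nat.prime_two hF
  have hc : Nat.card (Out (chevB2.group F)) = 2 * f := by
    rw [(hypB2 F).card_out (0 : Fin 2), rangeB2, kerB2.card F, (ringAut_card F hF).1, ringChar.eq F 2, Nat.card_eq_fintype_card, hF]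
    have : Nat.gcd 2 (2 ^ f - 1) = 1 := by
      obtain ⟨k, rfl⟩ : ∃ k, f = k + 1 := ⟨f - 1, by omega⟩
      have := Nat.one_le_two_pow (n := k)
      exact (Nat.coprime_two_left.2 ⟨2 ^ k - 1, by omega⟩)
    simp [this]
  exact ⟨out_cyclic goodB2 symB2 hf hF expB2 (fun _ => rfl) excB2 expB2_cases (0 : Fin 2)
    ((by decide +kernel : ∀ i, symB2.ρ₀ i ≠ i) _) hc, hc⟩

end Cfsg.Agent.H5
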