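import Cfsg.Agent.H5.OutB

/-! The outer automorphism group of `D₄(q)`. -/

set_option autoImplicit false

namespace Cfsg.Agent.H5

open Cfsg.Lie StN StG RS

namespace OutD

/-- the symmetries of the diagram `D₄` -/
def iD4 : Equiv.Perm (Fin 3) →* Equiv.Perm (Fin 4) :=
  Equiv.Perm.extendDomainHom (finSuccAboveEquiv (1 : Fin 4))

/-- the symmetries of the diagram `D₄` -/
def iD : Equiv.Perm (Fin 3) →* Equiv.Perm (I chevD4) := iD4

theorem iD_inj : Function.Injective iD :=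
  (Equiv.Perm.extendDomainHom_injective (finSuccAboveEquiv (1 : Fin 4)) : Function.Injective iD4)

theorem iD_mem : ∀ σ, iD σ ∈ [1, symD4_0132.ρ₀, symD4_2103.ρ₀, symD4_2130.ρ₀, symD4_3102.ρ₀, symD4_3120.ρ₀] := by
  decide +kernel

theorem iD_surj : ∀ π ∈ [1, symD4_0132.ρ₀, symD4_2103.ρ₀, symD4_2130.ρ₀, symD4_3102.ρ₀, symD4_3120.ρ₀], ∃ σ, iD σ = π := by
  decide +kernel

theorem iD_move : ∀ σ, σ ≠ 1 → ∃ i k, (∀ l, 2 ∣ rsD4.car l (rsD4.sim i) + rsD4.car l (rsD4.sim k)) ∧ k ≠ i ∧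
    (iD σ)⁻¹ i ≠ i ∧ (iD σ)⁻¹ k ≠ i := by
  decide +kernel

variable (F : Type*) [Field F] [Finite F]

omit [Finite F] in
theorem char_iff : ringChar F = 2 ↔ (2 : F) = 0 :=
  ⟨fun h => by exact_mod_cast (ringChar.spec F 2).2 (h ▸ dvd_rfl),
    fun h => CharP.ringChar_of_prime_eq_zero Nat.prime_two (by exact_mod_cast h)⟩

omit [Finite F] in
theorem sq_units {u : Fˣ} (h : IsSquare (u : F)) : ∃ v : Fˣ, u = v * v := by
  obtain ⟨v, hv⟩ := h
  exact ⟨Units.mk0 v fun e => u.ne_zero (by rw [hv, e, mul_zero]), Units.ext hv⟩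

theorem sq_map (τ : F ≃+* F) (u : Fˣ) : IsSquare (τ u * (u : F)⁻¹) := by
  cases nonempty_fintype F
  by_cases h : ringChar F = 2
  · exact FiniteField.isSquare_of_char_two h _
  rw [FiniteField.isSquare_iff h (by simp), mul_pow, ← map_pow, inv_pow]
  rcases FiniteField.pow_dichotomy h u.ne_zero with h | h <;> simp [h]

theorem exists_gr (σ : Equiv.Perm (Fin 3)) : ∃ g : MulAut (chevD4.group F), g ∈ (rsD4.adj F).A0 (MonoidHom.id _) ∧
    (rsD4.adj F).Simp g (iD σ) 1 fun _ t => t := by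
  have : iD σ ∈ (rsD4.reAdj F).psi.range := by
    have h := iD_mem σ
    simp only [List.mem_cons, List.not_mem_nil, or_false] at h
    rcases h with h | h | h | h | h | h <;> rw [h]
    exacts [one_mem _, graph_mem F goodD4 _ _ grD4_0132_π, graph_mem F goodD4 _ _ grD4_2103_π,
        graph_mem F goodD4 _ _ grD4_2130_π, graph_mem F goodD4 _ _ grD4_3102_π, graph_mem F goodD4 _ _ grD4_3120_π]
  obtain ⟨θ, hθ⟩ := this
  obtain ⟨χ, τ, h⟩ := (hypD4 F).decomp θ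
  refine ⟨_, mul_mem (mul_mem (inv_mem (diagAut_mem goodD4 χ)) θ.2) (inv_mem (fieldAut_mem goodD4 τ)), ?_⟩
  rw [hθ] at h
  simp only [graphExp_D4, pow_one] at h
  exact h

/-- graph automorphisms -/
noncomputable def gr : Equiv.Perm (Fin 3) →* MulAut (chevD4.group F) := MonoidHom.mk' (fun σ => (exists_gr F σ).choose) fun σ σ' =>
  (exists_gr F (σ * σ')).choose_spec.2.ext (rsD4.adj_gen F) fun i t => by
    simp [((exists_gr F σ).choose_spec.2 _ _).1, ((exists_gr F σ).choose_spec.2 _ _).2,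
      ((exists_gr F σ').choose_spec.2 _ _).1, ((exists_gr F σ').choose_spec.2 _ _).2]

theorem gr_mem (σ : Equiv.Perm (Fin 3)) : gr F σ ∈ (rsD4.adj F).A0 (MonoidHom.id _) := (exists_gr F σ).choose_spec.1
theorem gr_simp (σ : Equiv.Perm (Fin 3)) : (rsD4.adj F).Simp (gr F σ) (iD σ) 1 fun _ t => t := (exists_gr F σ).choose_spec.2
theorem gr_x (σ : Equiv.Perm (Fin 3)) (i : I chevD4) (t : F) :
    gr F σ ((rsD4.adj F).x (rsD4.sim i) t) = (rsD4.adj F).x (rsD4.sim (iD σ i)) t := by simpa using (gr_simp F σ i t).1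
theorem gr_y (σ : Equiv.Perm (Fin 3)) (i : I chevD4) (t : F) :
    gr F σ ((rsD4.adj F).x (rsD4.neg (rsD4.sim i)) t) = (rsD4.adj F).x (rsD4.neg (rsD4.sim (iD σ i))) t := by
  simpa using (gr_simp F σ i t).2

local notation "dg" => diagHom F goodD4
local notation "fd" => fieldHom F goodD4
local notation "mk" => QuotientGroup.mk' (Inn (chevD4.group F))

theorem gr_dg (σ : Equiv.Perm (Fin 3)) (χ : Ch chevD4 F) :
    gr F σ * dg χ = dg (chOf fun i => rsD4.cv' χ (rsD4.sim ((iD σ)⁻¹ i))) * gr F σ := by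
  refine MulEquiv.toMonoidHom_injective (hom_ext_sim (rsD4.adj_gen F) (fun i t => ?_) fun i t => ?_)
  all_goals simp [diagHom_x, gr_x, gr_y, rsD4.cv'_neg]

theorem gr_fd (σ : Equiv.Perm (Fin 3)) (τ : F ≃+* F) : gr F σ * fd τ = fd τ * gr F σ := by
  refine MulEquiv.toMonoidHom_injective (hom_ext_sim (rsD4.adj_gen F) (fun i t => ?_) fun i t => ?_)
  all_goals simp [fieldHom_x, gr_x, gr_y]

theorem fd_dg (τ : F ≃+* F) (χ : Ch chevD4 F) :
    fd τ * dg χ = dg (chOf fun i => Units.map (τ : F →* F) (rsD4.cv' χ (rsD4.sim i))) * fd τ := by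
  refine MulEquiv.toMonoidHom_injective (hom_ext_sim (rsD4.adj_gen F) (fun i t => ?_) fun i t => ?_)
  all_goals simp [diagHom_x, fieldHom_x, rsD4.cv'_neg]

theorem surj (y : Out (chevD4.group F)) : ∃ χ σ τ, y = mk (dg χ * gr F σ * fd τ) := by
  obtain ⟨θ, rfl⟩ := QuotientGroup.mk'_surjective _ y
  obtain ⟨g, hg⟩ := (rsD4.reAdj F).exists_adjust θ
  obtain ⟨χ, τ, h⟩ := (hypD4 F).decomp ⟨_, hg⟩
  obtain ⟨σ, hσ⟩ := iD_surj _ (symD4_cases ((hypD4 F).sym ⟨_, hg⟩))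
  rw [← hσ] at h
  simp only [graphExp_D4, pow_one] at h
  have h1 := h.ext (rsD4.adj_gen F) (gr_simp F σ)
  rw [mul_inv_eq_iff_eq_mul, inv_mul_eq_iff_eq_mul, ← mul_assoc] at h1
  refine ⟨χ, σ, τ, ?_⟩
  rw [← h1, map_mul, show mk (MulAut.conj g) = 1 from (QuotientGroup.eq_one_iff (N := Inn _) _).2 ⟨g, rfl⟩, one_mul]

theorem inner {χ : Ch chevD4 F} {σ : Equiv.Perm (Fin 3)} {τ : F ≃+* F} (h : mk (dg χ * gr F σ * fd τ) = 1) :
    σ = 1 ∧ τ = 1 ∧ ∃ c, χ = rsD4.tau F c := by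
  obtain ⟨g, hg⟩ := (QuotientGroup.eq_one_iff (N := Inn _) _).1 h
  have h3 : g ∈ (rsD4.adj F).H := (rsD4.reAdj F).conj_mem_A0.1
    (hg ▸ mul_mem (mul_mem (diagAut_mem goodD4 χ) (gr_mem F σ)) (fieldAut_mem goodD4 τ))
  obtain ⟨c, -, hc⟩ := exists_diag_hp h3
  rw [← tau_apply] at hc
  have h1 : (rsD4.adj F).Simp (MulAut.conj g) 1 (fun i => rsD4.cv' (rsD4.tau F c) (rsD4.sim i)) fun _ t => t := fun i t => by
    simp [hc, rsD4.cv'_neg]
  have h2 : (rsD4.adj F).Simp (MulAut.conj g) (iD σ) (fun i => rsD4.cv' χ (rsD4.sim (iD σ i))) fun _ t => τ t := fun i t => by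
    rw [hg]
    simp [diagHom_x, fieldHom_x, gr_x, gr_y, rsD4.cv'_neg]
  obtain ⟨e1, e2, e3⟩ := h1.unique h2 (fun _ => rfl) fun _ => map_one τ
  refine ⟨iD_inj (by rw [← e1, map_one]), RingEquiv.ext fun t => (congrFun (congrFun e3 (0 : Fin 4)) t).symm, c,
    rsD4.ch_ext' fun i => ?_⟩
  rw [← e1] at e2
  exact (congrFun e2 i).symm

theorem dg_tau (c : I chevD4 → Fˣ) : mk (dg (rsD4.tau F c)) = 1 :=
  (QuotientGroup.eq_one_iff (N := Inn _) _).2 ⟨(rsD4.adj F).hp c, MulEquiv.toMonoidHom_injective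
    (hom_ext (rsD4.adj_gen F) fun r t => by simp [diagHom_x, (diag_hp (S := rsD4.adj F) c).2, tau_apply])⟩

def M2 (j i : ℕ) : ℤ := (([[2, 2, 1, 1], [2, 4, 2, 2], [1, 2, 2, 1], [1, 2, 1, 2]] : List (List ℤ)).getD j []).getD i 0

theorem dg_sq {χ : Ch chevD4 F} (h : ∀ i, IsSquare (rsD4.cv' χ (rsD4.sim i) : F)) : mk (dg χ) = 1 := by
  choose a ha using fun i => sq_units F (h i)
  have : χ = rsD4.tau F fun i => ∏ j, a j ^ M2 j i := rsD4.ch_ext' fun k => by
    rw [cv'_tau, ← prod_zpow_sum]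
    have : ∀ j k : I chevD4, ∑ i : I chevD4, M2 j i * rsD4.car i (rsD4.sim k) = if j = k then 2 else 0 := by decide +kernel
    simp [this, ha, sq]
  rw [this, dg_tau]

/-- diagonal and graph automorphisms -/
def K : Subgroup (Out (chevD4.group F)) where
  carrier := {y | ∃ χ σ, y = mk (dg χ * gr F σ)}
  one_mem' := ⟨1, 1, by simp⟩
  mul_mem' := by
    rintro _ _ ⟨χ, σ, rfl⟩ ⟨χ', σ', rfl⟩
    exact ⟨_, σ * σ', by rw [← map_mul, mul_assoc, ← mul_assoc (gr F σ), gr_dg, mul_assoc, ← map_mul, ← mul_assoc, ← map_mul]⟩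
  inv_mem' := by
    rintro _ ⟨χ, σ, rfl⟩
    exact ⟨_, σ⁻¹, by rw [← map_inv, mul_inv_rev, ← map_inv, ← map_inv, gr_dg]⟩

theorem comm (k : K F) (τ : F ≃+* F) : Commute ((K F).subtype k) (((mk).comp fd) τ) := by
  obtain ⟨_, χ, σ, rfl⟩ := k
  have h1 : mk (dg (chOf fun i => Units.map (τ : F →* F) (rsD4.cv' χ (rsD4.sim i)))) = mk (dg χ) := by
    rw [← mul_inv_eq_one, ← map_inv, ← map_mul, ← map_inv, ← map_mul]
    refine dg_sq F fun i => ?_
    simpa using sq_map F τ (rsD4.cv' χ (rsD4.sim i))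
  show mk _ * mk _ = mk _ * mk _
  rw [← map_mul, ← map_mul, mul_assoc, gr_fd, ← mul_assoc (fd τ), fd_dg, map_mul, map_mul, map_mul, map_mul, h1, mul_assoc]

theorem prod : Nonempty (Out (chevD4.group F) ≃* K F × (F ≃+* F)) := by
  refine ⟨(MulEquiv.ofBijective ((K F).subtype.noncommCoprod ((mk).comp fd) (comm F)) ⟨?_, fun y => ?_⟩).symm⟩
  · rw [injective_iff_map_eq_one]
    rintro ⟨⟨_, χ, σ, rfl⟩, τ⟩ h
    have h1 : mk (dg χ * gr F σ * fd τ) = 1 := by rw [map_mul]; exact h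
    obtain ⟨-, rfl, -⟩ := inner F h1
    rw [map_one, mul_one] at h1
    exact Prod.ext (Subtype.ext h1) rfl
  · obtain ⟨χ, σ, τ, rfl⟩ := surj F y
    exact ⟨(⟨_, χ, σ, rfl⟩, τ), by rw [map_mul (mk) (dg χ * gr F σ)]; rfl⟩

/-- graph automorphisms in `K` -/
noncomputable def s : Equiv.Perm (Fin 3) →* K F := ((mk).comp (gr F)).codRestrict _ fun σ => ⟨1, σ, by simp⟩

theorem s_inj : Function.Injective (s F) := (injective_iff_map_eq_one _).2 fun σ h =>
  (inner F (χ := 1) (τ := 1) (by rw [map_one, map_one, one_mul, mul_one]; exact congrArg Subtype.val h)).1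

theorem K_two (h2 : (2 : F) = 0) : Nonempty (K F ≃* Equiv.Perm (Fin 3)) := by
  refine ⟨(MulEquiv.ofBijective (s F) ⟨s_inj F, ?_⟩).symm⟩
  rintro ⟨_, χ, σ, rfl⟩
  refine ⟨σ, Subtype.ext ?_⟩
  show _ = mk (dg χ * gr F σ)
  rw [map_mul, dg_sq F fun i => FiniteField.isSquare_of_char_two ((char_iff F).2 h2) _, one_mul]
  rfl

theorem core (h2 : (2 : F) ≠ 0) : (s F).range.normalCore = ⊥ := by
  rw [eq_bot_iff]
  intro x hx
  obtain ⟨σ, rfl⟩ := (s F).range.normalCore_le hx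
  by_contra hne
  obtain ⟨i, k, h1, h3, h4, h5⟩ := iD_move σ fun e => hne (by rw [e, map_one]; exact one_mem _)
  obtain ⟨u, hu⟩ := FiniteField.exists_nonsquare (mt (char_iff F).1 h2)
  lift u to Fˣ using Ne.isUnit fun e => hu (e ▸ IsSquare.zero)
  let χ : Ch chevD4 F := chOf (Pi.mulSingle i u)
  obtain ⟨σ', h6⟩ := hx ⟨mk (dg χ), χ, 1, by simp⟩
  have h7 : mk (gr F σ') = mk (dg χ) * mk (gr F σ) * (mk (dg χ))⁻¹ := congrArg Subtype.val h6
  rw [← map_inv, ← map_inv, mul_assoc, ← map_mul, gr_dg, ← map_mul, ← mul_assoc, ← map_mul, eq_comm, ← mul_inv_eq_one,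
    ← map_inv (mk), ← map_mul, ← map_inv (gr F), mul_assoc, ← map_mul] at h7
  obtain ⟨-, -, c, hc⟩ := inner F (τ := 1) ((congrArg (mk) (by rw [map_one fd, mul_one])).trans h7)
  have e1 := congrArg (rsD4.cv' · (rsD4.sim i)) hc
  have e2 := congrArg (rsD4.cv' · (rsD4.sim k)) hc
  simp only [cv'_mul, cv'_inv, cv'_chOf_sim, χ, cv'_tau, Pi.mulSingle_eq_same, Pi.mulSingle_eq_of_ne h3,
    Pi.mulSingle_eq_of_ne h4, Pi.mulSingle_eq_of_ne h5, _root_.inv_one, mul_one] at e1 e2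
  choose m hm using h1
  have : u = (∏ l, c l ^ m l) * ∏ l, c l ^ m l := by
    rw [(mul_one u).symm.trans (congrArg₂ (· * ·) e1 e2), ← Finset.prod_mul_distrib, ← Finset.prod_mul_distrib]
    exact Finset.prod_congr rfl fun l _ => by rw [← zpow_add, ← zpow_add, hm, two_mul]
  exact hu ⟨_, congrArg Units.val this⟩

theorem K_odd (h2 : (2 : F) ≠ 0) : Nonempty (K F ≃* Equiv.Perm (Fin 4)) := by
  cases nonempty_fintype F
  have hc : Nat.card (K F) = 24 := by
    obtain ⟨e⟩ := prod F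
    have h1 := Nat.card_congr e.toEquiv
    have h3 : Nat.gcd 2 (Nat.card F - 1) = 2 := by
      have := FiniteField.odd_card_of_char_ne_two (F := F) (mt (char_iff F).1 h2)
      rw [Nat.card_eq_fintype_card]
      exact Nat.gcd_eq_left (by omega)
    rw [(hypD4 F).card_out (0 : Fin 4), (rangeD4 F).1, kerD4.card F, h3, Nat.card_prod] at h1
    exact (Nat.eq_of_mul_eq_mul_right Nat.card_pos h1).symm
  haveI : Finite (K F) := Nat.finite_of_card_ne_zero (by omega)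
  have h4 : Nat.card (K F ⧸ (s F).range) = 4 := by
    have := Subgroup.card_eq_card_quotient_mul_card_subgroup (s F).range
    rw [hc, ← Nat.card_congr (MonoidHom.ofInjective (s_inj F)).toEquiv, Nat.card_perm] at this
    simp [Nat.factorial] at this
    omega
  have h5 : Function.Injective (MulAction.toPermHom (K F) (K F ⧸ (s F).range)) := by
    rw [← MonoidHom.ker_eq_bot_iff, ← Subgroup.normalCore_eq_ker, core F h2]
  exact ⟨(MulEquiv.ofBijective _ (h5.bijective_of_nat_card_le (by rw [hc, Nat.card_perm, h4]; rfl))).trans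
    (Finite.equivFinOfCardEq h4).permCongrHom⟩

end OutD

end Cfsg.Agent.H5
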