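import Cfsg.Agent.H5.OutE

/-! The inner-diagonal automorphisms of `PΩ₈⁺(q)` form a normal subgroup of the automorphism group. -/

set_option autoImplicit false

namespace Cfsg.Agent.H5

open Cfsg.Lie StN StG RS H4 H4.CForm H4.Gam Module

namespace OutE

variable {F : Type*} [Field F] [Fintype F] {S : Type*} [Group S] (h : (plusF F 4).Good2) (C : Carr S (plusF F 4).E)

theorem card_dg (h2 : (2 : F) ≠ 0) :
    4 ≤ Nat.card ((QuotientGroup.mk' (Inn (chevD4.group F))).comp (diagHom F goodD4)).range := by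
  obtain ⟨e⟩ := OutD.K_odd F h2
  have hc : Nat.card (OutD.K F) = 24 := by rw [Nat.card_congr e.toEquiv, Nat.card_perm]; simp [Nat.factorial]
  haveI : Finite (OutD.K F) := Nat.finite_of_card_ne_zero (by omega)
  have h1 : ((QuotientGroup.mk' (Inn (chevD4.group F))).comp (diagHom F goodD4)).range ≤ OutD.K F := by
    rintro _ ⟨χ, rfl⟩; exact ⟨χ, 1, by simp⟩
  haveI := Finite.of_injective _ (Subgroup.inclusion_injective h1)
  have h3 := Nat.card_le_card_of_surjective (fun y : _ × Equiv.Perm (Fin 3) => Subgroup.inclusion h1 y.1 * OutD.s F y.2) (by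
    rintro ⟨_, χ, σ, rfl⟩
    exact ⟨(⟨_, χ, rfl⟩, σ), Subtype.ext (map_mul (QuotientGroup.mk' (Inn (chevD4.group F))) _ _).symm⟩)
  have h4 : Nat.card (Equiv.Perm (Fin 3)) = 6 := by rw [Nat.card_perm]; simp [Nat.factorial]
  rw [hc, Nat.card_prod, h4] at h3
  omega

theorem normal [Nontrivial (S ⧸ Subgroup.center S)] (hd h5) :
    ((h.mdl C).im (((plusF_nondeg 4).SimP (m := 4) hd h5).map lin)).Normal := by
  have hn := plusF_nondeg (F := F) 4
  by_cases h2 : (2 : F) = 0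
  · rw [hn.im_SimP_two hd h5 _ h2]; infer_instance
  obtain ⟨e, he⟩ := exists_iso C
  have h1 : Nat.card ((h.mdl C).κ (hn.SimP_le hd h5)).range = 4 := by
    rw [hn.range_SimP hd h5, hn.sg_eq_eps hd h5 h2, hn.card_eps_ker h5 _ h2 hd, hn.card_SO h5 _ h2 hd,
      if_pos ((plusF_neg_mem_E (odd_card_of_two_ne_zero h2) (by decide)).2 fun h => absurd h.1 (by decide))]
  haveI : Finite ((h.mdl C).κ (hn.SimP_le hd h5)).range := Nat.finite_of_card_ne_zero (by omega)
  have h3 := ((hypD4 F).out rfl rfl).1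
  rw [closure_diag goodD4, MonoidHom.map_range] at h3
  have h4 := h3.map (outCongr e).toMonoidHom (outCongr e).surjective
  have h8 : ((QuotientGroup.mk' (Inn (chevD4.group F))).comp (diagHom F goodD4)).range.map (outCongr e).toMonoidHom =
      ((h.mdl C).κ (hn.SimP_le hd h5)).range := by
    refine Subgroup.eq_of_le_of_card_ge ?_
      (by rw [h1, Subgroup.card_map_of_injective (f := (outCongr e).toMonoidHom) (outCongr e).injective]; exact card_dg h2)
    rintro _ ⟨_, ⟨χ, rfl⟩, rfl⟩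
    obtain ⟨g, h6, h7⟩ := exists_sim h C he χ
    refine ⟨⟨g.1, (hn.mem_SimP hd h5).2 ⟨g.2, ?_⟩⟩, congrArg QuotientGroup.mk h7⟩
    rw [hn.sg_eq_eps hd h5 h2]
    exact (hn.eps_eq_one h2 hd _).2 h6
  rw [h8] at h4
  convert h4.comap (QuotientGroup.mk' (Inn _)) using 1
  ext β
  constructor
  · rintro ⟨⟨_, ha⟩, ⟨g, hg, rfl⟩, rfl⟩
    exact ⟨⟨g, hg⟩, rfl⟩
  · rintro ⟨⟨g, hg⟩, h6⟩
    have h7 := (h.mdl C).Inn_le (hn.SimP_le hd h5) (hn.E_le_SimP hd h5) (QuotientGroup.eq.1 h6)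
    have h9 : (h.mdl C).Φ ⟨lin g, hn.SimP_le hd h5 hg⟩ ∈ (h.mdl C).im ((hn.SimP hd h5).map lin) := ⟨_, ⟨g, hg, rfl⟩, rfl⟩
    exact (Subgroup.mul_mem_cancel_left _ (inv_mem h9)).1 h7

end OutE

theorem om4_normal {F : Type*} [Field F] [Fintype F] (h7 hd h5) :
    ((omM (plusF_nondeg (F := F) 4) h7).im (((plusF_nondeg 4).SimP (m := 4) hd h5).map lin)).Normal := by
  haveI := StN.isSimpleGroup fullD4 ⟨0, by decide⟩ (rsD4.adj_gen F) (rsD4.adj_inj F) (StN.perfect1 good1D4 (rsD4.adj_gen F))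
  obtain ⟨e⟩ := pomegaD4 (F := F)
  haveI : Nontrivial (Omega F (plusF F 4).Q ⧸ Subgroup.center (Omega F (plusF F 4).Q)) := e.symm.toEquiv.nontrivial
  exact OutE.normal _ _ hd h5

end Cfsg.Agent.H5
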