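import Cfsg.Agent.H5.Coll
import Cfsg.Agent.H5.Stb
import Cfsg.Agent.H5.Types

/-! Linear representations of Steinberg groups checked by computation, and the identification of the central quotient. -/

set_option autoImplicit false

namespace Cfsg.Agent.H5

open Cfsg.Lie

abbrev Col := ℕ → ℕ → List (ℕ × ℤ × ℕ)

def appC (col : Col) (r : ℕ) (P : Poly) (v : List Term) : List Term :=
  v.flatMap fun t => (col r t.1).flatMap fun x => (ppow P x.2.2).map fun y => (x.1, mmul y.2 t.2.1, x.2.1 * y.1 * t.2.2)

def appCW (col : Col) (w : Word) (v : List Term) : List Term := w.foldr (fun a v => red 0 (appC col a.1 a.2 v)) v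

noncomputable def ceq (col : Col) (n : ℕ) (w w' : Word) : Bool :=
  allLt n fun k => eqv 0 (appCW col w [(k, [], 1)]) (appCW col w' [(k, [], 1)])

noncomputable def Cert.repChk (C : Cert) (col : Col) (n N : ℕ) : Bool :=
  allLt N fun r => ceq col n [(r, [(1, [1])]), (r, [(1, [0, 1])])] [(r, [(1, [1]), (1, [0, 1])])] &&
    allLt N fun s => s == r || s == C.ng r || ((C.commW 0 r s [(1, [1])] [(1, [0, 1])]).all (·.1 < N) &&
      ceq col n [(s, [(1, [0, 1])]), (r, [(1, [1])])]
        ((r, [(1, [1])]) :: (s, [(1, [0, 1])]) :: C.commW 0 r s [(1, [1])] [(1, [0, 1])]))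

variable {D : ChevalleyDatum} {F : Type*} [Field F]

section
variable {V : Type*} [AddCommGroup V] [Module F V] {bv : ℕ → V} {x : Φ D → F → (V ≃ₗ[F] V)} {col : Col}
  (hx : ∀ (r : Φ D) t k, x r t (bv k) = ((col r k).map fun c => ((c.2.1 : F) * t ^ c.2.2) • bv c.1).sum)
include hx

theorem appC_sound (r : Φ D) (P : Poly) (v : ℕ → F) (l : List Term) :
    x r (peval v P) (veval bv v l) = veval bv v (appC col r P l) := by
  induction l with
  | nil => simp [veval_nil, appC]
  | cons a l ih =>
    rw [veval_cons, map_add, ih, appC, appC, List.flatMap_cons, veval_append, map_smul, hx]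
    congr 1
    induction col r a.1 with
    | nil => simp [veval_nil]
    | cons x L ih =>
      rw [List.map_cons, List.sum_cons, smul_add, ih, List.flatMap_cons, veval_append, ← peval_ppow]
      congr 1
      induction ppow P x.2.2 with
      | nil => simp [veval_nil, peval]
      | cons y M ih =>
        rw [List.map_cons, veval_cons, ← ih, meval_mmul]
        simp only [peval, List.map_cons, List.sum_cons, smul_smul, ← add_smul]
        congr 1
        push_cast; ring

theorem appCW_sound (v : ℕ → F) {w : Word} (hw : ∀ a ∈ w, a.1 < D.nroots) (l : List Term) :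
    wev x v w (veval bv v l) = veval bv v (appCW col w l) := by
  induction w with
  | nil => simp [appCW]
  | cons a w ih =>
    rw [appCW, List.foldr_cons, ← appCW, veval_red _ _ Nat.cast_zero, wev_cons, LinearEquiv.mul_apply,
      ih fun b hb => hw b (List.mem_cons_of_mem _ hb), xN_of_lt _ (hw a List.mem_cons_self), appC_sound hx]

variable {n : ℕ} (hs : ∀ f g : V ≃ₗ[F] V, (∀ k < n, f (bv k) = g (bv k)) → f = g)
include hs

theorem ceq_sound (v : ℕ → F) {w w' : Word} (hw : ∀ a ∈ w, a.1 < D.nroots) (hw' : ∀ a ∈ w', a.1 < D.nroots)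
    (h : ceq col n w w' = true) : wev x v w = wev x v w' := hs _ _ fun k hk => by
  have e : bv k = veval bv v [(k, [], 1)] := by simp [veval, meval]
  rw [e, appCW_sound hx v hw, appCW_sound hx v hw']
  exact veval_eq_of_eqv _ _ Nat.cast_zero (allLt_iff.1 h k hk)

theorem RS.rel12_of_col (R : RS D) (h : R.toCert.repChk col n D.nroots = true) : R.Rel12 x := by
  have h' := fun r : Φ D => Bool.and_eq_true_iff.1 (allLt_iff.1 h r r.2)
  refine ⟨fun r t u => ?_, fun r s h1 h2 t u => ?_⟩
  · simpa [wev, peval, meval] using ceq_sound hx hs (fun i => if i = 0 then t else u) (by simp) (by simp) (h' r).1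
  · have h3 := allLt_iff.1 (h' r).2 s s.2
    simp only [Bool.or_eq_true, beq_iff_eq, Bool.and_eq_true, List.all_eq_true, decide_eq_true_eq] at h3
    rcases h3 with (h3 | h3) | h3
    · exact (h1 (Fin.ext h3)).elim
    · exact (h2 (Fin.ext h3)).elim
    have h4 := ceq_sound hx hs (fun i => if i = 0 then t else u) (by simp) (by simpa using h3.1) h3.2
    rw [wev_cons, wev_cons, wev_cons, wev_cons, R.wev_commW Nat.cast_zero] at h4
    simpa [peval, meval, mul_assoc] using h4

end

theorem RS.equiv_of_rel12 (R : RS D) (hR : R.Good) [IsSimpleGroup (D.group F)] (hp : commutator (D.SteinbergCover F) = ⊤)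
    {G : Type*} [Group G] {x : Φ D → F → G} (h : R.Rel12 x) {M : Subgroup G} (hM : M = Subgroup.closure {g | ∃ r t, g = x r t})
    (hne : M ≠ ⊥) : M ≤ ⁅M, M⁆ ∧ Nonempty (D.group F ≃* M ⧸ Subgroup.center M) := by
  have hr : (RS.scLift h).range = M := by
    rw [MonoidHom.range_eq_map, ← R.sc_gen F hR, StG.U, MonoidHom.map_closure, hM]
    congr 1; ext g; constructor
    · rintro ⟨_, ⟨r, -, t, rfl⟩, rfl⟩; exact ⟨r, t, RS.scLift_x hR h r t⟩
    · rintro ⟨r, t, rfl⟩; exact ⟨_, ⟨r, trivial, t, rfl⟩, RS.scLift_x hR h r t⟩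
  subst hr
  have hM : (RS.scLift h).range ≤ ⁅(RS.scLift h).range, (RS.scLift h).range⁆ := by
    rw [MonoidHom.range_eq_map, ← Subgroup.map_commutator, ← commutator_def, hp]
  let π := (R.sc F hR).toAdj (R.sc_gen F hR)
  have hπ : Function.Surjective π := StN.toAdj_surj _
  have hk : π.ker = Subgroup.center _ := StN.toAdj_ker _
  let ψ := (QuotientGroup.mk' (Subgroup.center (RS.scLift h).range)).comp (RS.scLift h).rangeRestrict
  have hψ : Function.Surjective ψ := (QuotientGroup.mk'_surjective _).comp (RS.scLift h).rangeRestrict_surjective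
  have h1 : π.ker ≤ ψ.ker := fun z hz => by
    rw [hk, Subgroup.mem_center_iff] at hz
    refine (QuotientGroup.eq_one_iff _).2 (Subgroup.mem_center_iff.2 fun g => ?_)
    obtain ⟨g, rfl⟩ := (RS.scLift h).rangeRestrict_surjective g
    rw [← map_mul, hz, map_mul]
  have h2 : ψ.ker ≤ π.ker := by
    rcases (Subgroup.Normal.map inferInstance π hπ : (ψ.ker.map π).Normal).eq_bot_or_eq_top with h3 | h3
    · exact (Subgroup.map_eq_bot_iff _).1 h3
    refine (hne (eq_bot_iff.2 (hM.trans (Subgroup.commutator_le.2 fun a ha b hb => ?_)))).elim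
    obtain ⟨a, rfl⟩ := ha
    obtain ⟨n, hn, e⟩ : π a ∈ ψ.ker.map π := h3 ▸ Subgroup.mem_top _
    have h4 : ψ a = 1 := by
      rw [← mul_inv_cancel_left n a, map_mul, hn, one_mul]
      exact h1 (by rw [MonoidHom.mem_ker, map_mul, map_inv, e, inv_mul_cancel])
    have h5 := congrArg Subtype.val (Subgroup.mem_center_iff.1 ((QuotientGroup.eq_one_iff _).1 h4) ⟨b, hb⟩)
    exact commutatorElement_eq_one_iff_mul_comm.2 h5.symm
  exact ⟨hM, ⟨(QuotientGroup.quotientKerEquivOfSurjective π hπ).symm.trans
    ((QuotientGroup.quotientMulEquivOfEq (le_antisymm h1 h2)).trans (QuotientGroup.quotientKerEquivOfSurjective ψ hψ))⟩⟩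

end Cfsg.Agent.H5
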