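import Cfsg.Agent.H5.Rp2

/-! `B₂(F) ≅ PΩ₅(F)` in every characteristic. -/

set_option autoImplicit false

namespace Cfsg.Agent.H5

open Cfsg.Lie H4 H4.CForm

variable {F : Type*} [Field F]

def grO (i j : ℕ) : ℤ := 2 * dl 4 i * dl 4 j + grP 2 i j

variable (F) in
def bvO (k : ℕ) : Unit ⊕ (Fin 2 ⊕ Fin 2) → F := Sum.elim (fun _ => dl 4 k) (bvP F 2 k)

theorem oddB (u v : Unit ⊕ (Fin 2 ⊕ Fin 2) → F) : (oddF F 2).B u v = 2 * u (.inl ()) * v (.inl ()) +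
    (u (.inr (.inl 0)) * v (.inr (.inr 0)) + u (.inr (.inr 0)) * v (.inr (.inl 0)) +
      (u (.inr (.inl 1)) * v (.inr (.inr 1)) + u (.inr (.inr 1)) * v (.inr (.inl 1)))) := by
  rw [oddF_B, polar_odd, Fin.sum_univ_two]

theorem oddQ (u : Unit ⊕ (Fin 2 ⊕ Fin 2) → F) : (oddF F 2).Q u = u (.inl ()) ^ 2 +
    (u (.inr (.inl 0)) * u (.inr (.inr 0)) + u (.inr (.inl 1)) * u (.inr (.inr 1))) := by
  rw [oddF_Q, quadFormOdd, Fin.sum_univ_two]

theorem eq_smul_O {u : Unit ⊕ (Fin 2 ⊕ Fin 2) → F} (h0 : (oddF F 2).B u (bvO F 0) = 0) (h1 : (oddF F 2).B u (bvO F 1) = 0)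
    (h2 : (oddF F 2).B u (bvO F 2) = 0) (h3 : (oddF F 2).B u (bvO F 3) = 0) : u = u (.inl ()) • bvO F 4 := by
  simp [oddB, bvO, bvP, dl] at h0 h1 h2 h3
  ext i
  rcases i with i | i | i
  · simp [bvO, dl]
  all_goals fin_cases i <;> simp [bvO, bvP, dl, *]

theorem obB2 : OB (oddF F 2) 5 grO (dl 4) (bvO F) where
  hB i j := by simp [oddB, bvO, bvP, grO, grP]
  hQ i := by
    rw [oddQ]
    rcases i with _ | _ | _ | _ | _ | i <;> simp [bvO, bvP, dl]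
  span v := by
    obtain ⟨c, h⟩ := span_P 2 (v ∘ .inr)
    refine ⟨fun k => if k = 4 then v (.inl ()) else c k, funext fun i => ?_⟩
    rcases i with i | i
    · simp [Finset.sum_range_succ, bvO, dl]
    · have := congrFun h i
      rcases i with i | i <;> fin_cases i <;> simpa [Finset.sum_range_succ, bvO, bvP, dl] using this
  sing u hu h := by
    have e := eq_smul_O (h 0 (by decide) rfl) (h 1 (by decide) rfl) (h 2 (by decide) rfl) (h 3 (by decide) rfl)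
    rw [e, orth_Q_smul, oddQ] at hu
    rw [e, show u (.inl ()) = 0 by simpa [bvO, bvP, dl] using hu, zero_smul]

theorem commB2 : ⁅(oddF F 2).iso, (oddF F 2).iso⁆ ≤ (oddF F 2).E := obB2.comm_le fun g hg => by
  have hB := fun i j => (obB2 (F := F)).hB i j
  have hQ := fun i => (obB2 (F := F)).hQ i
  have ne : ∀ (g : (Unit ⊕ (Fin 2 ⊕ Fin 2) → F) ≃ₗ[F] (Unit ⊕ (Fin 2 ⊕ Fin 2) → F)) (k j : ℕ), grO k j = 1 → g (bvO F k) ≠ 0 := fun g k j e h => by
    simpa [(LinearEquiv.map_eq_zero_iff g).1 h, e] using hB k j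
  obtain ⟨z, h1, h2, h3⟩ : ∃ z, (oddF F 2).Q z = 0 ∧ (oddF F 2).B (g (bvO F 2)) z ≠ 0 ∧ (oddF F 2).B (bvO F 2) z = 1 := by
    by_contra! h
    have a0 := not_not.1 fun e => h (bvO F 0) (by simp [oddQ, bvO, bvP, dl]) e (by simp [oddB, bvO, bvP, dl])
    have a1 := not_not.1 fun e => h (bvO F 0 + bvO F 1) (by simp [oddQ, bvO, bvP, dl]) e (by simp [oddB, bvO, bvP, dl])
    have a3 := not_not.1 fun e => h (bvO F 0 + bvO F 3) (by simp [oddQ, bvO, bvP, dl]) e (by simp [oddB, bvO, bvP, dl])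
    have a2 := not_not.1 fun e => h (bvO F 0 + bvO F 2 + bvO F 1 - bvO F 3) (by simp [oddQ, bvO, bvP, dl]) e
      (by simp [oddB, bvO, bvP, dl])
    simp only [map_add, map_sub, a0, zero_add] at a1 a3 a2
    rw [a1, a3, add_zero, sub_zero] at a2
    refine ne g 2 0 (by decide) (obB2.sing _ (by rw [hg.2, hQ]; simp [dl]) fun a ha e => ?_)
    interval_cases a
    exacts [a0, a1, a2, a3, absurd e (by decide)]
  obtain ⟨m, hm, -, c, hc, h4, h5⟩ := step_pair hg (e := bvO F 0) (w := bvO F 2) (by simp [hQ, dl]) (by simp [hQ, dl])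
    (by rw [hB]; exact Int.cast_one) h1 h2 h3
  have hg' := mul_mem (E_le_iso hm) hg
  generalize e : m * g = g' at h4 h5 hg'
  have k0 : ∀ v, (oddF F 2).B (bvO F 0) v = 0 → (oddF F 2).B (bvO F 0) (g' v) = 0 := fun v hv => by
    rw [← hg'.1, h5] at hv; simpa [hc] using hv
  have k2 : ∀ v, (oddF F 2).B (bvO F 2) v = 0 → (oddF F 2).B (bvO F 2) (g' v) = 0 := fun v hv => by
    rw [← hg'.1, h4] at hv; simpa [hc] using hv
  have b : ∀ i j, grO i j = 0 → (oddF F 2).B (bvO F i) (bvO F j) = 0 := fun i j e => by rw [hB, e, Int.cast_zero]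
  obtain ⟨z, h1, h2, h3, h6, h7⟩ : ∃ z, (oddF F 2).Q z = 0 ∧ (oddF F 2).B (g' (bvO F 3)) z ≠ 0 ∧ (oddF F 2).B (bvO F 3) z = 1 ∧
      (oddF F 2).B (bvO F 0) z = 0 ∧ (oddF F 2).B (bvO F 2) z = 0 := by
    have a0 := (oddF F 2).B_zero_symm (k0 _ (b 0 3 (by decide)))
    have a2 := (oddF F 2).B_zero_symm (k2 _ (b 2 3 (by decide)))
    have hq : (oddF F 2).Q (g' (bvO F 3)) = 0 := by rw [hg'.2, hQ]; simp [dl]
    by_cases a1 : (oddF F 2).B (g' (bvO F 3)) (bvO F 1) = 0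
    · refine ⟨bvO F 1 - bvO F 3 + bvO F 4, by simp [oddQ, bvO, bvP, dl], fun a3 => ?_, by simp [oddB, bvO, bvP, dl],
        by simp [oddB, bvO, bvP, dl], by simp [oddB, bvO, bvP, dl]⟩
      refine ne g' 3 1 (by decide) ?_
      generalize g' (bvO F 3) = u at *
      simp [oddB, oddQ, bvO, bvP, dl] at a0 a1 a2 a3 hq
      simp [a0, a1] at hq
      ext i
      rcases i with i | i | i
      · exact hq
      all_goals fin_cases i <;> simp_all
    · exact ⟨bvO F 1, by simp [hQ, dl], a1, by rw [hB]; exact Int.cast_one, b 0 1 (by decide), b 2 1 (by decide)⟩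
  obtain ⟨m', hm', h8, c', hc', h9, h10⟩ := step_pair hg' (e := bvO F 1) (w := bvO F 3) (by simp [hQ, dl]) (by simp [hQ, dl])
    (by rw [hB]; exact Int.cast_one) h1 h2 h3
  have f0 := h8 _ h6 (b 0 1 (by decide)) (b 0 3 (by decide)) (k0 _ (b 0 1 (by decide))) (k0 _ (b 0 3 (by decide)))
  have f2 := h8 _ h7 (b 2 1 (by decide)) (b 2 3 (by decide)) (k2 _ (b 2 1 (by decide))) (k2 _ (b 2 3 (by decide)))
  have h11 : (m' * g') (bvO F 0) = c⁻¹ • bvO F 0 := by rw [LinearEquiv.mul_apply, h5, map_smul, f0]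
  have h12 : (m' * g') (bvO F 2) = c • bvO F 2 := by rw [LinearEquiv.mul_apply, h4, map_smul, f2]
  have k : ∀ (i : ℕ) (a : F), a ≠ 0 → grO 4 i = 0 → (m' * g') (bvO F i) = a • bvO F i →
      (oddF F 2).B ((m' * g') (bvO F 4)) (bvO F i) = 0 := fun i a ha e h => by
    have := (mul_mem (E_le_iso hm') hg').1 (bvO F 4) (bvO F i)
    rw [h, b _ _ e] at this
    simpa [ha] using this
  refine ⟨m' * m, mul_mem hm' hm, fun i hi => ?_⟩
  rw [mul_assoc, e]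
  interval_cases i
  exacts [⟨_, h11⟩, ⟨_, h10⟩, ⟨_, h12⟩, ⟨_, h9⟩, ⟨_, eq_smul_O (k 0 _ (inv_ne_zero hc) (by decide) h11)
    (k 1 _ (inv_ne_zero hc') (by decide) h10) (k 2 _ hc (by decide) h12) (k 3 _ hc' (by decide) h9)⟩]

theorem pomegaB2 (hF : ∃ a : F, a ≠ 0 ∧ a ≠ 1) : Nonempty (chevB2.group F ≃* POmega F (quadFormOdd 2 F)) :=
  haveI := StN.isSimpleGroup fullB2 ⟨0, by decide⟩ (rsB2.adj_gen F) (rsB2.adj_inj F) (StN.perfect2 good2B2 hF (rsB2.adj_gen F))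
  pomega_of obB2 (a := fun r => [2, 2, 3, 1, 0, 1, 0, 0].getD r 0) (b := fun r => [3, 4, 4, 2, 3, 4, 4, 1].getD r 0)
    (ε := fun r => [-1, -1, -1, 1, 1, 1, 1, 1].getD r 0) (by decide +kernel) rsB2 goodB2 (by decide +kernel)
    (StN.perfect2 good2B2 hF (rsB2.sc_gen F goodB2)) commB2 ⟨0, by decide⟩ (k := 1) (by decide) (by decide) (j := 0) (by decide)

end Cfsg.Agent.H5
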