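import Cfsg.Agent.H5.Rp3
import Cfsg.Agent.H4.Symp

/-! `B₂(F) ≅ PSp₄(F)`. -/

set_option autoImplicit false

namespace Cfsg.Agent.H5

open Cfsg.Lie H4 H4.CForm

variable {F : Type*} [Field F]

theorem RS.surj_of_rel12 {D : ChevalleyDatum} (R : RS D) (hR : R.Good)
    {G : Type*} [Group G] {x : Φ D → F → G} (h : R.Rel12 x) {M : Subgroup G} (hM : M = Subgroup.closure {g | ∃ r t, g = x r t}) :
    ∃ φ : D.group F →* M ⧸ Subgroup.center M, Function.Surjective φ := by
  have hr : (RS.scLift h).range = M := by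
    rw [MonoidHom.range_eq_map, ← R.sc_gen F hR, StG.U, MonoidHom.map_closure, hM]
    congr 1; ext g; constructor
    · rintro ⟨_, ⟨r, -, t, rfl⟩, rfl⟩; exact ⟨r, t, RS.scLift_x hR h r t⟩
    · rintro ⟨r, t, rfl⟩; exact ⟨_, ⟨r, trivial, t, rfl⟩, RS.scLift_x hR h r t⟩
  subst hr
  let π := (R.sc F hR).toAdj (R.sc_gen F hR)
  have hπ : Function.Surjective π := StN.toAdj_surj _
  have hk : π.ker = Subgroup.center _ := StN.toAdj_ker _
  let ψ := (QuotientGroup.mk' (Subgroup.center (RS.scLift h).range)).comp (RS.scLift h).rangeRestrict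
  have hψ : Function.Surjective ψ := (QuotientGroup.mk'_surjective _).comp (RS.scLift h).rangeRestrict_surjective
  have h1 : π.ker ≤ ψ.ker := fun z hz => by
    rw [hk, Subgroup.mem_center_iff] at hz
    refine (QuotientGroup.eq_one_iff _).2 (Subgroup.mem_center_iff.2 fun g => ?_)
    obtain ⟨g, rfl⟩ := (RS.scLift h).rangeRestrict_surjective g
    rw [← map_mul, hz, map_mul]
  refine ⟨(QuotientGroup.lift π.ker ψ h1).comp (QuotientGroup.quotientKerEquivOfSurjective π hπ).symm.toMonoidHom, ?_⟩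
  intro y
  obtain ⟨g, rfl⟩ := hψ y
  refine ⟨QuotientGroup.quotientKerEquivOfSurjective π hπ (QuotientGroup.mk g), ?_⟩
  rw [MonoidHom.comp_apply, MulEquiv.coe_toMonoidHom, MulEquiv.symm_apply_apply]
  rfl

section
variable {V : Type*} [AddCommGroup V] [Module F V] {f : CForm (FType.symp F) V}

theorem sp_ok {u v : V} (h : f.B v u = 0) (c : F) : f.EichOk u v c := ⟨symp_Q f u, h, by simp [symp_Q]⟩

theorem sp_swap {u v : V} (h : f.B v u = 0) (c : F) : f.eich u (c • v) 0 = f.eich v (c • u) 0 := by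
  ext x
  rw [eich_apply' (symp_B_self f u) (by simp [h]), eich_apply' (symp_B_self f v) (by simp [f.B_zero_symm h])]
  simp only [map_smulₛₗ, FType.symp_σ, FType.symp_ε, smul_eq_mul]
  module

theorem sp_X_le {M : Subgroup (V ≃ₗ[F] V)} {u k l : V} (hk : f.B k u = 0) (hl : f.B l u = 0)
    (h0 : ∀ c, f.eich u 0 c ∈ M) (h1 : ∀ t : F, f.eich u (t • k) 0 ∈ M) (h2 : ∀ t : F, f.eich u (t • l) 0 ∈ M)
    (hv : ∀ v, f.B v u = 0 → ∃ a b c : F, v = a • k + b • l + c • u) : f.X u ≤ M := X_le_iff.2 fun v c h => by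
  obtain ⟨a, b, d, rfl⟩ := hv v h.hv
  have hu := symp_B_self f u
  rw [eich_add_smul hu (by simp [hk, hl])]
  have := mul_mem (mul_mem (h1 a) (h2 b)) (h0 (c + (FType.symp F).ε * d - (FType.symp F).σ d -
    (0 + 0 + (FType.symp F).ε * f.B (b • l) (a • k))))
  rw [eich_mul hu (by simp [hk]) (by simp [hl]), eich_mul hu (by simp [hk, hl]) (by simp)] at this
  convert this using 2
  · simp
  · simp

theorem sp_E_le {M : Subgroup (V ≃ₗ[F] V)} {A : Set V} (h1 : ∀ a ∈ A, f.X a ≤ M)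
    (h2 : ∀ u, u ≠ 0 → ∃ a ∈ A, ∃ a' ∈ A, f.B u a ≠ 0 ∧ f.B a' a ≠ 0) : f.E ≤ M := E_le_of_X fun u h0 _ => by
  obtain ⟨a, ha, a', ha', h3, h4⟩ := h2 u h0
  obtain ⟨b, c, h5, h6⟩ := exists_eich_map (f := f) (u := a) (w := (f.B u a * (f.B a' a)⁻¹) • a') (w' := u) (symp_Q f a)
    (by simp [h4]) (by simp [h4, h3]) (by rw [symp_Q, symp_Q])
  rw [← h6]
  exact X_map_le' ((X_smul_le (symp_Q f a') _).trans (h1 a' ha')) h5.mem_iso ((h1 a ha) h5.mem_X)

end

def grS (i j : ℕ) : ℤ := dl 2 i * dl 0 j - dl 0 i * dl 2 j + (dl 3 i * dl 1 j - dl 1 i * dl 3 j)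
def spa (r : ℕ) : ℕ := [2, 2, 1, 3, 1, 0, 0, 0].getD r 0
def spb (r : ℕ) : ℕ := [2, 3, 2, 3, 1, 3, 1, 0].getD r 0
def spα (r : ℕ) : ℤ := [0, 1, 1, 0, 0, 1, -1, 0].getD r 0
def spγ (r : ℕ) : ℤ := [1, 0, 0, -1, 1, 0, 0, -1].getD r 0

def scol : Col := fun r k =>
  [(k, 1, 0), (spa r, spα r * grS k (spb r), 1), (spb r, spα r * grS k (spa r), 1), (spa r, -(grS k (spa r) * spγ r), 1)]

theorem spB (i j : ℕ) : (spF F 2).B (bvP F 2 i) (bvP F 2 j) = grS i j := by
  simp [sympForm_eq, bvP, grS, Fin.sum_univ_two]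
  ring

variable (F) in
noncomputable def spX (r : Φ chevB2) (t : F) : (Fin 2 ⊕ Fin 2 → F) ≃ₗ[F] (Fin 2 ⊕ Fin 2 → F) :=
  (spF F 2).eich (bvP F 2 (spa r)) ((spα r * t) • bvP F 2 (spb r)) (spγ r * t)

theorem spX_ok (r : Φ chevB2) (t c : F) : (spF F 2).EichOk (bvP F 2 (spa r)) (t • bvP F 2 (spb r)) c :=
  sp_ok (by
    have : ∀ r : Φ chevB2, grS (spb r) (spa r) = 0 := by decide
    simp only [map_smulₛₗ, LinearMap.smul_apply, spB, this, Int.cast_zero, smul_zero]) c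

theorem spX_rel12 : rsB2.Rel12 (spX F) := by
  refine rsB2.rel12_of_col (bv := bvP F 2) (col := scol) (n := 4) (fun r t k => ?_) (fun g g' e => LinearEquiv.ext fun v => ?_)
    (by decide +kernel)
  · rw [spX, (spX_ok r _ _).apply]
    simp only [scol, map_smulₛₗ, FType.symp_σ, FType.symp_ε, smul_eq_mul, spB, List.map_cons, List.map_nil, List.sum_cons,
      List.sum_nil]
    push_cast
    module
  · obtain ⟨c, rfl⟩ := span_P 2 v
    simp only [map_sum, map_smul]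
    exact Finset.sum_congr rfl fun k hk => by rw [e k (Finset.mem_range.1 hk)]

theorem spX_gen : (spF F 2).iso = Subgroup.closure {g | ∃ (r : Φ chevB2) (t : F), g = spX F r t} := by
  refine le_antisymm ?_ ((Subgroup.closure_le _).2 (by rintro _ ⟨r, t, rfl⟩; exact (spX_ok r _ _).mem_iso))
  set M := Subgroup.closure {g | ∃ (r : Φ chevB2) (t : F), g = spX F r t}
  have key : ∀ (r : ℕ) (hr : r < 8) (t : F), spX F ⟨r, hr⟩ t ∈ M := fun r hr t => Subgroup.subset_closure ⟨_, t, rfl⟩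
  have l2 : ∀ c, (spF F 2).eich (bvP F 2 2) 0 c ∈ M := fun c => by simpa [spX, spa, spb, spα, spγ] using key 0 (by decide) c
  have l3 : ∀ c, (spF F 2).eich (bvP F 2 3) 0 c ∈ M := fun c => by simpa [spX, spa, spb, spα, spγ] using key 3 (by decide) (-c)
  have l1 : ∀ c, (spF F 2).eich (bvP F 2 1) 0 c ∈ M := fun c => by simpa [spX, spa, spb, spα, spγ] using key 4 (by decide) c
  have l0 : ∀ c, (spF F 2).eich (bvP F 2 0) 0 c ∈ M := fun c => by simpa [spX, spa, spb, spα, spγ] using key 7 (by decide) (-c)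
  have s23 : ∀ t : F, (spF F 2).eich (bvP F 2 2) (t • bvP F 2 3) 0 ∈ M := fun t => by
    simpa [spX, spa, spb, spα, spγ] using key 1 (by decide) t
  have s12 : ∀ t : F, (spF F 2).eich (bvP F 2 1) (t • bvP F 2 2) 0 ∈ M := fun t => by
    simpa [spX, spa, spb, spα, spγ] using key 2 (by decide) t
  have s03 : ∀ t : F, (spF F 2).eich (bvP F 2 0) (t • bvP F 2 3) 0 ∈ M := fun t => by
    simpa [spX, spa, spb, spα, spγ] using key 5 (by decide) t
  have s01 : ∀ t : F, (spF F 2).eich (bvP F 2 0) (t • bvP F 2 1) 0 ∈ M := fun t => by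
    simpa [spX, spa, spb, spα, spγ] using key 6 (by decide) (-t)
  have b : ∀ i j, grS i j = 0 → (spF F 2).B (bvP F 2 i) (bvP F 2 j) = 0 := fun i j e => by rw [spB, e, Int.cast_zero]
  have hE : (spF F 2).E ≤ M := by
    refine sp_E_le (A := {bvP F 2 0, bvP F 2 1, bvP F 2 2, bvP F 2 3}) ?_ fun u hu => ?_
    · rintro _ (rfl | rfl | rfl | rfl)
      · refine sp_X_le (b 1 0 (by decide)) (b 3 0 (by decide)) l0 s01 s03 fun v hv =>
          ⟨v (.inl 1), v (.inr 1), v (.inl 0), funext fun i => ?_⟩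
        simp [sympForm_eq, bvP, dl] at hv
        rcases i with i | i <;> fin_cases i <;> simp [bvP, dl, hv]
      · refine sp_X_le (b 0 1 (by decide)) (b 2 1 (by decide)) l1 (fun t => sp_swap (b 1 0 (by decide)) t ▸ s01 t) s12 fun v hv =>
          ⟨v (.inl 0), v (.inr 0), v (.inl 1), funext fun i => ?_⟩
        simp [sympForm_eq, bvP, dl] at hv
        rcases i with i | i <;> fin_cases i <;> simp [bvP, dl, hv]
      · refine sp_X_le (b 1 2 (by decide)) (b 3 2 (by decide)) l2 (fun t => sp_swap (b 2 1 (by decide)) t ▸ s12 t) s23 fun v hv =>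
          ⟨v (.inl 1), v (.inr 1), v (.inr 0), funext fun i => ?_⟩
        simp [sympForm_eq, bvP, dl] at hv
        rcases i with i | i <;> fin_cases i <;> simp [bvP, dl, hv]
      · refine sp_X_le (b 0 3 (by decide)) (b 2 3 (by decide)) l3 (fun t => sp_swap (b 3 0 (by decide)) t ▸ s03 t)
          (fun t => sp_swap (b 3 2 (by decide)) t ▸ s23 t) fun v hv => ⟨v (.inl 0), v (.inr 0), v (.inr 1), funext fun i => ?_⟩
        simp [sympForm_eq, bvP, dl] at hv
        rcases i with i | i <;> fin_cases i <;> simp [bvP, dl, hv]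
    · by_contra! hn
      have n : ∀ i j, grS i j = 1 ∨ grS i j = -1 → (spF F 2).B (bvP F 2 i) (bvP F 2 j) ≠ 0 := fun i j e => by
        rcases e with e | e <;> simp [spB, e, -spF_B]
      have a0 := not_not.1 fun e => n 2 0 (by decide) (hn (bvP F 2 0) (by simp) (bvP F 2 2) (by simp) e)
      have a1 := not_not.1 fun e => n 3 1 (by decide) (hn (bvP F 2 1) (by simp) (bvP F 2 3) (by simp) e)
      have a2 := not_not.1 fun e => n 0 2 (by decide) (hn (bvP F 2 2) (by simp) (bvP F 2 0) (by simp) e)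
      have a3 := not_not.1 fun e => n 1 3 (by decide) (hn (bvP F 2 3) (by simp) (bvP F 2 1) (by simp) e)
      simp [sympForm_eq, bvP, dl] at a0 a1 a2 a3
      refine hu (funext fun i => ?_)
      rcases i with i | i <;> fin_cases i <;> simp [a0, a1, a2, a3]
  exact (spF_nondeg 2).symp_iso_le fun p c => hE (tv_mem_E (symp_Q _ p) rfl)

theorem surj_psp : ∃ φ : chevB2.group F →* PSp 2 F, Function.Surjective φ := by
  obtain ⟨φ, h⟩ := rsB2.surj_of_rel12 goodB2 spX_rel12 (spX_gen (F := F))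
  exact ⟨(quotCenterEquiv (spEquiv F 2)).symm.toMonoidHom.comp φ, (quotCenterEquiv (spEquiv F 2)).symm.surjective.comp h⟩

theorem pspB2 (hF : ∃ a : F, a ≠ 0 ∧ a ≠ 1) : Nonempty (chevB2.group F ≃* PSp 2 F) := by
  haveI := StN.isSimpleGroup fullB2 ⟨0, by decide⟩ (rsB2.adj_gen F) (rsB2.adj_inj F) (StN.perfect2 good2B2 hF (rsB2.adj_gen F))
  obtain ⟨-, ⟨e⟩⟩ := rsB2.equiv_of_rel12 goodB2 (StN.perfect2 good2B2 hF (rsB2.sc_gen F goodB2)) spX_rel12 (spX_gen (F := F))
    fun h5 => by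
      have h6 := (spX_ok (F := F) ⟨0, by decide⟩ 0 1).apply (bvP F 2 0)
      rw [(Subgroup.eq_bot_iff_forall _).1 h5 _ (spX_ok ⟨0, by decide⟩ 0 1).mem_iso] at h6
      simpa [spa, spb, sympForm_eq, bvP, dl] using congrFun h6 (.inr 0)
  exact ⟨e.trans (quotCenterEquiv (spEquiv F 2)).symm⟩

end Cfsg.Agent.H5
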