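import Cfsg.Agent.H5.Ce5
import Mathlib.GroupTheory.Transfer

set_option autoImplicit false

namespace Cfsg.Agent.H5

open Subgroup
open scoped commutatorElement IsMulCommutative

universe u

/-- every central extension with kernel of exponent `r` is a stem-free one over `P` -/
def SplitAt (G : Type u) [Group G] (r : ℕ) (P : Subgroup G) : Prop :=
  ∀ (E : Type u) [Group E] (ψ : E →* G), CE ψ → (∀ z, ψ z = 1 → z ^ r = 1) → ∀ z ∈ ⁅P.comap ψ, P.comap ψ⁆, ψ z = 1 → z = 1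

theorem ker_pow {G Γ : Type u} [Group G] [Group Γ] [Finite Γ] {σ : Γ →* G} (hσ : IsStemExtension σ) {r : ℕ} (hr : r.Prime) {P : Subgroup G}
    (h1 : ¬ r ∣ P.index) (h2 : SplitAt G r P) {z : Γ} (hz : σ z = 1) (h : z ^ r = 1) : z = 1 := by
  let f : σ.ker →* Γ := MonoidHom.mk' (fun z => z ^ r) fun a b => Commute.mul_pow (mem_center_iff.1 (hσ.2.1 b.2) a) r
  haveI : f.range.Normal := ⟨by
    rintro _ ⟨a, rfl⟩ g
    exact ⟨a, (mul_inv_eq_iff_eq_mul.2 (mem_center_iff.1 (pow_mem (hσ.2.1 a.2) r) g)).symm⟩⟩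
  let ψ : Γ ⧸ f.range →* G := QuotientGroup.lift _ σ (by rintro _ ⟨a, rfl⟩; exact pow_mem a.2 r)
  have hψ : CE ψ := ⟨fun g => (hσ.1 g).elim fun a e => ⟨a, e⟩, fun a ha => mem_center_iff.2 fun b => by
    obtain ⟨a, rfl⟩ := QuotientGroup.mk_surjective a
    obtain ⟨b, rfl⟩ := QuotientGroup.mk_surjective b
    exact congrArg QuotientGroup.mk (mem_center_iff.1 (hσ.2.1 ha) b)⟩
  have key : ∀ a : σ.ker, (a : Γ) ^ P.index ∈ f.range := fun a => by
    have hi : (P.comap σ).index = P.index := index_comap_of_surjective P hσ.1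
    have h3 := MonoidHom.transfer_eq_pow (Abelianization.of (G := P.comap σ)) (a : Γ) fun k g _ => by
      rw [mul_assoc, ← mem_center_iff.1 (pow_mem (hσ.2.1 a.2) k) g, inv_mul_cancel_left]
    rw [Abelianization.commutator_subset_ker _ (hσ.2.2 a.2), eq_comm, ← MonoidHom.mem_ker, Abelianization.ker_of] at h3
    have h4 := mem_map_of_mem (P.comap σ).subtype h3
    rw [_root_.commutator_def, map_commutator, ← MonoidHom.range_eq_map, range_subtype] at h4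
    rw [← hi]
    refine (QuotientGroup.eq_one_iff _).1 (h2 _ ψ hψ (fun b hb => ?_) _ ?_ (pow_mem a.2 _ : _ ∈ σ.ker))
    · obtain ⟨b, rfl⟩ := QuotientGroup.mk_surjective b
      exact (QuotientGroup.eq_one_iff (b ^ r)).2 ⟨⟨b, hb⟩, rfl⟩
    · have := mem_map_of_mem (QuotientGroup.mk' f.range) h4
      rw [map_commutator] at this
      exact commutator_mono (map_le_iff_le_comap.2 fun _ h => h) (map_le_iff_le_comap.2 fun _ h => h) this
  have hs : Function.Surjective fun a : σ.ker => a ^ r := fun a => by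
    obtain ⟨b, hb⟩ := key a
    obtain ⟨x, y, e⟩ := Nat.isCoprime_iff_coprime.2 (hr.coprime_iff_not_dvd.2 h1)
    refine ⟨a ^ x * b ^ y, Subtype.ext ?_⟩
    change f _ = _
    rw [map_mul, map_zpow, map_zpow, hb]
    change ((a : Γ) ^ r) ^ x * _ = _
    rw [← zpow_natCast, ← zpow_natCast, ← zpow_mul, ← zpow_mul, ← zpow_add, mul_comm _ x, mul_comm _ y, e, zpow_one]
  exact congrArg Subtype.val (Finite.injective_iff_surjective.2 hs (a₁ := ⟨z, hz⟩) (a₂ := 1) (Subtype.ext (by simpa using h)))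

theorem mult_triv {G : Type u} [Group G] [Finite G] (h : ∀ r : ℕ, r.Prime → ∃ P : Subgroup G, ¬ r ∣ P.index ∧ SplitAt G r P) :
    HasCyclicSchurMultiplier G 1 := by
  refine ⟨⟨G, _, inferInstance, MonoidHom.id G, ⟨Function.surjective_id, by simp, by simp⟩, ?_⟩, fun Γ _ _ σ hσ => ⟨1, fun z => ⟨1, ?_⟩⟩⟩
  · haveI : Unique (MonoidHom.id G).ker := by rw [MonoidHom.ker_id]; infer_instance
    exact ⟨MulEquiv.ofUnique⟩
  by_contra h1
  obtain ⟨r, hr, h2⟩ := Nat.exists_prime_and_dvd (mt orderOf_eq_one_iff.1 (Ne.symm h1))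
  obtain ⟨P, h3, h4⟩ := h r hr
  have h5 := orderOf_pow_orderOf_div (orderOf_pos z).ne' h2
  have := ker_pow hσ hr h3 h4 (z ^ (orderOf z / r)).2 (by
    have := pow_orderOf_eq_one (z ^ (orderOf z / r))
    rw [h5] at this
    exact congrArg Subtype.val this)
  rw [show z ^ (orderOf z / r) = 1 from Subtype.ext this, orderOf_one] at h5
  exact hr.one_lt.ne h5

theorem splitAt_of_comm {G : Type u} [Group G] {r : ℕ} {P : Subgroup G}
    (h : ∀ (E : Type u) [Group E] (ψ : E →* G), CE ψ → (∀ z, ψ z = 1 → z ^ r = 1) → ∀ a b, ψ a ∈ P → ψ b ∈ P → ⁅a, b⁆ = 1) :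
    SplitAt G r P := fun E _ ψ h1 h2 z hz _ =>
  (commutator_le.2 fun a ha b hb => h E ψ h1 h2 a b ha hb : _ ≤ ⊥) hz

theorem splitAt_cyclic {G : Type u} [Group G] (r : ℕ) {P : Subgroup G} {y : G} (h : P ≤ zpowers y) : SplitAt G r P :=
  splitAt_of_comm fun E _ ψ h1 _ a b ha hb => by
    refine h1.mem_lc.1 (zpowers_le.2 (h1.lc_symm (zpowers_le.2 (h1.lc_self y) (h hb))) (h ha))

theorem splitAt_elem {G : Type u} [Group G] {P : Subgroup G} (h8 : 4 < Nat.card P) (hsq : ∀ x ∈ P, x * x = 1)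
    (hc : ∀ b c : G, orderOf b = 2 → orderOf c = 2 → IsConj b c) : SplitAt G 2 P :=
  splitAt_of_comm fun E _ ψ h1 h2 => by
    have comm : ∀ x ∈ P, ∀ y ∈ P, x * y = y * x := fun x hx y hy => by
      rw [← inv_eq_of_mul_eq_one_left (hsq _ (mul_mem hx hy)), mul_inv_rev, inv_eq_of_mul_eq_one_left (hsq x hx),
        inv_eq_of_mul_eq_one_left (hsq y hy)]
    have hq : ∀ a b, ψ a ∈ P → ψ b ∈ P → ψ a ≠ 1 → ψ b ≠ 1 → a * a = b * b := fun a b ha hb ha1 hb1 => by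
      obtain ⟨g, hg⟩ := isConj_iff.1 (hc _ _ (orderOf_eq_prime (by rw [sq, hsq _ ha]) ha1) (orderOf_eq_prime (by rw [sq, hsq _ hb]) hb1))
      obtain ⟨g, rfl⟩ := h1.surj g
      have e1 : ψ (b⁻¹ * (g * a * g⁻¹)) = 1 := by simp [hg]
      have e2 := h2 _ e1
      have e3 := h1.comm e1 b
      have e4 := h1.comm (z := a * a) (by rw [map_mul, hsq _ ha]) g
      calc a * a = g * a * g⁻¹ * (g * a * g⁻¹) := by rw [← mul_inv_cancel_right (a * a) g, ← e4]; group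
        _ = b * (b⁻¹ * (g * a * g⁻¹)) * (b * (b⁻¹ * (g * a * g⁻¹))) := by group
        _ = b * b := by rw [mul_assoc, ← mul_assoc _ b, ← e3, mul_assoc b, ← sq, e2, mul_one]
    have hc : ∀ a b, ψ a ∈ P → ψ b ∈ P → ψ a ≠ 1 → ψ b ≠ 1 → ψ a ≠ ψ b → ⁅a, b⁆ = a * a := fun a b ha hb ha1 hb1 hab => by
      have e1 := hq (a * b) a (by simpa using mul_mem ha hb) ha (fun e => hab (by
        rw [map_mul] at e; rw [eq_inv_of_mul_eq_one_left e, inv_eq_of_mul_eq_one_left (hsq _ hb)])) ha1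
      have e2 := hq b a hb ha hb1 ha1
      have e3 : ψ (a * a) = 1 := by rw [map_mul, hsq _ ha]
      have e4 := h2 _ e3
      have e5 : a⁻¹ = a * (a * a) := inv_eq_of_mul_eq_one_left (by rw [← e4, sq]; group)
      have e6 : b⁻¹ = b * (a * a) := inv_eq_of_mul_eq_one_left (by rw [← e4, mul_assoc, ← h1.comm e3, ← mul_assoc, e2, sq])
      rw [commutatorElement_def, e5, e6]
      calc a * b * (a * (a * a)) * (b * (a * a)) = a * b * a * (a * a * b) * (a * a) := by group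
        _ = a * b * (a * b) * (a * a) ^ 2 := by rw [← h1.comm e3, sq]; group
        _ = _ := by rw [e4, mul_one, e1]
    intro a b ha hb
    by_cases ha1 : ψ a = 1
    · exact commutatorElement_eq_one_iff_mul_comm.2 (h1.comm ha1 b).symm
    by_cases hb1 : ψ b = 1
    · exact commutatorElement_eq_one_iff_mul_comm.2 (h1.comm hb1 a)
    by_cases hab : ψ a = ψ b
    · rw [h1.comm_congr hab rfl, commutatorElement_self]
    obtain ⟨⟨w, hw⟩, hw'⟩ : ∃ w : P, w ∉ ({1, ⟨_, ha⟩, ⟨_, hb⟩, ⟨_, mul_mem ha hb⟩} : Set P) := by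
      by_contra! h
      haveI : Finite P := Nat.finite_of_card_ne_zero (by omega)
      have := Set.ncard_le_ncard (fun w _ => h w : Set.univ ⊆ _)
      rw [Set.ncard_univ] at this
      exact absurd (this.trans (Set.ncard_insert_le _ _ |>.trans (Nat.succ_le_succ ((Set.ncard_insert_le _ _).trans
        (Nat.succ_le_succ ((Set.ncard_insert_le _ _).trans (by simp))))))) h8.not_ge
    obtain ⟨w, rfl⟩ := h1.surj w
    simp only [Set.mem_insert_iff, Set.mem_singleton_iff, Subtype.ext_iff, not_or, OneMemClass.coe_one] at hw'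
    have e1 := hc a (b * w) ha (by simpa using mul_mem hb hw) ha1 (fun e => hw'.2.2.1 (by
      rw [map_mul] at e; rw [eq_inv_of_mul_eq_one_right e, inv_eq_of_mul_eq_one_left (hsq _ hb)])) fun e => hw'.2.2.2 (by
      rw [e, map_mul, comm _ hb _ hw, mul_assoc, hsq _ hb, mul_one])
    have e2 := hc a w ha hw ha1 hw'.1 (Ne.symm hw'.2.1)
    have e3 := h1.comm (z := a * a) (by rw [map_mul, hsq _ ha]) b
    rw [show ⁅a, b * w⁆ = ⁅a, b⁆ * (b * ⁅a, w⁆ * b⁻¹) by group, e2, e3, mul_inv_cancel_right] at e1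
    exact mul_eq_right.1 e1

section layers
variable {G : Type*} [Group G] {E : Type u} [Group E]

/-- invariant bimultiplicative forms -/
structure Form (ψ : E →* G) (U H X X' : Subgroup G) {A : Type u} [CommGroup A] (f : G → G → A) : Prop where
  l : ∀ u ∈ U, ∀ v ∈ U, ∀ x ∈ X', f (u * v) x = f u x * f v x
  r : ∀ u ∈ U, ∀ x ∈ X', ∀ y ∈ X', f u (x * y) = f u x * f u y
  z : ∀ u ∈ U, ∀ x ∈ X, f u x = 1
  inv : ∀ k ∈ H, ∀ u ∈ U, ∀ x ∈ X', f (k * u * k⁻¹) (k * x * k⁻¹) = f u x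
  lc : ∀ a b, ⁅a, b⁆ = 1 → f (ψ a) (ψ b) = 1

/-- the extension splits normally over `X` -/
def NSp (ψ : E →* G) (X : Subgroup G) : Prop := ∃ N : Subgroup E, N.Normal ∧ N.map ψ = X ∧ ∀ z ∈ N, ψ z = 1 → z = 1

theorem NSp.step {ψ : E →* G} (hc : ψ.ker ≤ center E) {U H X X' : Subgroup G} (hB : ∀ e, ∃ u ∈ U, ∃ k ∈ H, ψ e = u * k)
    (hU : U ≤ ψ.range) (hH : H ≤ ψ.range) (hHc : ∀ k ∈ H, ∀ k' ∈ H, k * k' = k' * k) (h : NSp ψ X) (h1 : X ≤ X') (h2 : X' ≤ U)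
    (h3 : ∀ u ∈ U, ∀ x ∈ X', ⁅u, x⁆ ∈ X) (h4 : ∀ k ∈ H, ∀ x ∈ X', k * x * k⁻¹ ∈ X') {k : G} (hk : k ∈ H)
    (h5 : ∀ x ∈ X', ⁅k, x⁆ ∈ X → x ∈ X) (h6 : ∀ y ∈ X', ∃ x ∈ X', ⁅k, x⁆⁻¹ * y ∈ X)
    (hf : ∀ (A : Type u) [CommGroup A] (f : G → G → A), Form ψ U H X X' f → ∀ u ∈ U, ∀ x ∈ X', f u x = 1) : NSp ψ X' := by
  classical
  obtain ⟨N, hN, rfl, hN'⟩ := h
  have h0 : CE ψ.rangeRestrict := ⟨ψ.rangeRestrict_surjective, ψ.ker_rangeRestrict ▸ hc⟩
  have cg : ∀ {a a' b b'}, ψ a = ψ a' → ψ b = ψ b' → ⁅a, b⁆ = ⁅a', b'⁆ := fun h h' => h0.comm_congr (Subtype.ext h) (Subtype.ext h')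
  let π := QuotientGroup.mk' N
  have π1 : ∀ {a}, π a = 1 ↔ a ∈ N := QuotientGroup.eq_one_iff _
  have cen : ∀ a, ψ a ∈ N.map ψ → π a ∈ center _ := by
    rintro a ⟨n, hn, e⟩
    rw [show a = n * (n⁻¹ * a) by group, map_mul, π1.2 hn, one_mul]
    exact mem_center_iff.2 fun b => (QuotientGroup.mk'_surjective N b).elim fun b e' => by
      rw [← e', ← map_mul, ← map_mul, mem_center_iff.1 (hc (by simp [e] : n⁻¹ * a ∈ ψ.ker))]
  have cen' : ∀ a b, ψ a ∈ U → ψ b ∈ X' → π ⁅a, b⁆ ∈ center _ := fun a b ha hb => cen _ (map_commutatorElement ψ a b ▸ h3 _ ha _ hb)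
  let s := Function.invFun ψ
  have hs : ∀ a, ψ (s (ψ a)) = ψ a := fun a => Function.invFun_eq ⟨a, rfl⟩
  let f : G → G → center (E ⧸ N) := fun u x => if h : π ⁅s u, s x⁆ ∈ center _ then ⟨_, h⟩ else 1
  have hf1 : ∀ a b, π ⁅a, b⁆ ∈ center _ → (f (ψ a) (ψ b) : E ⧸ N) = π ⁅a, b⁆ := fun a b h => by
    simp only [f, cg (hs a) (hs b), dif_pos h]
  have hf2 := fun a b ha hb => hf1 a b (cen' a b ha hb)
  have key : ∀ a b, ψ a ∈ U → ψ b ∈ X' → π ⁅a, b⁆ = 1 := fun a b ha hb => by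
    rw [← hf2 a b ha hb, hf _ f ⟨?_, ?_, ?_, ?_, ?_⟩ _ ha _ hb, OneMemClass.coe_one]
    · intro u hu v hv x hx
      obtain ⟨u, rfl⟩ := hU hu; obtain ⟨v, rfl⟩ := hU hv; obtain ⟨x, rfl⟩ := hU (h2 hx)
      refine Subtype.ext ?_
      rw [← map_mul, coe_mul, hf2 _ _ (by simpa using mul_mem hu hv) hx, hf2 _ _ hu hx, hf2 _ _ hv hx,
        show ⁅u * v, x⁆ = u * ⁅v, x⁆ * u⁻¹ * ⁅u, x⁆ by group, map_mul, map_mul, map_mul, mem_center_iff.1 (cen' _ _ hv hx), map_inv,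
        mul_inv_cancel_right, mem_center_iff.1 (cen' _ _ hv hx)]
    · intro u hu x hx y hy
      obtain ⟨u, rfl⟩ := hU hu; obtain ⟨x, rfl⟩ := hU (h2 hx); obtain ⟨y, rfl⟩ := hU (h2 hy)
      refine Subtype.ext ?_
      rw [← map_mul, coe_mul, hf2 _ _ hu (by simpa using mul_mem hx hy), hf2 _ _ hu hx, hf2 _ _ hu hy,
        show ⁅u, x * y⁆ = ⁅u, x⁆ * (x * ⁅u, y⁆ * x⁻¹) by group, map_mul, map_mul, map_mul, mem_center_iff.1 (cen' _ _ hu hy), map_inv,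
        mul_inv_cancel_right]
    · rintro u hu _ ⟨n, hn, rfl⟩
      obtain ⟨u, rfl⟩ := hU hu
      exact Subtype.ext ((hf2 _ _ hu (h1 ⟨n, hn, rfl⟩)).trans (π1.2 (mul_mem (hN.conj_mem _ hn _) (inv_mem hn))))
    · intro k hk u hu x hx
      obtain ⟨u, rfl⟩ := hU hu; obtain ⟨x, rfl⟩ := hU (h2 hx); obtain ⟨k, rfl⟩ := hH hk
      have : π ⁅k * u * k⁻¹, k * x * k⁻¹⁆ = π ⁅u, x⁆ := by
        rw [show ⁅k * u * k⁻¹, k * x * k⁻¹⁆ = k * ⁅u, x⁆ * k⁻¹ by group, map_mul, map_mul, mem_center_iff.1 (cen' _ _ hu hx), map_inv,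
          mul_inv_cancel_right]
      refine Subtype.ext ?_
      rw [← map_inv, ← map_mul, ← map_mul, ← map_mul, ← map_mul, hf1 _ _ (this ▸ cen' _ _ hu hx), hf2 _ _ hu hx, this]
    · intro a b h
      exact Subtype.ext ((hf1 a b (by rw [h, map_one]; exact one_mem _)).trans (by rw [h, map_one]; rfl))
  have cm : ∀ a b, ψ a ∈ U → ψ b ∈ X' → π a * π b * (π a)⁻¹ = π b := fun a b ha hb => by
    have := key a b ha hb
    rwa [map_commutatorElement, commutatorElement_def, mul_inv_eq_one] at this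
  obtain ⟨k, rfl⟩ := hH hk
  have m1 : ∀ b, ψ b ∈ X' → ψ ⁅k, b⁆ ∈ X' := fun b hb => by
    rw [map_commutatorElement]; exact mul_mem (h4 _ hk _ hb) (inv_mem hb)
  let φ : X'.comap ψ →* E ⧸ N := MonoidHom.mk' (fun b => π ⁅k, (b : E)⁆) fun a b => by
    rw [← cm a _ (h2 a.2) (m1 b b.2), ← map_inv, ← map_mul, ← map_mul, ← map_mul, coe_mul]; congr 1; group
  refine ⟨φ.range.comap π, ⟨?_⟩, le_antisymm ?_ fun y hy => ?_, ?_⟩
  · rintro n ⟨b, hb⟩ e
    obtain ⟨u, hu, k', hk', he⟩ := hB e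
    obtain ⟨k', rfl⟩ := hH hk'
    have hb' : ψ (k' * b * k'⁻¹) ∈ X' := by simpa using h4 _ hk' _ b.2
    refine ⟨⟨_, hb'⟩, ?_⟩
    change π ⁅k, k' * b * k'⁻¹⁆ = _
    rw [← cm (e * k'⁻¹) _ (by simpa [he] using hu) (m1 _ hb'), cg (a' := k' * k * k'⁻¹) (by simp [hHc _ hk' _ hk]) rfl, map_mul π (e * n),
      map_mul π e n, ← hb, ← map_inv, ← map_mul, ← map_mul]
    change _ = π e * π ⁅k, (b : E)⁆ * π e⁻¹
    rw [← map_mul, ← map_mul]; congr 1; group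
  · rintro _ ⟨n, ⟨b, hb⟩, rfl⟩
    have := mem_map_of_mem ψ (QuotientGroup.eq.1 hb)
    simpa only [map_mul, map_inv, mul_inv_cancel_left] using mul_mem (m1 b b.2) (h1 this)
  · obtain ⟨x, hx, n, hn, e⟩ := h6 y hy
    obtain ⟨x, rfl⟩ := hU (h2 hx)
    exact ⟨⁅k, x⁆ * n, ⟨⟨x, hx⟩, by rw [map_mul, π1.2 hn, mul_one]; rfl⟩, by rw [map_mul, e, map_commutatorElement, mul_inv_cancel_left]⟩
  · rintro z ⟨b, hb⟩ hz
    have := mem_map_of_mem ψ (QuotientGroup.eq.1 hb)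
    rw [map_mul, hz, mul_one, map_inv, inv_mem_iff, map_commutatorElement] at this
    obtain ⟨n, hn, e⟩ := h5 _ b.2 this
    refine hN' z (π1.1 (hb.symm.trans (π1.2 ?_))) hz
    rw [cg rfl e.symm]
    exact mul_mem (hN.conj_mem _ hn _) (inv_mem hn)

/-- a layer of a filtration, with a coordinate in a field -/
structure Lay (H X X' : Subgroup G) (K : Type*) [Field K] where
  co : G → K
  lam : G → K
  le : X ≤ X'
  add : ∀ x ∈ X', ∀ y ∈ X', co (x * y) = co x + co y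
  ker : ∀ x ∈ X', co x = 0 ↔ x ∈ X
  surj : ∀ t, ∃ x ∈ X', co x = t
  ne : ∀ k ∈ H, lam k ≠ 0
  conj : ∀ k ∈ H, ∀ x ∈ X', k * x * k⁻¹ ∈ X' ∧ co (k * x * k⁻¹) = lam k * co x

theorem biadd_triv {K K' A : Type*} [Field K] [Field K'] [AddCommGroup A] (g : K →+ K' →+ A) (L : List (ℤ × K × K'))
    (h : ∀ a ∈ L, a.2.2 ≠ 0 ∧ ∀ x y, g (a.2.1 * x) (a.2.2 * y) = g x y) (h1 : (L.map fun a => a.1 • a.2.1).sum = 0)
    (h2 : (L.map fun a => a.1 • a.2.2⁻¹).sum ≠ 0) (x : K) (y : K') : g x y = 0 := by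
  have key : ∀ y, g ((L.map fun a => a.1 • a.2.1).sum * x) y = g x ((L.map fun a => a.1 • a.2.2⁻¹).sum * y) := fun y => by
    clear h1 h2
    induction L with
    | nil => simp
    | cons a L ih =>
      have h3 := h a (.head _)
      simp only [List.map_cons, List.sum_cons, add_mul, map_add, AddMonoidHom.add_apply, ih fun b hb => h b (.tail _ hb), smul_mul_assoc,
        map_zsmul, AddMonoidHom.zsmul_apply]
      rw [← h3.2 x (a.2.2⁻¹ * y), mul_inv_cancel_left₀ h3.1]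
  have := key ((L.map fun a => a.1 • a.2.2⁻¹).sum⁻¹ * y)
  rw [h1, mul_inv_cancel_left₀ h2, zero_mul, map_zero] at this
  exact this.symm

/-- no invariant form on a pair of layers -/
def NF (H : Subgroup G) {K K' : Type*} [Field K] [Field K'] (a : G → K) (b : G → K') : Prop := ∃ l : List (ℤ × G), (∀ x ∈ l, x.2 ∈ H) ∧
  ((l.map fun x => x.1 • b x.2).sum = 0 ∧ (l.map fun x => x.1 • (a x.2)⁻¹).sum ≠ 0 ∨
    (l.map fun x => x.1 • a x.2).sum = 0 ∧ (l.map fun x => x.1 • (b x.2)⁻¹).sum ≠ 0)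

section NF
variable {H : Subgroup G} {K K' : Type*} [Field K] [Field K'] {a : G → K} {b : G → K'}

theorem NF.symm (h : NF H a b) : NF H b a := h.imp fun _ h => ⟨h.1, h.2.symm⟩

theorem NF.two {k l : G} (hk : k ∈ H) (hl : l ∈ H) (h : b k = b l) (h' : a k ≠ a l) : NF H a b :=
  ⟨[(1, k), (-1, l)], by simp [hk, hl], .inl ⟨by simp [h], by simpa [add_neg_eq_zero] using h'⟩⟩

theorem NF.three {k l m : G} (hk : k ∈ H) (hl : l ∈ H) (hm : m ∈ H) (h : b k + b l = b m) (h' : (a k)⁻¹ + (a l)⁻¹ ≠ (a m)⁻¹) : NF H a b :=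
  ⟨[(1, k), (1, l), (-1, m)], by simp [hk, hl, hm], .inl ⟨by simp [← h], by simpa [← add_assoc, add_neg_eq_zero] using h'⟩⟩

end NF

namespace Lay
variable {U H X X' Y Y' : Subgroup G} {K K' : Type*} [Field K] [Field K'] (L : Lay H X X' K) (M : Lay H Y Y' K')

theorem co_one : L.co 1 = 0 := (L.ker 1 (one_mem _)).2 (one_mem _)
theorem co_inv {x : G} (h : x ∈ X') : L.co x⁻¹ = -L.co x :=
  eq_neg_of_add_eq_zero_left (by rw [← L.add _ (inv_mem h) _ h, inv_mul_cancel, co_one])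
theorem mem_of_co {x y : G} (h : x ∈ X') (h' : y ∈ X') (e : L.co x = L.co y) : x⁻¹ * y ∈ X :=
  (L.ker _ (mul_mem (inv_mem h) h')).1 (by rw [L.add _ (inv_mem h) _ h', L.co_inv h, e, neg_add_cancel])
theorem co_comm {k x : G} (hk : k ∈ H) (h : x ∈ X') : ⁅k, x⁆ ∈ X' ∧ L.co ⁅k, x⁆ = (L.lam k - 1) * L.co x :=
  ⟨mul_mem (L.conj k hk x h).1 (inv_mem h), by
    rw [commutatorElement_def, L.add _ (L.conj k hk x h).1 _ (inv_mem h), L.co_inv h, (L.conj k hk x h).2]; ring⟩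

theorem form_triv (h : NF H L.lam M.lam) (hY : Y' ≤ U) {ψ : E →* G} {A : Type u} [CommGroup A] {f : G → G → A} (hf : Form ψ U H X X' f)
    (h1 : ∀ y ∈ Y, ∀ x ∈ X', f y x = 1) : ∀ y ∈ Y', ∀ x ∈ X', f y x = 1 := by
  choose a a1 a2 using L.surj
  choose b b1 b2 using M.surj
  have e1 : ∀ y ∈ Y', ∀ x ∈ X', f y x = f (b (M.co y)) (a (L.co x)) := fun y hy x hx => by
    have k1 := M.mem_of_co (b1 _) hy (b2 _)
    have k2 := L.mem_of_co (a1 _) hx (a2 _)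
    conv_lhs => rw [← mul_inv_cancel_left (b (M.co y)) y, hf.l _ (hY (b1 _)) _ (hY (M.le k1)) _ hx, h1 _ k1 _ hx, mul_one,
      ← mul_inv_cancel_left (a (L.co x)) x, hf.r _ (hY (b1 _)) _ (a1 _) _ (L.le k2), hf.z _ (hY (b1 _)) _ k2, mul_one]
  let g : K' →+ K →+ Additive A := AddMonoidHom.mk' (fun s => AddMonoidHom.mk' (fun t => Additive.ofMul (f (b s) (a t))) fun t t' => by
      rw [← ofMul_mul, ← hf.r _ (hY (b1 _)) _ (a1 _) _ (a1 _), e1 _ (b1 s) _ (mul_mem (a1 _) (a1 _)), L.add _ (a1 _) _ (a1 _), a2, a2, b2])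
    fun s s' => AddMonoidHom.ext fun t => by
      change Additive.ofMul (f _ _) = Additive.ofMul (f _ _) + Additive.ofMul (f _ _)
      rw [← ofMul_mul, ← hf.l _ (hY (b1 _)) _ (hY (b1 _)) _ (a1 _), e1 _ (mul_mem (b1 _) (b1 _)) _ (a1 t), M.add _ (b1 _) _ (b1 _), a2, b2, b2]
  have hg : ∀ k ∈ H, ∀ s t, g (M.lam k * s) (L.lam k * t) = g s t := fun k hk s t => congrArg Additive.ofMul (by
    rw [← hf.inv k hk _ (hY (b1 s)) _ (a1 t), e1 _ (M.conj k hk _ (b1 s)).1 _ (L.conj k hk _ (a1 t)).1, (M.conj k hk _ (b1 s)).2,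
      (L.conj k hk _ (a1 t)).2, a2, b2])
  intro y hy x hx
  rw [e1 y hy x hx]
  obtain ⟨l, h2, h3 | h3⟩ := h
  · exact biadd_triv g (l.map fun a => (a.1, M.lam a.2, L.lam a.2)) (List.forall_mem_map.2 fun a ha => ⟨L.ne _ (h2 a ha), hg _ (h2 a ha)⟩)
      (by rw [List.map_map]; exact h3.1) (by rw [List.map_map]; exact h3.2) _ _
  · exact biadd_triv g.flip (l.map fun a => (a.1, L.lam a.2, M.lam a.2))
      (List.forall_mem_map.2 fun a ha => ⟨M.ne _ (h2 a ha), fun s t => by exact hg _ (h2 a ha) t s⟩)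
      (by rw [List.map_map]; exact h3.1) (by rw [List.map_map]; exact h3.2) _ _

end Lay

end layers

theorem splitAt_of_layers {G : Type u} [Group G] (r : ℕ) {U H : Subgroup G} (hHc : ∀ k ∈ H, ∀ k' ∈ H, k * k' = k' * k) {n : ℕ}
    {X : ℕ → Subgroup G} (h0 : X 0 = U) (hn : X n = ⊥) {K : Fin n → Type*} [∀ i, Field (K i)] (L : ∀ i : Fin n, Lay H (X (i + 1)) (X i) (K i))
    (h1 : ∀ i : Fin n, ∀ u ∈ U, ∀ x ∈ X i, ⁅u, x⁆ ∈ X (i + 1)) (h2 : ∀ i, ∃ k ∈ H, (L i).lam k ≠ 1)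
    (h3 : ∀ i j, NF H (L i).lam (L j).lam ∨ X j ≤ ⁅U, U⁆ ⊔ X (j + 1) ∨ ∀ (E : Type u) [Group E] (ψ : E →* G) (h : CE ψ), ∀ y ∈ X j, ∀ x ∈ X i,
      ∃ y' ∈ X j, ∃ x' ∈ X i, y'⁻¹ * y ∈ X (j + 1) ∧ x'⁻¹ * x ∈ X (i + 1) ∧ y' ∈ h.lc x') : SplitAt G r U := by
  intro E _ ψ h _
  have hX : ∀ i ≤ n, X i ≤ U := fun i hi => by
    induction i with
    | zero => exact h0.le
    | succ i ih => exact (L ⟨i, hi⟩).le.trans (ih (by omega))
  have hUH : ∀ k ∈ H, ∀ u ∈ U, k * u * k⁻¹ ∈ U := fun k hk u hu => by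
    rcases Nat.eq_zero_or_pos n with rfl | h
    · rw [← h0, hn] at hu ⊢; simpa using hu
    · exact h0 ▸ ((L ⟨0, h⟩).conj k hk u (h0 ▸ hu)).1
  let B : Subgroup G :=
    { carrier := {g | ∃ u ∈ U, ∃ k ∈ H, g = u * k}
      one_mem' := ⟨1, one_mem _, 1, one_mem _, by simp⟩
      mul_mem' := by
        rintro _ _ ⟨u, hu, k, hk, rfl⟩ ⟨v, hv, l, hl, rfl⟩
        exact ⟨_, mul_mem hu (hUH k hk v hv), _, mul_mem hk hl, by group⟩
      inv_mem' := by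
        rintro _ ⟨u, hu, k, hk, rfl⟩
        exact ⟨_, hUH _ (inv_mem hk) _ (inv_mem hu), _, inv_mem hk, by group⟩ }
  let ψ' := ψ.comp (B.comap ψ).subtype
  have hr : B ≤ ψ'.range := fun g hg => (h.surj g).elim fun e he => ⟨⟨e, by rwa [mem_comap, he]⟩, he⟩
  have hU : U ≤ B := fun u hu => ⟨u, hu, 1, one_mem _, (mul_one u).symm⟩
  have key : ∀ i ≤ n, NSp ψ' (X i) := fun i hi => by
    induction hi using Nat.decreasingInduction with
    | self => exact ⟨⊥, inferInstance, by simp [hn], fun z h _ => h⟩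
    | of_succ i hi ih =>
      obtain ⟨k, hk, hk'⟩ := h2 ⟨i, hi⟩
      refine ih.step (fun z hz => mem_center_iff.2 fun e => Subtype.ext (h.comm (z := z.1) (show ψ' z = 1 from hz) e)) (fun e => e.2) (hU.trans hr)
        (fun k hk => hr ⟨1, one_mem _, k, hk, (one_mul k).symm⟩) hHc (L ⟨i, hi⟩).le (hX i hi.le) (h1 ⟨i, hi⟩)
        (fun k hk x hx => ((L ⟨i, hi⟩).conj k hk x hx).1) hk (fun x hx h4 => ?_) (fun y hy => ?_) fun A _ f hf => ?_
      · have := (L ⟨i, hi⟩).co_comm hk hx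
        exact ((L ⟨i, hi⟩).ker x hx).1 ((mul_eq_zero.1 (this.2.symm.trans (((L ⟨i, hi⟩).ker _ this.1).2 h4))).resolve_left (sub_ne_zero.2 hk'))
      · obtain ⟨x, hx, e⟩ := (L ⟨i, hi⟩).surj (((L ⟨i, hi⟩).lam k - 1)⁻¹ * (L ⟨i, hi⟩).co y)
        have := (L ⟨i, hi⟩).co_comm hk hx
        exact ⟨x, hx, (L ⟨i, hi⟩).mem_of_co this.1 hy (by rw [this.2, e, mul_inv_cancel_left₀ (sub_ne_zero.2 hk')])⟩
      suffices ∀ j ≤ n, ∀ y ∈ X j, ∀ x ∈ X i, f y x = 1 from h0 ▸ this 0 n.zero_le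
      have f1 : ∀ x ∈ X i, f 1 x = 1 := fun x hx => by simpa using hf.l 1 (one_mem _) 1 (one_mem _) x hx
      intro j hj
      induction hj using Nat.decreasingInduction with
      | self => rw [hn]; rintro _ rfl; exact f1
      | of_succ j hj ih =>
        rcases h3 ⟨i, hi⟩ ⟨j, hj⟩ with h4 | h4 | h4
        · exact Lay.form_triv _ _ h4 (hX j hj.le) hf ih
        · intro y hy x hx
          let φ : U →* A := MonoidHom.mk' (fun u => f u x) fun a b => hf.l _ a.2 _ b.2 x hx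
          have : ⁅U, U⁆ ⊔ X (j + 1) ≤ φ.ker.map U.subtype := sup_le (commutator_le.2 fun a ha b hb =>
            ⟨⁅(⟨a, ha⟩ : U), (⟨b, hb⟩ : U)⁆, by rw [SetLike.mem_coe, MonoidHom.mem_ker, map_commutatorElement, commutatorElement_eq_one_iff_mul_comm, mul_comm], rfl⟩)
            fun y hy => ⟨⟨y, hX _ hj hy⟩, ih y hy x hx, rfl⟩
          obtain ⟨y, hy', rfl⟩ := this (h4 hy)
          exact hy'
        · intro y hy x hx
          obtain ⟨y', k1, x', k2, k3, k4, k5⟩ := h4 E ψ h y hy x hx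
          obtain ⟨a, rfl⟩ := hr (hU (hX j hj.le k1))
          obtain ⟨b, rfl⟩ := hr (hU (hX i hi.le k2))
          rw [← mul_inv_cancel_left (ψ' a) y, hf.l _ (hX j hj.le k1) _ (hX _ hj k3) _ hx, ih _ k3 _ hx, mul_one,
            ← mul_inv_cancel_left (ψ' b) x, hf.r _ (hX j hj.le k1) _ k2 _ ((L ⟨i, hi⟩).le k4), hf.z _ (hX j hj.le k1) _ k4, mul_one]
          exact hf.lc a b (Subtype.ext (k5 _ _ rfl rfl))
  obtain ⟨N, hN, e, hN'⟩ := key 0 n.zero_le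
  rw [h0] at e
  have : ⁅U.comap ψ, U.comap ψ⁆ ≤ N.map (B.comap ψ).subtype := commutator_le.2 fun a ha b hb => by
    obtain ⟨a', a1, a2⟩ := e.ge ha
    obtain ⟨b', b1, b2⟩ := e.ge hb
    exact ⟨⁅a', b'⁆, mul_mem (mul_mem (mul_mem a1 b1) (inv_mem a1)) (inv_mem b1), h.comm_congr a2 b2⟩
  intro z hz h4
  obtain ⟨z, hz', rfl⟩ := this hz
  exact congrArg Subtype.val (hN' z hz' h4)

theorem splitAt_of_coord {G : Type u} [Group G] (r : ℕ) {U H : Subgroup G} (hHc : ∀ k ∈ H, ∀ k' ∈ H, k * k' = k' * k) {n : ℕ}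
    {K : Type*} [Field K] (co lam : Fin n → G → K)
    (add : ∀ i, ∀ x ∈ U, ∀ y ∈ U, (∀ j < i, co j x = 0) → (∀ j < i, co j y = 0) → co i (x * y) = co i x + co i y)
    (sep : ∀ x ∈ U, (∀ j, co j x = 0) → x = 1) (surj : ∀ i t, ∃ x ∈ U, (∀ j < i, co j x = 0) ∧ co i x = t)
    (conj : ∀ k ∈ H, (∀ i, lam i k ≠ 0) ∧ ∀ x ∈ U, k * x * k⁻¹ ∈ U ∧ ∀ i, co i (k * x * k⁻¹) = lam i k * co i x)
    (comm : ∀ i, ∀ u ∈ U, ∀ x ∈ U, (∀ j < i, co j x = 0) → co i ⁅u, x⁆ = 0) (h2 : ∀ i, ∃ k ∈ H, lam i k ≠ 1)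
    (h3 : ∀ i j, NF H (lam i) (lam j)) : SplitAt G r U := by
  have one : ∀ j, co j 1 = 0 := fun j => by
    induction j using WellFoundedLT.induction with
    | _ j ih => simpa using add j 1 (one_mem _) 1 (one_mem _) ih ih
  let X : ℕ → Subgroup G := fun i =>
    { carrier := {g | g ∈ U ∧ ∀ j : Fin n, (j : ℕ) < i → co j g = 0}
      one_mem' := ⟨one_mem _, fun j _ => one j⟩
      mul_mem' := fun {x y} hx hy => ⟨mul_mem hx.1 hy.1, fun j hj => by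
        rw [add j x hx.1 y hy.1 (fun k hk => hx.2 k (lt_trans hk hj)) (fun k hk => hy.2 k (lt_trans hk hj)), hx.2 j hj, hy.2 j hj, add_zero]⟩
      inv_mem' := fun {x} hx => ⟨inv_mem hx.1, fun j hj => by
        induction j using WellFoundedLT.induction with
        | _ j ih =>
          have := add j x hx.1 _ (inv_mem hx.1) (fun k hk => hx.2 k (lt_trans hk hj)) fun k hk => ih k hk (lt_trans hk hj)
          rwa [mul_inv_cancel, one, hx.2 j hj, zero_add, eq_comm] at this⟩ }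
  have su : ∀ (i : Fin n) x, x ∈ X i → co i x = 0 → x ∈ X (i + 1) := fun i x hx h => ⟨hx.1, fun j hj =>
    (Nat.lt_succ_iff_lt_or_eq.1 hj).elim (hx.2 j) fun e => Fin.ext e ▸ h⟩
  refine splitAt_of_layers r hHc (X := X) (K := fun _ => K) (Subgroup.ext fun g => ⟨fun h => h.1, fun h => ⟨h, by simp⟩⟩)
    (eq_bot_iff.2 fun g h => sep g h.1 fun j => h.2 j j.2) (fun i => ⟨co i, lam i, fun g h => ⟨h.1, fun j hj => h.2 j (by omega)⟩,
      fun x hx y hy => add i x hx.1 y hy.1 hx.2 hy.2, fun x hx => ⟨su i x hx, fun h => h.2 i (by omega)⟩,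
      fun t => (surj i t).imp fun x h => ⟨⟨h.1, h.2.1⟩, h.2.2⟩, fun k hk => (conj k hk).1 i,
      fun k hk x hx => ⟨⟨((conj k hk).2 x hx.1).1, fun j hj => by rw [((conj k hk).2 x hx.1).2, hx.2 j hj, mul_zero]⟩,
        ((conj k hk).2 x hx.1).2 i⟩⟩) (fun i u hu x hx => ⟨mul_mem (mul_mem (mul_mem hu hx.1) (inv_mem hu)) (inv_mem hx.1), fun j hj =>
      comm j u hu x hx.1 fun k hk => hx.2 k (by have : (k : ℕ) < j := hk; omega)⟩) h2 fun i j => .inl (h3 i j)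

end Cfsg.Agent.H5
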