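import Cfsg.Agent.H5.Sm1
import Cfsg.Agent.H5.Sz5
import Cfsg.Agent.H5.AutU

set_option autoImplicit false
set_option maxRecDepth 100000

namespace Cfsg.Agent.H5

open Subgroup Cfsg.Lie
open scoped commutatorElement

universe u

section poly
open Polynomial
variable {K : Type*} [Field K] [Fintype K]

theorem exists_v1 {e : ℕ} {θ : K →+* K} (hθ : ∀ t, θ t = t ^ e) (he : e ≠ 0) (h : 2 * e + 6 < Fintype.card K) :
    ∃ v : K, v ≠ 0 ∧ v + 1 ≠ 0 ∧ (v ^ 2 * θ v)⁻¹ + 1 ≠ ((v + 1) ^ 2 * (θ v + 1))⁻¹ := by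
  obtain ⟨v, hv⟩ := exists_not_root (K := K) ⟨Finset.univ, h⟩
    (X * (X + 1) * ((1 + X ^ 2 * X ^ e) * ((X + 1) ^ 2 * (X ^ e + 1)) - X ^ 2 * X ^ e))
    (mul_ne_zero (mul_ne_zero X_ne_zero (X_add_C_ne_zero 1)) fun h => by simpa [he] using congrArg (eval 0) h) (by compute_degree; omega)
  simp only [eval_mul, eval_X, eval_sub, eval_pow, eval_one, eval_add, ne_eq, mul_eq_zero, not_or, sub_eq_zero] at hv
  refine ⟨v, hv.1.1, hv.1.2, fun h => hv.2 ?_⟩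
  have h1 : v ^ 2 * θ v ≠ 0 := mul_ne_zero (pow_ne_zero _ hv.1.1) ((map_ne_zero θ).2 hv.1.1)
  have h2 : (v + 1) ^ 2 * (θ v + 1) ≠ 0 := mul_ne_zero (pow_ne_zero _ hv.1.2) (by simpa using (map_ne_zero θ).2 hv.1.2)
  rw [← hθ]
  generalize v ^ 2 * θ v = a, (v + 1) ^ 2 * (θ v + 1) = b at *
  field_simp at h
  linear_combination h

theorem exists_v2 (h : 11 < Fintype.card K) :
    ∃ v : K, v ≠ 0 ∧ v + 1 ≠ 0 ∧ v - 1 ≠ 0 ∧ v⁻¹ + 1 ≠ (v + 1)⁻¹ ∧ (v ^ 2 + 1) * (v ^ 2 - (v ^ 2 - 1) ^ 2) ≠ 0 := by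
  obtain ⟨v, hv⟩ := exists_not_root (K := K) ⟨Finset.univ, h⟩
    (X * (X + 1) * ((X - 1) * (X ^ 2 + X + 1) * ((X ^ 2 + 1) * (X ^ 2 - (X ^ 2 - 1) ^ 2))))
    (mul_ne_zero (mul_ne_zero X_ne_zero (X_add_C_ne_zero 1)) fun h => by simpa using congrArg (eval 0) h) (by compute_degree)
  simp only [eval_mul, eval_X, eval_sub, eval_pow, eval_one, eval_add, ne_eq] at hv
  simp only [mul_eq_zero (b := _ * _), mul_eq_zero (a := _ * _), not_or] at hv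
  obtain ⟨h1, h2, h3⟩ := hv
  simp only [mul_eq_zero, not_or] at h1 h2
  refine ⟨v, h1.1, h1.2, h2.1, fun h => h2.2 ?_, h3⟩
  have := h1.1
  have := h1.2
  field_simp at h
  linear_combination h

end poly

theorem Suz.SzG.mult {F : Type*} [Field F] [Fintype F] [CharP F 2] {θ : F →+* F} {G : Type u} {Ω : Type*} [Group G] [MulAction G Ω]
    (Z : Suz.SzG θ G Ω) [Finite G] [Finite Ω] {e : ℕ} (hθ : ∀ t, θ t = t ^ e) (he : 3 ≤ e) (h : 2 * e + 6 < Fintype.card F) :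
    HasCyclicSchurMultiplier G 1 := mult_triv fun r hr => by
  haveI := Fact.mk hr
  by_cases h2 : r ≠ 2
  · obtain ⟨P⟩ : Nonempty (Sylow r G) := inferInstance
    obtain ⟨y, hy⟩ := Suz.exists_gen (Z.cyclic_of_odd h2 P.isPGroup')
    exact ⟨P, P.not_dvd_index, splitAt_cyclic r hy.le⟩
  obtain rfl := not_not.1 h2
  refine ⟨_, Z.odd_index Z.inf, ?_⟩
  let c := Function.invFun fun p : F × F => Z.u p.1 p.2
  have hc : ∀ a b, c (Z.u a b) = (a, b) := fun a b => Function.leftInverse_invFun (f := fun p : F × F => Z.u p.1 p.2)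
    (fun _ _ h => Prod.ext (Z.u_inj.1 h).1 (Z.u_inj.1 h).2) (a, b)
  let d := Function.invFun Z.h
  have hd : ∀ k, d (Z.h k) = k := Function.leftInverse_invFun Z.h_inj
  have h0 : (2 : F) = 0 := CharP.cast_eq_zero F 2
  have θ0 : ∀ k : Fˣ, θ k ≠ 0 := fun k => (map_ne_zero θ).2 k.ne_zero
  obtain ⟨v, v0, v1, v2⟩ := exists_v1 hθ (by omega) h
  obtain ⟨w, w0, w1, w2, w3, -⟩ := exists_v2 (K := F) (by omega)
  have s0 : ∀ t ≠ 0, ∃ k : Fˣ, θ k = t := fun t ht => (Finite.surjective_of_injective θ.injective t).elim fun k e =>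
    ⟨.mk0 k fun h => ht (by rw [← e, h, map_zero]), e⟩
  refine splitAt_of_coord 2 (H := Z.h.range) (by rintro _ ⟨k, rfl⟩ _ ⟨l, rfl⟩; rw [← map_mul, mul_comm, map_mul])
    ![fun g => (c g).1, fun g => (c g).2] ![fun g => θ (d g), fun g => (d g) ^ 2 * θ (d g)] ?_ ?_ ?_ ?_ ?_ ?_ ?_
  all_goals simp only [Z.mem_K_inf, Fin.forall_fin_two]
  · constructor <;> rintro _ ⟨a, b, rfl⟩ _ ⟨a', b', rfl⟩ <;> simp +contextual [Z.u_mul, hc]
  · rintro _ ⟨a, b, rfl⟩; simp +contextual [hc]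
  · exact ⟨fun t => ⟨_, ⟨t, 0, rfl⟩, by simp [hc]⟩, fun t => ⟨_, ⟨0, t, rfl⟩, by simp [hc]⟩⟩
  · rintro _ ⟨k, rfl⟩
    refine ⟨by simp [hd], ?_⟩
    rintro _ ⟨a, b, rfl⟩
    simp [Z.h_u, hc, hd, Z.u_inj]
  · constructor <;> rintro _ ⟨a, b, rfl⟩ _ ⟨a', b', rfl⟩ <;>
      simp +contextual [commutatorElement_def, Z.u_inv, Z.u_mul, hc, CharTwo.add_self_eq_zero]
    · linear_combination (a + a') * h0
    · intro; linear_combination (b + b' + θ a * a) * h0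
  · obtain ⟨k, hk⟩ := s0 w w0
    obtain ⟨l, hl⟩ := Z.exists_nrm w0
    exact ⟨⟨_, ⟨k, rfl⟩, by simpa [hd, hk, sub_eq_zero] using w2⟩, _, ⟨l, rfl⟩, by simpa [hd, hl, sub_eq_zero] using w2⟩
  · have n01 : NF Z.h.range (fun g => ((d g : F) ^ 2 * θ (d g))) fun g => θ (d g) :=
      NF.three ⟨.mk0 v v0, rfl⟩ ⟨1, rfl⟩ ⟨.mk0 _ v1, rfl⟩ (by simp only [hd]; simp) (by simp only [hd]; simpa using v2)
    obtain ⟨k, hk⟩ := s0 w w0
    obtain ⟨k', hk'⟩ := s0 _ w1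
    obtain ⟨l, hl⟩ := Z.exists_nrm w0
    obtain ⟨l', hl'⟩ := Z.exists_nrm w1
    exact ⟨⟨NF.three ⟨k, rfl⟩ ⟨1, rfl⟩ ⟨k', rfl⟩ (by simp [hd, hk, hk', -map_one, map_one θ]) (by simpa [hd, hk, hk', -map_one, map_one θ] using w3),
      n01.symm⟩, n01, NF.three ⟨l, rfl⟩ ⟨1, rfl⟩ ⟨l', rfl⟩ (by simp [hd, hl, hl', -map_one, map_one θ])
        (by simpa [hd, hl, hl', -map_one, map_one θ] using w3)⟩

theorem splitAt_ree {K : Type*} [Field K] [Fintype K] [CharP K 3] {s : K →+* K} (h2 : ∀ t, s (s t) = t ^ 3) {e : ℕ} (hs : ∀ t, s t = t ^ e)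
    (he : 3 ≤ e) (h : 2 * e + 6 < Fintype.card K) {G : Type u} [Group G] {U H : Subgroup G} {u : K × K × K → G} (ui : Function.Injective u)
    (hU : ∀ g, g ∈ U ↔ ∃ x, g = u x) (um : ∀ x y, u (reM s x y) = u x * u y) (hHc : ∀ k ∈ H, ∀ k' ∈ H, k * k' = k' * k)
    (h3 : ∀ k ∈ H, ∃ d ≠ 0, ∀ x, k * u x * k⁻¹ = u (reA s d x)) (h4 : ∀ d ≠ 0, ∃ k ∈ H, ∀ x, k * u x * k⁻¹ = u (reA s d x)) :
    SplitAt G 3 U := by
  have h0 : (3 : K) = 0 := CharP.cast_eq_zero K 3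
  let c := Function.invFun u
  have hc : ∀ x, c (u x) = x := Function.leftInverse_invFun ui
  let d : G → K := fun k => (c (k * u (1, 0, 0) * k⁻¹)).1
  have hd : ∀ {k a}, (∀ x, k * u x * k⁻¹ = u (reA s a x)) → d k = a := fun h => by simp [d, h, hc, reA]
  replace h4 : ∀ a ≠ 0, ∃ k ∈ H, d k = a := fun a ha => (h4 a ha).imp fun k h => ⟨h.1, hd h.2⟩
  have u0 : u (0, 0, 0) = 1 := by simpa [reM] using um (0, 0, 0) (0, 0, 0)
  have ne1 : (-1 : K) ≠ 1 := fun h => one_ne_zero (α := K) (by linear_combination h + h0)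
  obtain ⟨v, v0, v1, v2⟩ := exists_v1 hs (by omega) h
  obtain ⟨w, w0, w1, w2, w3, w4⟩ := exists_v2 (K := K) (by omega)
  have s1 : ∀ a ≠ 0, ∃ k ∈ H, d k * s (d k) = a ^ 2 := fun a ha => (h4 (s a / a) (div_ne_zero ((map_ne_zero s).2 ha) ha)).imp fun k hk =>
    ⟨hk.1, by have := (map_ne_zero s).2 ha; rw [hk.2, map_div₀, h2]; field_simp⟩
  have s2 : ∀ a ≠ 0, ∃ k ∈ H, d k ^ 2 * s (d k) = a := fun a ha =>
    (h4 (a ^ 2 / s a) (div_ne_zero (pow_ne_zero _ ha) ((map_ne_zero s).2 ha))).imp fun k hk =>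
      ⟨hk.1, by have := (map_ne_zero s).2 ha; rw [hk.2, map_div₀, map_pow, h2]; field_simp⟩
  obtain ⟨k1, m1, e1⟩ := h4 1 one_ne_zero
  obtain ⟨k2, m2, e2⟩ := h4 (-1) (by simp)
  refine splitAt_of_coord 3 hHc ![fun g => (c g).1, fun g => (c g).2.1, fun g => (c g).2.2]
    ![d, fun g => d g * s (d g), fun g => d g ^ 2 * s (d g)] ?_ ?_ ?_ ?_ ?_ ?_ ?_
  all_goals simp only [hU, Fin.forall_fin_succ, IsEmpty.forall_iff, and_true]
  · refine ⟨?_, ?_, ?_⟩ <;> rintro _ ⟨a, rfl⟩ _ ⟨b, rfl⟩ <;> simp +contextual [← um, hc, reM]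
  · rintro _ ⟨⟨a, b, c⟩, rfl⟩; simp +contextual [hc, u0]
  · exact ⟨fun t => ⟨_, ⟨(t, 0, 0), rfl⟩, by simp [hc]⟩, fun t => ⟨_, ⟨(0, t, 0), rfl⟩, by simp [hc]⟩,
      fun t => ⟨_, ⟨(0, 0, t), rfl⟩, by simp [hc]⟩⟩
  · intro k hk
    obtain ⟨a, ha, h⟩ := h3 k hk
    refine ⟨by simp [hd h, ha], ?_⟩
    rintro _ ⟨x, rfl⟩
    simp [h, hc, hd h, reA, ui.eq_iff]
  · have key : ∀ x y z, reM s x y = reM s z (reM s y x) → c ⁅u x, u y⁆ = z := fun x y z h => by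
      rw [show ⁅u x, u y⁆ = u z by rw [commutatorElement_def, mul_assoc, ← mul_inv_rev, mul_inv_eq_iff_eq_mul, ← um, ← um, ← um, h], hc]
    refine ⟨?_, ?_, ?_⟩ <;> rintro _ ⟨x, rfl⟩ _ ⟨y, rfl⟩
    · rw [Matrix.cons_val_zero, key x y (0, y.1 * s x.1 - x.1 * s y.1, (reM s x y).2.2 - (reM s y x).2.2 +
        (y.1 * s x.1 - x.1 * s y.1) * (y.1 + x.1)) (by simp only [reM, Prod.mk.injEq]; refine ⟨?_, ?_, ?_⟩ <;> ring)]
      simp
    · simp only [Fin.succ_pos, Matrix.cons_val_zero, hc, forall_true_left]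
      rintro ⟨h, -⟩
      simp [key x y (0, 0, y.2.1 * x.1) (by simp only [reM, h, Prod.mk.injEq, map_zero]; refine ⟨?_, ?_, ?_⟩ <;> ring)]
    · simp only [Fin.succ_pos, Matrix.cons_val_zero, hc, forall_true_left, Matrix.cons_val_succ]
      rintro ⟨h, h', -⟩
      simp [key x y (0, 0, 0) (by simp only [reM, h, h' (by decide), Prod.mk.injEq, map_zero]; refine ⟨?_, ?_, ?_⟩ <;> ring)]
  · obtain ⟨k, hk, e⟩ := s1 w w0
    refine ⟨⟨k2, m2, by simpa [e2] using ne1⟩, ⟨k, hk, ?_⟩, k2, m2, by simpa [e2] using ne1⟩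
    exact fun h => mul_ne_zero w1 w2 (by linear_combination e.symm.trans h)
  obtain ⟨a1, a2, a3⟩ := h4 v v0
  obtain ⟨b1, b2, b3⟩ := h4 _ v1
  obtain ⟨c1, c2, c3⟩ := h4 w w0
  obtain ⟨d1, d2, d3⟩ := h4 _ w1
  obtain ⟨f1, f2, f3⟩ := s2 w w0
  obtain ⟨g1, g2, g3⟩ := s2 _ w1
  obtain ⟨i1, i2, i3⟩ := s1 w w0
  obtain ⟨j1, j2, j3⟩ := s1 _ w1
  obtain ⟨l1, l2, l3⟩ := s1 _ w2
  have n01 : NF H d fun g => d g * s (d g) := NF.two m1 m2 (by simp [e1, e2]) (by simpa [e1, e2] using ne1.symm)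
  have n21 : NF H (fun g => d g ^ 2 * s (d g)) fun g => d g * s (d g) := NF.two m1 m2 (by simp [e1, e2]) (by simpa [e1, e2] using ne1.symm)
  have n20 : NF H (fun g => d g ^ 2 * s (d g)) d := NF.three a2 m1 b2 (by rw [a3, e1, b3]) (by simpa [a3, e1, b3] using v2)
  refine ⟨⟨NF.three c2 m1 d2 (by simp [c3, e1, d3]) (by simpa [c3, e1, d3] using w3), n01, n20.symm⟩, ⟨n01.symm, ?_, n21.symm⟩, n20, n21,
    NF.three f2 m1 g2 (by simp [f3, e1, g3]) (by simpa [f3, e1, g3] using w3)⟩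
  refine ⟨[(1, j1), (1, l1), (-2, i1), (-2, k1)], by simp [*], .inl ⟨by simp [i3, j3, l3, e1]; ring, fun h => w4 ?_⟩⟩
  replace h : ((w + 1) ^ 2)⁻¹ + ((w - 1) ^ 2)⁻¹ = 2 * (w ^ 2)⁻¹ + 2 := by
    simp [i3, j3, l3, e1, -mul_inv_rev] at h
    generalize ((w + 1) ^ 2)⁻¹ = x, ((w - 1) ^ 2)⁻¹ = y, (w ^ 2)⁻¹ = z at *
    linear_combination h
  field_simp at h
  linear_combination -h + (w ^ 2 + 1) * (w ^ 2 - (w ^ 2 - 1) ^ 2) * h0

open StN StG RS StN.Tw in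
theorem mult2G2 {K : Type*} [Field K] [Fintype K] {m : ℕ} (hm : 1 ≤ m) (hK : Fintype.card K = 3 ^ (2 * m + 1)) :
    HasCyclicSchurMultiplier (twistedG2 K (3 ^ m)) 1 := mult_triv fun r hr => by
  haveI := Fact.mk hr
  obtain ⟨a, -, -, _, X, -⟩ := exists_ree hK
  obtain ⟨P⟩ : Nonempty (Sylow r (twistedG2 K (3 ^ m))) := inferInstance
  by_cases h2 : r = 2
  · subst h2
    exact ⟨P, P.not_dvd_index, splitAt_elem (by rw [X.card_two]; decide) (fun x => X.sq_eq_one P.isPGroup') X.invol⟩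
  by_cases h3 : r ≠ 3
  · by_cases h : (P : Subgroup (twistedG2 K (3 ^ m))) = ⊥
    · exact ⟨P, P.not_dvd_index, splitAt_cyclic r (y := 1) (h.le.trans bot_le)⟩
    obtain ⟨i, x, h⟩ := X.le_tor (by have := hr.two_le; omega) P.isPGroup' h
    exact ⟨P, P.not_dvd_index, splitAt_cyclic r h⟩
  obtain rfl := not_not.1 h3
  haveI := charP_of_card Nat.prime_three hK
  obtain ⟨θ, hθ, h2⟩ := exists_theta Nat.prime_three hK
  have A := act2G2 θ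
  have Z := (nt2G2 A h2).re (eq2G2 h2 hθ)
  have h3 := rel3_of_inj Z.hπ
  let s := (frobenius K 3).comp θ
  have hs : ∀ t, s t = θ t ^ 3 := fun _ => rfl
  choose u hu using fun x => Z.pre ((tw2G2 θ).G1b_le _ 0 (Subgroup.mem_sup_left ((mem2G2_P A h2).2 ⟨x, rfl⟩)))
  have hU : ∀ g, Subgroup.inclusion (Γ_le (eq2G2 h2 hθ)) g ∈ (rsG2.adj K).U {r | rsG2.Pos r} ↔ ∃ x, g = u x := fun g =>
    ⟨fun h => ((mem2G2_P A h2).1 ⟨subP2G2 ▸ h, Z.fix g⟩).imp fun x e => Z.inj (e.trans (hu x).symm),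
      fun ⟨x, e⟩ => by rw [e, hu, ← subP2G2]; exact ((mem2G2_P A h2).2 ⟨x, rfl⟩).1⟩
  have uh : ∀ {k χ}, (rsG2.adj K).Diag (Subgroup.inclusion (Γ_le (eq2G2 h2 hθ)) k) χ → ∀ x,
      k * u x * k⁻¹ = u (reA s (rsG2.cv' χ (rsG2.sim (1 : Fin 2))) x) := fun {k χ} h x => Z.inj (by
    rw [map_mul, map_mul, map_inv, hu, hu, h.conj_WN]
    refine congrArg _ (reeW_map h2 hs (τ := RingEquiv.refl K) ⟨?_, rfl⟩ (fun _ => rfl) x)
    exact ((tw2G2 θ).cv'_σ h (((tw2G2 θ).mem_Fix.1 (Z.fix k)).symm ▸ h) (rsG2.sim (1 : Fin 2))).trans ((A.φ _ _).trans (pow_one _)))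
  refine ⟨Z.sylow 3, (Z.sylow 3).not_dvd_index, splitAt_ree (s := s) (fun t => by rw [hs, hs, map_pow, h2]) (e := 3 ^ m * 3)
    (fun t => by rw [hs, hθ, pow_mul]) (by have := Nat.one_le_pow m 3 three_pos; omega) ?_
    (H := (rsG2.adj K).H.comap (Subgroup.inclusion (Γ_le (eq2G2 h2 hθ)))) (fun x y e => reeW_inj ((hu x).symm.trans ((congrArg _ e).trans (hu y))))
    (fun g => (Z.mem_sylow 3).trans (hU g)) (fun x y => Z.inj (by rw [map_mul, hu, hu, hu, reeW_mul A h2 hs])) (fun k hk l hl => Z.inj ?_)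
    (fun k hk => ?_) fun d hd => ?_⟩
  · have : 3 ≤ 3 ^ m := Nat.le_self_pow (by omega) 3
    rw [hK, pow_succ, pow_mul']; nlinarith
  · obtain ⟨χ, h⟩ := exists_diag hk
    obtain ⟨χ', h'⟩ := exists_diag hl
    rw [map_mul, map_mul]
    exact Diag.eq Z.hπ (h.mul h') (mul_comm χ' χ ▸ h'.mul h)
  · obtain ⟨χ, h⟩ := exists_diag hk
    exact ⟨_, Units.ne_zero _, uh h⟩
  lift d to Kˣ using hd.isUnit
  obtain ⟨k, hk⟩ := Z.pre (H_le2G2 A h2 Z.hπ hK (hp_mem_Fix h3 ((ac2G2 A h2).2 ⟨d ^ 2 * Units.map (θ : K →* K) d ^ 3, rfl⟩)))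
  refine ⟨k, mem_comap.2 (hk ▸ hp_mem _), fun x => ?_⟩
  rw [uh (hk ▸ diag_hp _)]
  congr 2
  refine (congrArg _ ((rsG2.cv'_tau K _ _).trans (Fin.prod_univ_two _))).trans ?_
  change ((Units.map (θ : K →* K) _ ^ (-3 : ℤ) * (d ^ 2 * Units.map (θ : K →* K) d ^ 3) ^ (2 : ℤ) : Kˣ) : K) = _
  have := (map_ne_zero θ).2 hd
  simp [h2]
  field_simp

end Cfsg.Agent.H5
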