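import Cfsg.Agent.H5.St1
import Cfsg.Agent.B.Induce

set_option autoImplicit false

namespace Cfsg.Agent.H5
open Cfsg.Lie MonoidAlgebra Cfsg.Agent.B

section alg
variable (k : Type*) [CommRing k] {G : Type*} [Group G] [Finite G]

open Classical in
/-- the sum of the elements of a subgroup -/
noncomputable def sg (A : Subgroup G) : MonoidAlgebra k G := mkA fun g => if g ∈ A then 1 else 0

variable {k}
open Classical in
theorem coeff_sg (A : Subgroup G) (g : G) : (sg k A).coeff g = if g ∈ A then 1 else 0 := coeff_mkA _ g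

theorem of_mul_sg {g : G} {A A' : Subgroup G} (h : ∀ x, g * x * g⁻¹ ∈ A' ↔ x ∈ A) : of k G g * sg k A = sg k A' * of k G g :=
  extA fun x => by classical rw [coeff_of_mul, coeff_mul_of, coeff_sg, coeff_sg]; exact if_congr (by rw [← h]; simp) rfl rfl

theorem of_mul_sg_self {a : G} {A : Subgroup G} (h : a ∈ A) : of k G a * sg k A = sg k A :=
  extA fun x => by classical rw [coeff_of_mul, coeff_sg, coeff_sg]; exact if_congr (mul_mem_cancel_left (inv_mem h)) rfl rfl

theorem sg_mul_of_self {a : G} {A : Subgroup G} (h : a ∈ A) : sg k A * of k G a = sg k A :=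
  extA fun x => by classical rw [coeff_mul_of, coeff_sg, coeff_sg]; exact if_congr (mul_mem_cancel_right (inv_mem h)) rfl rfl

theorem sg_eq_sum {ι : Type*} [Fintype ι] {A : Subgroup G} (f : ι → G) (hf : Function.Injective f) (h : ∀ g, g ∈ A ↔ ∃ i, g = f i) :
    sg k A = ∑ i, of k G (f i) := extA fun g => by
  classical
  rw [coeff_sg, coeff_sum_apply]
  simp only [coeff_of, h]
  split_ifs with h
  · obtain ⟨i, rfl⟩ := h; simp [hf.eq_iff]
  · exact (Finset.sum_eq_zero fun i _ => if_neg fun e => h ⟨i, e.symm⟩).symm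

theorem sg_eq_sum' (A : Subgroup G) [Fintype A] : sg k A = ∑ a : A, of k G a :=
  sg_eq_sum _ Subtype.val_injective fun g => ⟨fun h => ⟨⟨g, h⟩, rfl⟩, fun ⟨a, e⟩ => e ▸ a.2⟩

open Classical in
theorem coeff_dbl {A B : Subgroup G} {m : G} (h : ∀ a ∈ A, m⁻¹ * a * m ∈ B → a = 1) (g : G) :
    (sg k A * of k G m * sg k B).coeff g = if ∃ a ∈ A, ∃ b ∈ B, g = a * m * b then 1 else 0 := by
  cases nonempty_fintype A
  rw [sg_eq_sum' A, Finset.sum_mul, Finset.sum_mul, coeff_sum_apply]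
  simp only [← map_mul, coeff_of_mul, coeff_sg]
  split_ifs with h1
  · obtain ⟨a, ha, b, hb, rfl⟩ := h1
    rw [Finset.sum_eq_single ⟨a, ha⟩ (fun c _ hc => if_neg fun h2 => hc (Subtype.ext ?_)) (by simp), if_pos (by simpa [mul_assoc] using hb)]
    exact inv_mul_eq_one.1 (h _ (mul_mem (inv_mem c.2) ha) (by simpa [mul_assoc] using mul_mem h2 (inv_mem hb)))
  · exact Finset.sum_eq_zero fun a _ => if_neg fun h2 => h1 ⟨a, a.2, _, h2, by group⟩

theorem sg_mul_sg {A B C : Subgroup G} (hA : A ≤ C) (hB : B ≤ C) (h : ∀ c ∈ C, ∃ a ∈ A, ∃ b ∈ B, c = a * b)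
    (h1 : ∀ a ∈ A, a ∈ B → a = 1) : sg k C = sg k A * sg k B := extA fun g => by
  classical
  have := coeff_dbl (k := k) (A := A) (B := B) (m := 1) (by simpa using h1) g
  rw [map_one, mul_one] at this
  rw [this, coeff_sg]
  exact if_congr ⟨fun hg => by simpa using h g hg, fun ⟨a, ha, b, hb, e⟩ => by simpa [e] using mul_mem (hA ha) (hB hb)⟩ rfl rfl

theorem sg_comm {A B : Subgroup G} (h : ∀ a ∈ A, ∀ b ∈ B, a * b * a⁻¹ ∈ B) : sg k A * sg k B = sg k B * sg k A := by
  cases nonempty_fintype A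
  rw [sg_eq_sum' A, Finset.sum_mul, Finset.mul_sum]
  exact Finset.sum_congr rfl fun a _ => of_mul_sg fun x => ⟨fun h' => by simpa [mul_assoc] using h _ (inv_mem a.2) _ h', h _ a.2 x⟩

theorem sg_mul_self (A : Subgroup G) : sg k A * sg k A = Nat.card A • sg k A := by
  cases nonempty_fintype A
  conv_lhs => enter [1]; rw [sg_eq_sum' A]
  rw [Finset.sum_mul, Finset.sum_congr rfl fun a _ => of_mul_sg_self a.2]; simp

theorem mul_sg_ne_zero {p : ℕ} [Fact p.Prime] [CharP k p] {A : Subgroup G} (hA : IsPGroup p A) {e : MonoidAlgebra k G}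
    (he : e ∈ cent k G) (h2 : e * e = e) (h0 : e ≠ 0) : e * sg k A ≠ 0 := fun h => by
  classical
  cases nonempty_fintype G
  let V : AddSubgroup (MonoidAlgebra k G) := (LinearMap.ker (LinearMap.mulLeft k (1 - e))).toAddSubgroup
  have hV : ∀ v, v ∈ V ↔ e * v = v := fun v => by simp [V, sub_mul, sub_eq_zero, eq_comm]
  letI : DistribMulAction A V :=
    { smul := fun a v => ⟨v * of k G (a : G)⁻¹, (hV _).2 (by rw [← mul_assoc, (hV _).1 v.2])⟩
      one_smul := fun v => Subtype.ext (by change v.1 * _ = _; simp [← MonoidAlgebra.one_def])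
      mul_smul := fun a b v => Subtype.ext (by change v.1 * _ = v.1 * _ * _; rw [mul_assoc, ← map_mul]; simp)
      smul_zero := fun a => Subtype.ext (zero_mul _)
      smul_add := fun a v w => Subtype.ext (add_mul _ _ _) }
  obtain ⟨w, hw, h1⟩ := exists_fixed_ne_zero (p := p) (V := V) (fun v => Subtype.ext (by
    change p • v.1 = 0; rw [← Nat.cast_smul_eq_nsmul k, CharP.cast_eq_zero, zero_smul])) hA
    (v := ⟨e, (hV _).2 h2⟩) fun h => h0 (congrArg Subtype.val h)
  have h3 : w.1 = ∑ q : G ⧸ A, w.1.coeff q.out • (of k G q.out * sg k A) := extA fun g => by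
    rw [coeff_sum_apply, Finset.sum_eq_single (g : G ⧸ A) (fun q _ hq => ?_) (by simp)]
    · have h4 : ((g : G ⧸ A).out)⁻¹ * g ∈ A := QuotientGroup.eq.1 (QuotientGroup.out_eq' _)
      have h5 : w.1 * of k G _ = w.1 := congrArg Subtype.val (h1 ⟨_, h4⟩)
      rw [coeff_smul', coeff_of_mul, coeff_sg, if_pos h4, mul_one]
      conv_rhs => rw [← h5, coeff_mul_of]
      simp
    · rw [coeff_smul', coeff_of_mul, coeff_sg, if_neg fun h => hq (by rw [← QuotientGroup.eq.2 h, QuotientGroup.out_eq']), mul_zero]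
  refine hw (Subtype.ext ?_)
  rw [← (hV _).1 w.2, h3, Finset.mul_sum]
  exact Finset.sum_eq_zero fun q _ => by rw [mul_smul_comm, ← mul_assoc, (commute_of_cent he _).eq, mul_assoc, h]; simp

end alg

variable {D : ChevalleyDatum}

namespace StN
open StG RS
variable {R : RS D} {F : Type*} [Field F] {G : Type*} [Group G] {S : StN R F G}

theorem x_inj' (r : Φ D) : Function.Injective (S.x r) := fun t u h =>
  sub_eq_zero.1 (x_eq_one (S := S) (r := r) (by rw [sub_eq_add_neg, ← S.r1, ← S.x_inv, h]; simp))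

variable {k : Type*} [Field k] [Finite G] [Finite F] (p : ℕ) [Fact p.Prime] [CharP F p] [CharP k p]

include p in
theorem hr_mul_xi (h3 : R.Rel3 S.x) (r : Φ D) (c : Fˣ) :
    of k G (S.hr r c) * (sg k (S.U {r}) * sg k (S.U {R.neg r}) * sg k (S.U {r})) =
      sg k (S.U {r}) * sg k (S.U {R.neg r}) * sg k (S.U {r}) := by
  cases nonempty_fintype F
  rw [sg_eq_sum (S.x (R.neg r)) (x_inj' _) fun g => mem_U_singleton, Finset.mul_sum, Finset.sum_mul, Finset.mul_sum,
    ← Equiv.sum_comp (Equiv.mulLeft₀ (c : F) c.ne_zero)]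
  refine Finset.sum_congr rfl fun t _ => ?_
  have h0 : sg k (S.U {r}) * sg k (S.U {r}) = 0 := by
    obtain ⟨n, -, hn⟩ := FiniteField.card F p
    rw [sg_mul_self, Nat.card_congr (Equiv.ofBijective (fun t => (⟨S.x r t, x_mem (Set.mem_singleton _) t⟩ : S.U {r}))
      ⟨fun _ _ h => x_inj' r (congrArg Subtype.val h), fun ⟨g, hg⟩ => (mem_U_singleton.1 hg).imp fun _ h => Subtype.ext h.symm⟩).symm,
      Nat.card_eq_fintype_card, hn, ← Nat.cast_smul_eq_nsmul k]
    simp
  have h1 : ∀ a : Fˣ, sg k (S.U {r}) * of k G (S.x (R.neg r) a) * sg k (S.U {r}) =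
      sg k (S.U {r}) * of k G (S.nr r (-a⁻¹)) * sg k (S.U {r}) := fun a => by
    rw [S.x_neg_eq, map_mul, map_mul, ← mul_assoc, ← mul_assoc, sg_mul_of_self (x_mem (Set.mem_singleton r) _), mul_assoc,
      of_mul_sg_self (x_mem (Set.mem_singleton r) _)]
  by_cases ht : t = 0
  · simp [ht, ← MonoidAlgebra.one_def, h0]
  · lift t to Fˣ using Ne.isUnit ht
    simp only [Equiv.mulLeft₀_apply]
    rw [← Units.val_mul, h1, h1, ← mul_assoc, ← mul_assoc, of_mul_sg (A' := S.U {r}) fun x =>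
      ⟨fun h => by simpa [mul_assoc] using H_conj_U (inv_mem (hr_mem r c)) h, H_conj_U (hr_mem r c)⟩, mul_assoc (sg k _), ← map_mul]
    have : ∀ a, S.nr r a = S.hr r a * (S.nr r (-1))⁻¹ := fun a => by simp [hr]
    rw [this (-(c * t)⁻¹), this (-t⁻¹), ← mul_assoc, hr_mul' h3]
    simp [mul_comm c t, mul_left_comm c]

theorem of_H_comm {h : G} (hh : h ∈ S.H) (T : Set (Φ D)) : of k G h * sg k (S.U T) = sg k (S.U T) * of k G h :=
  of_mul_sg fun _ => ⟨fun h => by simpa [mul_assoc] using H_conj_U (inv_mem hh) h, H_conj_U hh⟩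

variable (S k) in
/-- `σ σ⁻ σ` -/
noncomputable def tauS : MonoidAlgebra k G := sg k (S.U {r | R.Pos r}) * sg k (S.U {r | ¬ R.Pos r}) * sg k (S.U {r | R.Pos r})

include p in
theorem H_mul_tau (h3 : R.Rel3 S.x) {h : G} (hh : h ∈ S.H) : of k G h * S.tauS k = S.tauS k := by
  classical
  induction hh using Subgroup.closure_induction with
  | one => simp [← MonoidAlgebra.one_def]
  | mul a b _ _ ha hb => rw [map_mul, mul_assoc, hb, ha]
  | inv a _ ha => conv_lhs => rw [← ha, ← mul_assoc, of_inv_mul_of, one_mul]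
  | mem a ha =>
    obtain ⟨i, c, rfl⟩ := ha
    have key : ∀ (L L' : (I D → ℤ) →ₗ[ℤ] ℤ) (r : Φ D) (T : Set (Φ D)), (∀ s, s ∈ T ↔ 0 < L (R.vec s)) → r ∈ T → L' (R.vec r) = 0 →
        (∀ s, s ∈ T ↔ s = r ∨ 0 < L' (R.vec s)) → sg k (S.U T) = sg k (S.U {r}) * sg k (S.U {s | 0 < L' (R.vec s)}) :=
      fun L L' r T h1 h2 h3 h4 => sg_mul_sg (U_mono (by simpa using h2)) (U_mono fun s hs => (h4 s).2 (Or.inr hs))
        (fun c hc => exists_mul (L := L) (by rw [show T = _ from Set.ext h1]; exact closed_pos L) (fun s => (h1 s).1)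
          (Set.ext h4) hc) fun a ha hb => by
          obtain ⟨t, rfl⟩ := mem_U_singleton.1 ha
          rw [(x_mem_iff (L := L) (closed_pos L') (fun s hs => (h1 s).1 ((h4 s).2 (Or.inr hs))) ((h1 r).1 h2) hb rfl).resolve_left
            (by simp [h3]), S.x_zero]
    have comm : ∀ (L' : (I D → ℤ) →ₗ[ℤ] ℤ) (r : Φ D), L' (R.vec r) = 0 →
        sg k (S.U {r}) * sg k (S.U {s | 0 < L' (R.vec s)}) = sg k (S.U {s | 0 < L' (R.vec s)}) * sg k (S.U {r}) :=
      fun L' r h => sg_comm fun a ha b hb => U_conj_mem (by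
        rintro _ rfl s hs
        refine ⟨by rintro rfl; simp [R.vec_neg, h] at hs, fun u hu => ?_⟩
        obtain ⟨a, b, -, hb, e⟩ := hu.lin
        rw [Set.mem_setOf_eq, e, h, mul_zero, zero_add]; exact mul_pos (by omega) hs) ha hb
    have hs : lamJ {i} (R.vec (R.sim i)) = 0 := lamJ_sub (sim_mem_sub.2 rfl)
    have hP : ∀ s, R.Pos s ↔ s = R.sim i ∨ 0 < lamJ {i} (R.vec s) := fun s => by
      rw [lamJ_pos_iff]
      refine ⟨fun h => or_iff_not_imp_right.2 fun h' => (R.reduced fun j hj => ?_).resolve_right ?_,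
        fun h => h.elim (fun e => e ▸ R.pos_sim i) (·.1)⟩
      · exact not_not.1 (not_and.1 h' h) j hj
      · rintro rfl; exact (R.pos_neg_iff _).1 h (R.pos_sim i)
    have e1 := key R.lamf (lamJ {i}) (R.sim i) {r | R.Pos r} (fun _ => Iff.rfl) (R.pos_sim i) hs hP
    have e2 := key (-R.lamf) (-lamJ {i}) (R.neg (R.sim i)) {r | ¬ R.Pos r}
      (fun s => ⟨neg_pos, fun h h' => by simp [Pos, ht] at h h'; omega⟩)
      (fun h => (R.pos_neg_iff _).1 h (R.pos_sim i)) (by simp [R.vec_neg, hs])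
      fun s => by rw [Set.mem_setOf_eq, ← R.pos_neg_iff, hP, R.neg_eq_iff, R.vec_neg]; simp
    have e3 : S.tauS k = sg k (S.U {s | 0 < lamJ {i} (R.vec s)}) * (sg k (S.U {R.sim i}) * sg k (S.U {R.neg (R.sim i)}) *
        sg k (S.U {R.sim i})) * (sg k (S.U {s | 0 < (-lamJ {i}) (R.vec s)}) * sg k (S.U {s | 0 < lamJ {i} (R.vec s)})) := by
      rw [tauS, e2]
      conv_lhs => enter [1, 1]; rw [e1, comm _ _ hs]
      rw [e1]
      simp only [mul_assoc]
      rw [← mul_assoc (sg k (S.U {s | 0 < (-lamJ {i}) (R.vec s)})), ← comm _ _ (by simp [hs]), mul_assoc]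
    rw [e3, ← mul_assoc (of k G _), ← mul_assoc (of k G _), of_H_comm (S.h_mem i c), mul_assoc (sg k _) (of k G _), StN.h, hr_mul_xi p h3]

include p in
theorem exists_smul_tau (hgen : S.U Set.univ = ⊤) (h3 : R.Rel3 S.x) {e : MonoidAlgebra k G} (he : e ∈ cent k G) (h2 : e * e = e)
    (h0 : ∀ g, ∀ u ∈ S.U {r | R.Pos r}, u ≠ 1 → Commute u g → e.coeff g = 0) :
    ∃ c : k, e * sg k (S.U {r | R.Pos r}) = c • S.tauS k := by
  classical
  cases nonempty_fintype G
  obtain ⟨n, hn, hl⟩ := exists_N_lift (S := S) (R.wJ Set.univ)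
  set σ := sg k (S.U {r | R.Pos r}) with hσ
  set a := e * σ with ha
  have h4 : ∀ u ∈ S.U {r | R.Pos r}, ∀ v ∈ S.U {r | R.Pos r}, ∀ g, a.coeff (u * g * v) = a.coeff g := fun u hu v hv g => by
    have : of k G u⁻¹ * a * of k G v⁻¹ = a := by
      rw [ha, ← mul_assoc, ← (commute_of_cent he _).eq, mul_assoc e, of_mul_sg_self (inv_mem hu), mul_assoc,
        sg_mul_of_self (inv_mem hv)]
    conv_rhs => rw [← this, coeff_mul_of, coeff_of_mul]
    simp [mul_assoc]
  have h5 : a = ∑ h : S.H, a.coeff (n * h) • (σ * of k G (n * h) * σ) := extA fun g => by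
    have h6 : ∀ h : S.H, ∀ u ∈ S.U {r | R.Pos r}, (n * h)⁻¹ * u * (n * h) ∈ S.U {r | R.Pos r} → u = 1 := fun h u hu h' => by
      have := H_conj_U h.2 h'
      exact conj_eq_one_iff.1 (eq_one_of_B_V (S.U_le_B this) (v := n⁻¹ * u * n⁻¹⁻¹)
        ((Tw.Re.w0_V (inv_mem hn) (hl.inv_wJ hn)).2 hu) (by simp [mul_assoc]))
    simp only [coeff_sum_apply, coeff_smul', hσ, coeff_dbl (h6 _)]
    obtain ⟨b, hb, m, hm, w, hw, v, hv, rfl⟩ := bruhat' (hgen ▸ Subgroup.mem_top g : g ∈ S.U Set.univ)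
    obtain ⟨u, hu, t, ht, rfl⟩ := mem_B.1 hb
    replace hv := U_mono (T' := {r | R.Pos r}) (fun _ h => h.1) hv
    have hm' := mul_mem (S.H_le_N ht) hm
    have hw' : S.Lift (t * m) w := by simpa using (lift_one_of_mem_H ht).mul hw
    rw [mul_assoc u]
    generalize t * m = m at hm' hw'
    rw [h4 u hu v hv]
    by_cases h7 : w = R.wJ Set.univ
    · subst h7
      rw [Finset.sum_eq_single ⟨_, hl.inv_mul_mem hn hm' hw'⟩ (fun h _ hh => ?_) (by simp), if_pos ⟨u, hu, v, hv, by simp⟩]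
      · simp
      · rw [if_neg, mul_zero]
        rintro ⟨u', hu', v', hv', e⟩
        have h8 : n⁻¹ * (u'⁻¹ * u) * n⁻¹⁻¹ = 1 := eq_one_of_B_V (b := h * v' * v⁻¹ * (n⁻¹ * m)⁻¹) (mul_mem (mul_mem (mul_mem
          (S.H_le_B h.2) (S.U_le_B hv')) (S.U_le_B (inv_mem hv))) (S.H_le_B (inv_mem (hl.inv_mul_mem hn hm' hw'))))
          ((Tw.Re.w0_V (inv_mem hn) (hl.inv_wJ hn)).2 (mul_mem (inv_mem hu') hu)) (by
            rw [show u = u' * (n * h) * v' * v⁻¹ * m⁻¹ by rw [← e]; group]; congr 1; group)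
        obtain rfl : u' = u := inv_mul_eq_one.1 (conj_eq_one_iff.1 h8)
        have h9 := eq_one_of_U_H (mul_mem hv' (inv_mem hv)) (mul_mem (inv_mem h.2) (hl.inv_mul_mem hn hm' hw')) (by
          rw [show m = n * h * v' * v⁻¹ by rw [← mul_left_cancel_iff (a := u'), eq_mul_inv_of_mul_eq e]; group]; congr 1; group)
        obtain rfl : v' = v := mul_inv_eq_one.1 h9
        exact hh (Subtype.ext (eq_inv_mul_iff_mul_eq.2 (mul_left_cancel (mul_right_cancel e)).symm))
    · rw [Finset.sum_eq_zero fun h _ => by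
        rw [if_neg, mul_zero]
        rintro ⟨u', hu', v', hv', e⟩
        exact h7 (cell_unique' (S.U_le_B hu) (S.U_le_B hv) (S.U_le_B hu') (S.U_le_B hv') hm' (mul_mem hn (S.H_le_N h.2)) e hw'
          (by simpa using hl.mul (lift_one_of_mem_H h.2)))]
      obtain ⟨i, hi⟩ : ∃ i, R.Pos (w⁻¹ • R.sim i) := by
        by_contra h
        exact h7 (by rw [← inv_inv w, eq_w0 (not_exists.1 h), wJ_inv])
      have h8 : ∀ x ∈ S.U {R.sim i}, m⁻¹ * x * m ∈ S.U {r | R.Pos r} := fun x hx => by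
        simpa using (hw'.inv hm').conj_mem (by rintro _ rfl; exact hi) hx
      have h9 : S.U {R.sim i} ≤ S.U {r | R.Pos r} := U_mono (by rintro _ rfl; exact R.pos_sim i)
      rw [ha, coeff_mul_sum, sum_eq_sum_centralizer (p := p) (Q := S.U {R.sim i})
        ((isPGroup_U (p := p) (L := R.lamf) closed_pos' fun _ h => h).to_le h9)]
      · refine Finset.sum_eq_zero fun x hx => ?_
        rw [h0 x _ (h9 (x_mem (Set.mem_singleton _) 1)) (fun h => one_ne_zero (x_inj' _ (h.trans (S.x_zero _).symm)))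
          ((Finset.mem_filter.1 hx).2 _ (x_mem (Set.mem_singleton _) 1)), zero_mul]
      · intro y hy x
        rw [mem_cent.1 he, coeff_sg, coeff_sg]
        congr 1
        refine if_congr ?_ rfl rfl
        rw [← mul_mem_cancel_left (inv_mem (h9 hy)), ← mul_mem_cancel_right (h8 _ hy)]
        simp [mul_assoc]
  have h6 : e * a = a := by rw [ha, ← mul_assoc, h2]
  have h8 : ∀ m, e * (σ * m * σ) = σ * m * a := fun m => by rw [← mul_assoc, (commute_of_cent he _).eq, mul_assoc _ e]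
  clear_value a
  refine ⟨∑ h : S.H, ∑ h' : S.H, a.coeff (n * h) * a.coeff (n * h'), ?_⟩
  conv_lhs => rw [← h6, h5]
  rw [Finset.mul_sum, Finset.sum_smul]
  refine Finset.sum_congr rfl fun h _ => ?_
  rw [mul_smul_comm, h8]
  conv_lhs => enter [2, 2]; rw [h5]
  rw [Finset.mul_sum, Finset.smul_sum, Finset.sum_smul]
  refine Finset.sum_congr rfl fun h' _ => ?_
  have h7 : n * h * (n * h') ∈ S.H := Lift.mem_H (mul_mem (mul_mem hn (S.H_le_N h.2)) (mul_mem hn (S.H_le_N h'.2))) (by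
    simpa [wJ_sq] using (hl.mul (lift_one_of_mem_H h.2)).mul (hl.mul (lift_one_of_mem_H h'.2)))
  rw [mul_smul_comm, smul_smul, ← H_mul_tau p h3 h7, tauS, ← mul_assoc (of k G _), ← mul_assoc (of k G _), of_H_comm h7,
    mul_assoc _ (of k G _) (sg k (S.U {r | ¬ R.Pos r})), of_H_comm h7, ← mul_assoc (σ * _), ← mul_assoc (σ * _), mul_assoc σ _ σ,
    of_mul_sg (A' := S.U {r | ¬ R.Pos r}) fun x => ?_, map_mul (of k G) (n * h)]
  · simp only [mul_assoc, hσ]
  · rw [show n * h * x * (n * h)⁻¹ = n * (h * x * (h : G)⁻¹) * n⁻¹ by group, Tw.Re.w0_V hn hl]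
    exact ⟨fun h' => by simpa [mul_assoc] using H_conj_U (inv_mem h.2) h', H_conj_U h.2⟩

variable {p} {M : Ideal AlgInt} [PMod p M] (hgen : S.U Set.univ = ⊤) (hπ : Function.Injective S.π)
include hgen hπ

theorem defect_zero_unique {B C : Set (IrrCharacter G)} (hB : IsPBlock M B) (hC : IsPBlock M C) (h1 : blockDefect p B = 0)
    (h2 : blockDefect p C = 0) : B = C := by
  have hU := isPGroup_U (S := S) (p := p) (L := R.lamf) closed_pos' fun _ h => h
  have key : ∀ B : Set (IrrCharacter G), IsPBlock M B → blockDefect p B = 0 →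
      ∃ c, eB M B * sg (Agent.B.F M) (S.U {r | R.Pos r}) = c • S.tauS (Agent.B.F M) := fun B hB h =>
    exists_smul_tau p hgen (rel3_of_inj hπ) (eB_mem B) hB.closed.eB_mul_self fun g u hu h1 hc => by
      by_contra h0
      obtain ⟨E, hE⟩ := hB.exists_defectGroup
      obtain ⟨x, hx⟩ := hE.exists_cj_le hB.closed h0 (hU.to_le ((Subgroup.zpowers_le).2 hu))
        (Subgroup.zpowers_le.2 (Subgroup.mem_centralizer_singleton_iff.2 hc))
      rw [(hE.eq_bot_iff hB.closed).2 h] at hx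
      exact h1 (by simpa using hx (H2.conj_mem_cj x (Subgroup.mem_zpowers u)))
  obtain ⟨b, hb⟩ := key B hB h1
  obtain ⟨c, hc⟩ := key C hC h2
  by_contra hne
  have h3 := mul_sg_ne_zero hU (eB_mem B) hB.closed.eB_mul_self (hB.closed.eB_ne_zero hB.nonempty)
  have h4 := mul_sg_ne_zero hU (eB_mem C) hC.closed.eB_mul_self (hC.closed.eB_ne_zero hC.nonempty)
  have h5 := congrArg (eB M B * ·) hc
  have h6 := congrArg (eB M B * ·) hb
  simp only [← mul_assoc, hB.eB_mul_eB_of_ne hC hne, zero_mul, mul_smul_comm, hB.closed.eB_mul_self] at h5 h6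
  rcases smul_eq_zero.1 h5.symm with h | h
  · exact h4 (by rw [hc, h, zero_smul])
  · exact h3 (by rw [h6, h, smul_zero])

omit [PMod p M] in
theorem nu_stC : nu p S.stC = (Nat.card G).factorization p := by
  rw [nu, H3.charDegree_eq (stC_one hgen), card_U_eq hgen hπ p, Nat.factorization_pow_self Fact.out]

theorem eq_principal (hR : R.Full) {B : Set (IrrCharacter G)} (hB : IsPBlock M B) (h : blockDefect p B ≠ 0) :
    B = principalBlock M G := by
  obtain ⟨E, hE⟩ := hB.exists_defectGroup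
  obtain ⟨g, -, hg⟩ := exists_conj_U hπ (hgen ▸ le_top : E ≤ S.U Set.univ) hE.isPGroup
  replace hE := hE.cj g
  have h1 : H2.cj g E ≤ S.U {r | R.Pos r} := by rintro _ ⟨v, hv, rfl⟩; exact hg v hv
  generalize H2.cj g E = E at hE h1
  obtain ⟨g, -, J, hJ, h2, h3⟩ := borel_tits h1 fun e => h ((hE.eq_bot_iff hB.closed).1 e)
  have h4 : Subgroup.normalizer (H2.cj g⁻¹ E : Set G) ≤ S.Par J := fun n hn => by
    simpa [mul_assoc] using h2 (g * n * g⁻¹) (hgen ▸ Subgroup.mem_top _) fun v hv => by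
      simpa [mul_assoc] using H2.mem_cj.1 ((Subgroup.mem_normalizer_iff''.1 hn _).1 (H2.conj_mem_cj g⁻¹ hv))
  have h5 : H2.cj g⁻¹ E ≤ S.UJ J := by rintro _ ⟨v, hv, rfl⟩; simpa using h3 v hv
  replace hE := hE.cj g⁻¹
  generalize H2.cj g⁻¹ E = E at hE h4 h5
  have hU : IsPGroup p (S.UJ J) := (isPGroup_U (S := S) (p := p) (L := R.lamf) closed_pos' fun _ h => h).to_le (U_mono fun _ h => h.1)
  obtain rfl : E = S.UJ J := by
    by_contra hne
    refine (H2.lt_inf_normalizer hU (lt_of_le_of_ne h5 hne)).not_ge (hE.eq_of_normal_in_normalizer hB (hU.to_le inf_le_left)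
      inf_le_right (le_normalizer_of_conj fun n hn v hv => ⟨Par_conj (h4 hn) hv.1, ?_⟩))
    exact Subgroup.mul_mem _ (Subgroup.mul_mem _ hn hv.2) (Subgroup.inv_mem _ hn)
  obtain ⟨b, hb, -⟩ := hE.exists_root hB Subgroup.le_normalizer (Subgroup.centralizer_le_normalizer _) le_rfl
  refine hb.principal_iff.2 (hb.1.eq_of_mem isPBlock_principal (χ := oneIrr _) ?_ oneIrr_mem)
  obtain ⟨χ, rfl⟩ := hb.1
  refine sameBlock_of_centralizer (Q := (S.UJ J).subgroupOf _) hU.comap_subtype (fun x hx h => ?_) χ _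
  have h6 := cent_UJ hR hπ hJ (g := x) (hgen ▸ Subgroup.mem_top _) fun v hv => by
    have := congrArg Subtype.val (hx ⟨v, Subgroup.le_normalizer hv⟩ hv)
    simp only [Subgroup.coe_mul] at this
    rw [← this]; simp
  obtain ⟨n, hn⟩ := isPGroup_U (S := S) (p := p) (L := R.lamf) closed_pos' (fun _ h => h) ⟨x, h6⟩
  have h7 : orderOf x ∣ p ^ n := orderOf_dvd_of_pow_eq_one (Subtype.ext (by simpa using congrArg Subtype.val hn))
  exact orderOf_eq_one_iff.1 (Nat.Coprime.eq_one_of_dvd (((Fact.out : p.Prime).coprime_iff_not_dvd.2 h).symm.pow_right n) h7)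

theorem eq_stC {χ : G → ℂ} (hχ : IsIrrCharacter G χ) (h : p ^ (Nat.card G).factorization p ∣ charDegree χ) : χ = S.stC := by
  obtain ⟨M, hM⟩ := exists_pMod p
  have h1 : nu p χ = (Nat.card G).factorization p := le_antisymm (nu_le_card ⟨χ, hχ⟩)
    (((Fact.out : p.Prime).pow_dvd_iff_le_factorization hχ.charDegree_pos.ne').1 h)
  have h2 := defect_zero_unique (M := M) hgen hπ (isPBlock_blockOf ⟨χ, hχ⟩) (isPBlock_blockOf ⟨_, stC_irr hgen⟩)
    (((isPBlock_blockOf _).defect_eq_zero_iff (self_mem_blockOf _)).2 h1)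
    (((isPBlock_blockOf _).defect_eq_zero_iff (self_mem_blockOf _)).2 (nu_stC hgen hπ))
  rw [(blockOf_eq_singleton_iff (χ := ⟨χ, hχ⟩)).2 h1, (blockOf_eq_singleton_iff (χ := ⟨_, stC_irr hgen⟩)).2 (nu_stC hgen hπ)] at h2
  exact congrArg Subtype.val (Set.singleton_injective h2)

include p in
theorem card_blocks (hR : R.Full) (i : I D) : Nat.card {B : Set (IrrCharacter G) // IsPBlock M B} = 2 := by
  have h1 : blockDefect p (blockOf M S.stC) = 0 :=
    ((isPBlock_blockOf ⟨_, stC_irr hgen⟩).defect_eq_zero_iff (self_mem_blockOf _)).2 (nu_stC hgen hπ)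
  refine Nat.card_eq_two_iff.2 ⟨⟨_, isPBlock_principal⟩, ⟨_, isPBlock_blockOf ⟨_, stC_irr hgen⟩⟩, fun h => ?_,
    Set.eq_univ_of_forall fun B => ?_⟩
  · have h2 := (isPBlock_principal.defect_eq_zero_iff oneIrr_mem).1 ((congrArg (fun B => blockDefect p B.1) h).trans h1)
    have h3 := card_U_eq hgen hπ p
    rw [← h2, nu, oneIrr, H3.charDegree_eq (n := 1) (by simp)] at h3
    have h4 : S.x (R.sim i) 1 ∈ S.U {r | R.Pos r} := x_mem (R.pos_sim i) 1
    rw [Subgroup.card_eq_one.1 (h3.trans (by simp))] at h4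
    exact one_ne_zero (x_inj' _ (h4.trans (S.x_zero _).symm))
  · by_cases h : blockDefect p B.1 = 0
    · exact Or.inr (Subtype.ext (defect_zero_unique hgen hπ B.2 (isPBlock_blockOf ⟨_, stC_irr hgen⟩) h h1))
    · exact Or.inl (Subtype.ext (eq_principal hgen hπ hR B.2 h))

end StN
end Cfsg.Agent.H5
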