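import Cfsg.Agent.H5.Sz9
import Cfsg.Prelude.Def_KGroupFacts

set_option autoImplicit false

namespace Cfsg.Agent.H5.Suz
open MulAction H7

theorem map_th_comm {F : Type*} [Field F] [Finite F] (θ σ : F →+* F) (x : F) : σ (θ x) = θ (σ x) := by
  obtain ⟨n, e⟩ := (Units.map θ.toMonoidHom).map_cyclic
  have key : ∀ x, x ≠ 0 → θ x = x ^ n := fun x hx => by simpa using congrArg Units.val (e (Units.mk0 x hx))
  by_cases hx : x = 0
  · simp [hx]
  rw [key x hx, key _ ((map_ne_zero σ).2 hx), map_zpow₀]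

namespace SzG
variable {F : Type*} [Field F] {θ : F →+* F} {G Ω : Type*} [Group G] [MulAction G Ω] (Z : SzG θ G Ω) [CharP F 2]

theorem hom_ext {G' : Type*} [Group G'] {f g : G →* G'} (h1 : ∀ a b, f (Z.u a b) = g (Z.u a b)) (h2 : ∀ k, f (Z.h k) = g (Z.h k))
    (h3 : f Z.t = g Z.t) : f = g := MonoidHom.ext fun x => show x ∈ f.eqLocus g from (Z.eq_top (N := f.eqLocus g) (fun _ h => by
      obtain ⟨a, b, rfl⟩ := Z.mem_K_inf.1 h
      exact h1 a b) h2 h3).ge trivial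

variable [Finite F] [Finite G]

theorem exists_fieldAut : ∃ Φ : (F ≃+* F) →* MulAut G, ∀ σ, (∀ a b, Φ σ (Z.u a b) = Z.u (σ a) (σ b)) ∧
    (∀ k, Φ σ (Z.h k) = Z.h (Units.map σ.toMonoidHom k)) ∧ Φ σ Z.t = Z.t := by
  have hJ : ∀ σ : F ≃+* F, (suzukiForm F).map σ = suzukiForm F := fun σ => by
    ext i j; fin_cases i <;> fin_cases j <;> simp [suzukiForm]
  have hφ : ∀ (σ : F ≃+* F) x, σ (θ x) = θ (σ x) := fun σ => map_th_comm θ σ
  choose f hf using fun (σ : F ≃+* F) g => Z.surj ((Z.ρ g).map σ) ⟨by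
    rw [← hJ σ, ← Matrix.transpose_map, ← Matrix.map_mul, ← Matrix.map_mul, (Z.mem g).1], by
    ext i j
    have := congrArg σ (congrFun₂ (Z.mem g).2 i j)
    simpa [Lie.star4, hφ] using this⟩
  refine ⟨MonoidHom.mk' (fun σ => MulEquiv.ofBijective (MonoidHom.mk' (f σ) fun a b => Z.inj (by simp [hf]))
    (Finite.injective_iff_bijective.1 fun a b e => Z.inj (Matrix.map_injective σ.injective
      ((hf σ a).symm.trans ((congrArg Z.ρ e).trans (hf σ b)))))) fun σ τ => MulEquiv.ext fun g => Z.inj ?_,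
    fun σ => ⟨fun a b => Z.inj ((hf _ _).trans ?_), fun k => Z.inj ((hf _ _).trans ?_), Z.inj ((hf _ _).trans (by rw [ρ_t, hJ]))⟩⟩
  · exact (hf _ _).trans (Eq.trans (by rw [hf]; rfl) (hf σ (f τ g)).symm)
  · rw [ρ_u, ρ_u]; ext i j; fin_cases i <;> fin_cases j <;> simp [uM, hφ]
  · rw [ρ_h, ρ_h]; ext i j; fin_cases i <;> fin_cases j <;> simp [hM, hφ]

variable [Finite Ω]

theorem exists_perm (α : G ≃* G) : ∃ f : Ω → Ω, Function.Injective f ∧ (∀ a g, g ∈ Z.K a → α g ∈ Z.K (f a)) ∧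
    ∀ (g : G) a, f (g • a) = α g • f a := by
  choose f hf using fun a => Z.exists_le_K ((Z.K_pgroup a).map α.toMonoidHom)
  have h1 : ∀ a g, g ∈ Z.K a → α g ∈ Z.K (f a) := fun a g h => hf a ⟨g, h, rfl⟩
  have ex : ∀ a, ∃ x ∈ Z.K a, x ≠ 1 := fun a => by
    obtain ⟨⟨x, hx⟩, x1⟩ := Subgroup.ne_bot_iff_exists_ne_one.1 (Z.Zc_ne_bot a)
    exact ⟨x, (Z.mem_Zc.1 hx).1, fun e => x1 (Subtype.ext e)⟩
  refine ⟨f, fun a b e => ?_, h1, fun g a => ?_⟩
  · have key : ∀ a, (Z.K a).map α.toMonoidHom = Z.K (f a) := fun a => Subgroup.eq_of_le_of_card_ge (hf a) (by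
      rw [Subgroup.card_map_of_injective α.injective, Z.card_K, Z.card_K])
    obtain ⟨x, hx, x1⟩ := ex a
    have := Subgroup.map_injective (f := α.toMonoidHom) α.injective ((key a).trans (e ▸ (key b).symm))
    exact Z.fix_unique (this ▸ hx) x1 hx.1
  · obtain ⟨x, hx, x1⟩ := ex a
    exact Z.fix_unique (Z.conj_mem_K.2 (h1 a x hx)) (by simpa using x1) (by simpa using (h1 _ _ (Z.conj_mem_K.2 hx)).1)

include Z in
theorem card_out : Nat.card (Out G) = Nat.card (F ≃+* F) := by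
  obtain ⟨Φ, hΦ⟩ := Z.exists_fieldAut
  refine (Nat.card_congr (Equiv.ofBijective ((QuotientGroup.mk' _).comp Φ) ⟨(injective_iff_map_eq_one _).2 fun σ h => ?_, fun α => ?_⟩)).symm
  · obtain ⟨x, e⟩ := (QuotientGroup.eq_one_iff _).1 h
    obtain ⟨h1, -, h2⟩ := hΦ σ
    simp only [← e, MulAut.conj_apply, mul_inv_eq_iff_eq_mul] at h1 h2
    have hx := Z.cent_K (Z.u_mem 0 1) (by simp [u_eq_one]) (by simpa using h1 0 1)
    obtain rfl := (Z.ker _).eq_one hx Z.inf_ne_o.symm (by rw [← t_inf, ← mul_smul, h2, mul_smul, hx.1])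
    exact RingEquiv.ext fun b => (Z.u_inj.1 (by simpa using h1 0 b)).2.symm
  obtain ⟨α, rfl⟩ := QuotientGroup.mk_surjective α
  have key : ∀ α : G ≃* G, ∀ f : Ω → Ω, (∀ a g, g ∈ Z.K a → α g ∈ Z.K (f a)) → (∀ (g : G) a, f (g • a) = α g • f a) →
      f Z.inf = Z.inf → ∀ b, ∃ c, α (Z.u 0 b) = Z.u 0 c := fun α f h1 h2 h3 b => Z.mem_Zc_inf.1 (Z.mem_Zc.2
    ⟨h3 ▸ h1 _ _ (Z.u_mem 0 b), by rw [← map_mul, Z.u_invol.2 rfl, map_one]⟩)
  suffices ∀ α : G ≃* G, ∀ f : Ω → Ω, (∀ a g, g ∈ Z.K a → α g ∈ Z.K (f a)) → (∀ (g : G) a, f (g • a) = α g • f a) →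
      f Z.inf = Z.inf → f Z.o = Z.o → α (Z.u 0 1) = Z.u 0 1 → ∃ σ, Φ σ = α by
    obtain ⟨f, hf, h1, h2⟩ := Z.exists_perm α
    obtain ⟨x, e1, e2⟩ := mt_two Z.z3.two (hf.ne Z.inf_ne_o) Z.inf_ne_o
    obtain ⟨c, hc⟩ := key (MulAut.conj x * α) (x • f ·) (fun a g h => Z.conj_mem_K.2 (h1 a g h)) (by simp [h2, mul_smul]) e1 1
    obtain ⟨k, rfl⟩ := Z.exists_nrm (y := c) (by rintro rfl; simp [u_eq_one] at hc)
    obtain ⟨σ, e⟩ := this (MulAut.conj ((Z.h k)⁻¹ * x) * α) (((Z.h k)⁻¹ * x) • f ·) (fun a g h => Z.conj_mem_K.2 (h1 a g h))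
      (by simp [h2, mul_smul]) (by rw [mul_smul, e1, inv_smul_eq_iff, h_inf]) (by rw [mul_smul, e2, inv_smul_eq_iff, h_o]) (by
        rw [map_mul, mul_assoc, MulAut.mul_apply, hc, MulAut.conj_apply, inv_inv, mul_assoc, inv_mul_eq_iff_eq_mul,
          eq_comm, ← mul_inv_eq_iff_eq_mul, h_u]; simp)
    exact ⟨σ, (QuotientGroup.eq_iff_div_mem.2 ⟨(Z.h k)⁻¹ * x, by rw [e, mul_div_cancel_right]⟩ : (Φ σ : Out G) = α)⟩
  intro α f h1 h2 h3 h4 h5
  choose s hs using key α f h1 h2 h3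
  choose τ hτ using fun k => Z.mem_St.1 (show α (Z.h k) ∈ _ from H7.mem_St.2
    ⟨by rw [← h3, ← h2, h_inf], by rw [← h4, ← h2, h_o]⟩)
  have s1 : s 1 = 1 := (Z.u_inj.1 ((hs 1).symm.trans h5)).2
  have e1 : ∀ (k : Fˣ) b, s (k ^ 2 * θ k * b) = τ k ^ 2 * θ (τ k) * s b := fun k b => by
    have := congrArg α (Z.h_u k 0 b)
    rw [map_mul, map_mul, map_inv, hτ, hs, h_u, mul_zero, mul_zero, hs] at this
    exact (Z.u_inj.1 this).2.symm
  have s0 : s 0 = 0 := (Z.u_eq_one.1 ((hs 0).symm.trans (by simp))).2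
  let σ : F →+* F :=
    { toFun := s
      map_one' := s1
      map_zero' := s0
      map_add' := fun x y => by
        have := congrArg α (Z.u_mul 0 x 0 y)
        rw [map_mul, hs, hs, u_mul] at this
        simp only [hs, add_zero, map_zero, zero_mul, u_inj] at this
        exact this.2.symm
      map_mul' := fun x y => by
        by_cases x0 : x = 0
        · simp [x0, s0]
        obtain ⟨k, rfl⟩ := Z.exists_nrm x0
        rw [e1, ← mul_one (_ * θ k), e1, s1, mul_one] }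
  have e2 : ∀ k, (τ k : F) = s k := fun k => Z.nrm_inj' (by
    have := e1 k 1
    rw [s1, mul_one, mul_one] at this
    rw [← this]; exact (map_mul σ _ _).trans (by rw [map_pow, map_th_comm]; rfl))
  let σ' := RingEquiv.ofBijective σ (Finite.injective_iff_bijective.1 σ.injective)
  obtain ⟨p1, p2, p3⟩ := hΦ σ'
  obtain ⟨l, hl⟩ := Z.swap_eq (s := α Z.t) (by rw [← h3, ← h2, t_inf, h4]) (by rw [← h4, ← h2, t_o, h3])
  obtain ⟨a, c, hc⟩ := Z.mem_K_inf.1 (h3 ▸ h1 _ _ (Z.u_mem 1 0))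
  obtain rfl : a = 1 := Z.nrm_inj ((Z.u_inj (a := 0) (c := 0)).1 (by rw [← Z.u_sq _ c, ← hc, ← map_pow, u_sq]; simpa using h5)).2
  have e3 : Z.t • Z.pt (some (0, 1)) = Z.pt (some (1, 0)) := by
    obtain ⟨x, y, e⟩ := Z.exists_pt (a := Z.t • Z.pt (some (0, 1))) fun e => by
      simpa [o, Prod.ext_iff] using smul_left_cancel _ (e.trans Z.t_o.symm)
    obtain ⟨-, h, h'⟩ := Z.t_pt e
    simp_all
  have e4 := congrArg f e3
  rw [← u_o, ← u_o, h2, h2, h2, h4, h5, hl, hc, u_o, u_o, mul_smul, h_pt] at e4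
  obtain ⟨-, e5, e6⟩ := Z.t_pt e4
  simp only [mul_zero, mul_one, zero_mul, map_zero, zero_add, one_mul, mul_eq_zero, map_eq_zero, pow_eq_zero_iff two_ne_zero,
    l.ne_zero, or_false] at e5 e6
  obtain rfl : l = 1 := Units.ext (Z.nrm_inj' (by simpa using (Z.eq_of_th_eq e5).resolve_left (by simp)))
  have e7 : ∀ k, Φ σ' (Z.h k) = α (Z.h k) := fun k => by rw [p2, hτ]; exact congrArg _ (Units.ext (e2 k).symm)
  refine ⟨σ', MulEquiv.toMonoidHom_injective (Z.hom_ext (fun a b => ?_) e7 (p3.trans (by simpa using hl.symm)))⟩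
  change Φ σ' _ = α _
  have e8 : ∀ b, Φ σ' (Z.u 0 b) = α (Z.u 0 b) := fun b => by rw [p1, hs, map_zero]; rfl
  by_cases a0 : a = 0
  · rw [a0, e8]
  obtain ⟨k, rfl⟩ := Finite.surjective_of_injective θ.injective a
  rw [show Z.u (θ k) b = Z.h (Units.mk0 k ((map_ne_zero θ).1 a0)) * Z.u 1 0 * (Z.h (Units.mk0 k ((map_ne_zero θ).1 a0)))⁻¹ * Z.u 0 b by
    simp [h_u, u_mul]]
  simp only [map_mul, map_inv, e7, e8, p1, hc, e6, map_one, map_zero]

end SzG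

end Cfsg.Agent.H5.Suz
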