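import Cfsg.Agent.H5.Types

set_option autoImplicit false
set_option maxRecDepth 100000

namespace Cfsg.Agent.H5

open Cfsg.Lie

namespace RS
variable {D : ChevalleyDatum} (R : RS D)

/-- the Dynkin diagram is connected -/
def WzConn (i0 : I D) (par : I D → I D) (d : I D → ℕ) : Prop :=
  ∀ i, i = i0 ∨ (d (par i) < d i ∧ R.car i (R.sim (par i)) ≠ 0)

def decWzConn (i0 : I D) (par : I D → I D) (d : I D → ℕ) : Decidable (R.WzConn i0 par d) := by
  unfold WzConn; infer_instance

theorem wz_central_sim {w : R.W} (hw : w ∈ Subgroup.center R.W) (i : I D) :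
    w • R.sim i = R.sim i ∨ w • R.sim i = R.neg (R.sim i) := by
  have h1 : R.ref i (w • R.sim i) = R.neg (w • R.sim i) := by
    rw [← sw_smul, ← mul_smul, Subgroup.mem_center_iff.1 hw, mul_smul, sw_smul, ref_sim_self, smul_neg]
  by_contra hne
  push Not at hne
  have := R.pos_ref_iff hne.1 hne.2
  rw [h1, pos_neg_iff] at this
  exact not_iff_self this

theorem wz_eq_of_sim {w w' : R.W} (h : ∀ i, w • R.sim i = w' • R.sim i) : w = w' := by
  have : w'⁻¹ * w = 1 := R.eq_one_of_fix fun i => by rw [mul_smul, h, inv_smul_smul]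
  rw [inv_mul_eq_one] at this
  exact this.symm

theorem wz_central_cases {i0 : I D} {par : I D → I D} {d : I D → ℕ} (hc : R.WzConn i0 par d) {w : R.W}
    (hw : w ∈ Subgroup.center R.W) : w = 1 ∨ ∀ i, w • R.sim i = R.neg (R.sim i) := by
  have key : ∀ i j, R.car i (R.sim j) ≠ 0 → (w • R.sim i = R.sim i ↔ w • R.sim j = R.sim j) := by
    intro i j hij
    have hp := R.pr_smul w (R.sim i) (R.sim j)
    rw [pr_sim] at hp
    rcases R.wz_central_sim hw i with h1 | h1 <;> rcases R.wz_central_sim hw j with h2 | h2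
    · simp [h1, h2]
    · rw [h1, h2, pr_neg_right, pr_sim] at hp; omega
    · rw [h1, h2, pr_neg_left, pr_sim] at hp; omega
    · simp [h1, h2, R.neg_ne]
  have all : ∀ n i, d i = n → (w • R.sim i = R.sim i ↔ w • R.sim i0 = R.sim i0) := by
    intro n
    induction n using Nat.strong_induction_on with
    | _ n ih =>
      intro i hi
      rcases hc i with rfl | ⟨h1, h2⟩
      · rfl
      · rw [key i _ h2]; exact ih _ (hi ▸ h1) _ rfl
  by_cases h0 : w • R.sim i0 = R.sim i0
  · exact Or.inl (R.eq_one_of_fix fun i => (all _ i rfl).2 h0)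
  · exact Or.inr fun i => (R.wz_central_sim hw i).resolve_left fun h => h0 ((all _ i rfl).1 h)

theorem wz_neg_all {w : R.W} (h : ∀ i, w • R.sim i = R.neg (R.sim i)) (r : Φ D) : w • r = R.neg r := R.vec_inj (by
  rw [vec_smul, vec_neg, vec_eq_sum r, map_sum, ← Finset.sum_neg_distrib]
  simp only [map_smul, ← vec_smul, h, vec_neg, _root_.smul_neg])

theorem wz_center_two {i0 : I D} {par : I D → I D} {d : I D → ℕ} (hc : R.WzConn i0 par d) {z : R.W}
    (hz : ∀ i, z • R.sim i = R.neg (R.sim i)) :
    Nat.card (Subgroup.center R.W) = 2 ∧ Subgroup.center R.W ≤ Subgroup.zpowers z := by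
  have hzc : z ∈ Subgroup.center R.W := Subgroup.mem_center_iff.2 fun g => W_ext fun r => by
    rw [mul_smul, mul_smul, R.wz_neg_all hz, R.wz_neg_all hz, smul_neg]
  have hcase : ∀ w ∈ Subgroup.center R.W, w = 1 ∨ w = z := fun w hw =>
    (R.wz_central_cases hc hw).imp id fun h => R.wz_eq_of_sim fun i => by rw [h, hz]
  refine ⟨(Nat.card_eq_two_iff' (1 : Subgroup.center R.W)).2 ⟨⟨z, hzc⟩, fun h => ?_, fun w hw => ?_⟩, fun w hw => ?_⟩
  · have h1 : z = 1 := congrArg Subtype.val h
    have := hz i0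
    rw [h1, one_smul] at this
    exact R.neg_ne _ this.symm
  · exact Subtype.ext ((hcase w w.2).resolve_left fun h => hw (Subtype.ext h))
  · rcases hcase w hw with rfl | rfl
    · exact one_mem _
    · exact Subgroup.mem_zpowers _

theorem wz_center_bot {i0 : I D} {par : I D → I D} {d : I D → ℕ} (hc : R.WzConn i0 par d) {z : R.W}
    (hz : ∀ i, ¬ R.Pos (z • R.sim i)) (hz' : ∃ i, z • R.sim i ≠ R.neg (R.sim i)) :
    Subgroup.center R.W = ⊥ := by
  rw [eq_bot_iff]
  intro w hw
  rcases R.wz_central_cases hc hw with rfl | h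
  · exact one_mem _
  · exfalso
    have : z * w = 1 := R.eq_one_of_pos fun i => by rw [mul_smul, h, smul_neg, pos_neg_iff]; exact hz i
    obtain ⟨i, hi⟩ := hz'
    have h2 : (z * w) • R.neg (R.sim i) = R.neg (R.sim i) := by rw [this, one_smul]
    rw [mul_smul, smul_neg, h, neg_neg] at h2
    exact hi h2

theorem wz_pow_smul (l : List (I D)) (k : ℕ) (r : Φ D) :
    ((l.map R.sw).prod ^ k) • r = (fun s => l.foldr R.ref s)^[k] r := by
  induction k generalizing r with
  | zero => simp
  | succ k ih => rw [pow_succ, mul_smul, ih, R.smul_prod_sw, Function.iterate_succ_apply]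

theorem wz_transfer {G : Type*} [Group G] (e : R.W ≃* G) (s : I D → G) (he : ∀ i, e (R.sw i) = s i) (l : List (I D)) :
    e (l.map R.sw).prod = (l.map s).prod := by
  rw [map_list_prod, List.map_map]
  congr 2
  funext i; exact he i

theorem wz_2418_two {G : Type*} [Group G] {s : I D → G} (he : ∃ e : R.W ≃* G, ∀ i, e (R.sw i) = s i) (l : List (I D)) (k : ℕ)
    (i0 : I D) (par : I D → I D) (d : I D → ℕ) (hc : R.WzConn i0 par d)
    (hz : ∀ i, (fun s => l.foldr R.ref s)^[k] (R.sim i) = R.neg (R.sim i)) :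
    Nat.card (Subgroup.center G) = 2 ∧ Subgroup.center G ≤ Subgroup.zpowers (l.map s).prod := by
  obtain ⟨e, he⟩ := he
  obtain ⟨h1, h2⟩ := R.wz_center_two hc (z := (l.map R.sw).prod ^ k) fun i => by rw [wz_pow_smul, hz]
  refine ⟨by rw [← h1]; exact Nat.card_congr (Subgroup.centerCongr e).toEquiv.symm, fun g hg => ?_⟩
  have hg' : e.symm g ∈ Subgroup.center R.W := ((Subgroup.centerCongr e.symm) ⟨g, hg⟩).2
  obtain ⟨m, hm⟩ := Subgroup.mem_zpowers_iff.1 (h2 hg')
  have : g = ((l.map s).prod ^ k) ^ m := by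
    rw [← R.wz_transfer e s he, ← map_pow, ← map_zpow, hm, MulEquiv.apply_symm_apply]
  rw [this]
  exact zpow_mem (pow_mem (Subgroup.mem_zpowers _) _) _

theorem wz_2418_one {G : Type*} [Group G] {s : I D → G} (he : ∃ e : R.W ≃* G, ∀ i, e (R.sw i) = s i) (l : List (I D)) (c : G)
    (i0 : I D) (par : I D → I D) (d : I D → ℕ) (hc : R.WzConn i0 par d)
    (hz : ∀ i, 2 * (l.foldr R.ref (R.sim i)).val < D.nroots) (hz' : ∃ i, l.foldr R.ref (R.sim i) ≠ R.neg (R.sim i)) :
    Nat.card (Subgroup.center G) = 1 ∧ Subgroup.center G ≤ Subgroup.zpowers c := by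
  obtain ⟨e, he⟩ := he
  have h1 := R.wz_center_bot hc (z := (l.map R.sw).prod)
    (fun i => by rw [R.smul_prod_sw, pos_iff_le]; exact not_le.2 (hz i)) (by simpa only [R.smul_prod_sw] using hz')
  have h2 : Subgroup.center G = ⊥ := by
    rw [eq_bot_iff]
    intro g hg
    have hg' : e.symm g ∈ Subgroup.center R.W := ((Subgroup.centerCongr e.symm) ⟨g, hg⟩).2
    rw [h1, Subgroup.mem_bot] at hg'
    rw [Subgroup.mem_bot, ← e.apply_symm_apply g, hg', map_one]
  rw [h2]
  exact ⟨by simp, bot_le⟩

theorem wz_gen (K : Subgroup R.W) (B : List (List (I D))) (hB : ∀ b ∈ B, (b.map R.sw).prod ∈ K) (tab : I D → List ℕ)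
    (h : ∀ j i, ((tab j).flatMap (B.getD · [])).foldr R.ref (R.sim i) = R.ref j (R.sim i)) : K = ⊤ := by
  have h1 : ∀ t : List ℕ, ((t.flatMap (B.getD · [])).map R.sw).prod ∈ K := by
    intro t
    induction t with
    | nil => simp
    | cons a t ih =>
      rw [List.flatMap_cons, List.map_append, List.prod_append]
      refine mul_mem ?_ ih
      by_cases ha : a < B.length
      · rw [List.getD_eq_getElem _ _ ha]; exact hB _ (List.getElem_mem ha)
      · rw [List.getD_eq_default _ _ (not_lt.1 ha)]; simp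
  have h2 : ∀ j, R.sw j ∈ K := fun j => by
    have : (((tab j).flatMap (B.getD · [])).map R.sw).prod = R.sw j :=
      R.wz_eq_of_sim fun i => by rw [R.smul_prod_sw, h, sw_smul]
    rw [← this]; exact h1 _
  rw [eq_top_iff]
  intro w _
  induction w using W_induction with
  | one => exact one_mem _
  | step i w ih => exact mul_mem (h2 i) (ih trivial)

theorem wz_rev (l : List (I D)) : (l.reverse.map R.sw).prod = ((l.map R.sw).prod)⁻¹ := by
  induction l with
  | nil => simp
  | cons a l ih => simp only [List.reverse_cons, List.map_append, List.prod_append, ih]; simp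

theorem wz_2419 {G : Type*} [Group G] {s : I D → G} (he : ∃ e : R.W ≃* G, ∀ i, e (R.sw i) = s i) (l : List (I D))
    (A : List (I D)) (hA : A.Nodup) (tab : I D → List ℕ)
    (h : ∀ j i, ((tab j).flatMap ((l :: l.reverse :: A.map fun a => [a]).getD · [])).foldr R.ref (R.sim i) = R.ref j (R.sim i)) :
    ∃ T : Finset G, T.card = A.length ∧ (∀ t ∈ T, ∃ (g : G) (i : I D), t = g * s i * g⁻¹) ∧
      Subgroup.closure (({(l.map s).prod} : Set G) ∪ ↑T) = ⊤ := by
  classical
  obtain ⟨e, he⟩ := he
  have hs : Function.Injective s := fun i j hij => by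
    have h1 : R.sw i = R.sw j := e.injective (by rw [he, he, hij])
    by_contra hne
    have h2 : R.Pos (R.ref j (R.sim i)) := R.pos_ref (R.pos_sim i) fun h => hne (R.sim_inj h)
    rw [← sw_smul, ← h1, sw_smul, ref_sim_self, pos_neg_iff] at h2
    exact h2 (R.pos_sim i)
  refine ⟨(A.map s).toFinset, by rw [List.toFinset_card_of_nodup (hA.map hs), List.length_map], fun t ht => ?_, ?_⟩
  · obtain ⟨a, -, rfl⟩ := List.mem_map.1 (List.mem_toFinset.1 ht)
    exact ⟨1, a, by simp⟩
  · set K := Subgroup.closure (({(l.map s).prod} : Set G) ∪ ↑(A.map s).toFinset) with hK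
    have hc : (l.map R.sw).prod ∈ K.comap e.toMonoidHom := by
      rw [Subgroup.mem_comap]
      show e _ ∈ K
      rw [R.wz_transfer e s he]
      exact Subgroup.subset_closure (Or.inl rfl)
    have := R.wz_gen (K.comap e.toMonoidHom) _ (fun b hb => ?_) tab h
    · rw [eq_top_iff]
      intro g _
      have h3 : e.symm g ∈ K.comap e.toMonoidHom := this ▸ Subgroup.mem_top _
      rw [Subgroup.mem_comap] at h3
      simpa using h3
    · rcases List.mem_cons.1 hb with rfl | hb
      · exact hc
      rcases List.mem_cons.1 hb with rfl | hb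
      · rw [wz_rev]; exact inv_mem hc
      obtain ⟨a, ha, rfl⟩ := List.mem_map.1 hb
      rw [Subgroup.mem_comap]
      show e _ ∈ K
      rw [R.wz_transfer e s he]
      refine Subgroup.subset_closure (Or.inr ?_)
      simpa using ⟨a, ha, rfl⟩

end RS

end Cfsg.Agent.H5
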